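import Cfsg.Agent.Lib.Geometric.Orth.SympTensor

/-!
# Symplectic groups are perfect outside three small cases

All transvections are commutators of isometries: conjugation shows this over fields with more than
three elements, and a vanishing product of transvections on a totally isotropic subspace otherwise.
-/

set_option autoImplicit false
set_option linter.unusedSectionVars false

namespace CfsgLib.Geometric.TensorOrth

open Matrix
open scoped commutatorElement

variable {k : ℕ} {F : Type*} [Field F] {f : (Fin k → F) → (Fin k → F) → F}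

/-- Every transvection is a product of commutators of isometries. -/
lemma T_mem_commutator (hf : Cfsg.Geo.IsSymplecticForm f)
    (h : (∃ a : F, a ≠ 0 ∧ a * a ≠ 1) ∨ ((2 : F) ≠ 0 ∧ 4 ≤ k) ∨ 6 ≤ k) (v : Fin k → F) (c : F) :
    Symp.T hf v c ∈ ⁅isom f, isom f⁆ := by
  by_cases hv : v = 0
  · have : Symp.T hf v c = 1 := gl_ext fun x => by simp [hv, Symp.ap_T]
    rw [this]; exact one_mem _
  by_cases hbig : ∃ a : F, a ≠ 0 ∧ a * a ≠ 1
  · obtain ⟨a, ha, ha1⟩ := hbig
    have hne : a * a - 1 ≠ 0 := sub_ne_zero.mpr ha1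
    obtain ⟨g, hg, hgv⟩ := Symp.exists_isom_map hf hv (smul_ne_zero ha hv)
    have hm : ⁅g, Symp.T hf v (c / (a * a - 1))⁆ ∈ ⁅isom f, isom f⁆ :=
      Subgroup.commutator_mem_commutator hg (Symp.T_mem_isom hf _ _)
    rw [commutatorElement_def, Symp.conj_T hf hg, hgv, Symp.T_smul] at hm
    have hinv : (Symp.T hf v (c / (a * a - 1)))⁻¹ = Symp.T hf v (-(c / (a * a - 1))) :=
      inv_eq_of_mul_eq_one_right (by rw [Symp.T_mul, add_neg_cancel, Symp.T_zero_right])
    rw [hinv, Symp.T_mul, show a * a * (c / (a * a - 1)) + -(c / (a * a - 1)) =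
      (a * a - 1) * (c / (a * a - 1)) by ring, mul_div_cancel₀ c hne] at hm
    exact hm
  push Not at hbig
  let G := isom f
  let π : G →* Abelianization G := Abelianization.of
  let τ : (Fin k → F) → G := fun w => ⟨Symp.T hf w c, Symp.T_mem_isom hf w c⟩
  suffices hπ : π (τ v) = 1 by
    rw [← Subgroup.map_subtype_commutator]
    exact ⟨τ v, by rw [← Abelianization.ker_of]; exact hπ, rfl⟩
  have hconst : ∀ w, w ≠ 0 → π (τ w) = π (τ v) := by
    intro w hw
    obtain ⟨g, hg, hgv⟩ := Symp.exists_isom_map hf hv hw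
    have : τ w = ⟨g, hg⟩ * τ v * (⟨g, hg⟩ : G)⁻¹ := Subtype.ext (by
      show Symp.T hf w c = g * Symp.T hf v c * g⁻¹
      rw [Symp.conj_T hf hg, hgv])
    rw [this, map_mul, map_mul, map_inv, mul_inv_cancel_comm]
  obtain ⟨m, b, hef, hee, hff⟩ := Orth.exists_symp_basis hf
  have hkm : k = m + m := by
    simpa [Fintype.card_sum] using Module.finrank_eq_card_basis b
  have hp : ∀ i j, f (b (Sum.inl i)) (b (Sum.inl j)) = 0 := hee
  have hadd := hf.bilinear.add_left
  have haddr := hf.bilinear.add_right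
  have hne : ∀ w : Fin k → F, ∀ i, f w (b (Sum.inr i)) ≠ 0 → w ≠ 0 := fun w i h0 hw0 =>
    h0 (by rw [hw0]; exact Symp.zero_left hf _)
  by_cases h2 : (2 : F) = 0
  · have hk : 6 ≤ k := by
      rcases h with ⟨a, ha, ha1⟩ | ⟨h2', -⟩ | h6
      exacts [absurd (hbig a ha) ha1, absurd h2 h2', h6]
    set x := b (Sum.inl (⟨0, by omega⟩ : Fin m)) with hx
    set y := b (Sum.inl (⟨1, by omega⟩ : Fin m)) with hy
    set z := b (Sum.inl (⟨2, by omega⟩ : Fin m)) with hz
    have hprod : τ x * τ y * τ z * τ (x + y) * τ (x + z) * τ (y + z) * τ (x + y + z) = 1 := by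
      refine Subtype.ext (gl_ext fun w => ?_)
      simp only [τ, Subgroup.coe_mul, Subgroup.coe_one, ap_mul, ap_one, Symp.ap_T, hadd, haddr,
        hf.bilinear.smul_left, hx, hy, hz, hp, mul_zero, add_zero]
      match_scalars
      all_goals
        first
          | ring1
          | linear_combination (2 * c * f w (b (Sum.inl (⟨0, by omega⟩ : Fin m))) +
              c * f w (b (Sum.inl (⟨1, by omega⟩ : Fin m))) +
              c * f w (b (Sum.inl (⟨2, by omega⟩ : Fin m)))) * h2
          | linear_combination (c * f w (b (Sum.inl (⟨0, by omega⟩ : Fin m))) +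
              2 * c * f w (b (Sum.inl (⟨1, by omega⟩ : Fin m))) +
              c * f w (b (Sum.inl (⟨2, by omega⟩ : Fin m)))) * h2
          | linear_combination (c * f w (b (Sum.inl (⟨0, by omega⟩ : Fin m))) +
              c * f w (b (Sum.inl (⟨1, by omega⟩ : Fin m))) +
              2 * c * f w (b (Sum.inl (⟨2, by omega⟩ : Fin m)))) * h2
    have hsq : τ v * τ v = 1 := Subtype.ext (by
      show Symp.T hf v c * Symp.T hf v c = 1
      rw [Symp.T_mul, show c + c = 0 by linear_combination c * h2, Symp.T_zero_right])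
    have he := congrArg π hprod
    simp only [map_mul, map_one] at he
    rw [hconst x (hne _ ⟨0, by omega⟩ (by simp [hx, hef])),
      hconst y (hne _ ⟨1, by omega⟩ (by simp [hy, hef])),
      hconst z (hne _ ⟨2, by omega⟩ (by simp [hz, hef])),
      hconst (x + y) (hne _ ⟨0, by omega⟩ (by simp [hx, hy, hadd, hef])),
      hconst (x + z) (hne _ ⟨0, by omega⟩ (by simp [hx, hz, hadd, hef])),
      hconst (y + z) (hne _ ⟨1, by omega⟩ (by simp [hy, hz, hadd, hef])),
      hconst (x + y + z) (hne _ ⟨0, by omega⟩ (by simp [hx, hy, hz, hadd, hef]))] at he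
    have e2 : π (τ v) * π (τ v) = 1 := by rw [← map_mul, hsq, map_one]
    rwa [e2, one_mul, e2, one_mul, e2, one_mul] at he
  · have hk : 4 ≤ k := by
      rcases h with ⟨a, ha, ha1⟩ | ⟨-, h4⟩ | h6
      exacts [absurd (hbig a ha) ha1, h4, by omega]
    have h3 : (3 : F) = 0 := by linear_combination hbig 2 h2
    set x := b (Sum.inl (⟨0, by omega⟩ : Fin m)) with hx
    set y := b (Sum.inl (⟨1, by omega⟩ : Fin m)) with hy
    have hprod : τ x * τ y * τ (x + y) * τ (x - y) = 1 := by
      refine Subtype.ext (gl_ext fun w => ?_)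
      simp only [τ, Subgroup.coe_mul, Subgroup.coe_one, ap_mul, ap_one, Symp.ap_T, hadd, haddr,
        Symp.sub_left hf, Symp.sub_right hf,
        hf.bilinear.smul_left, hx, hy, hp, mul_zero, sub_zero, add_zero]
      match_scalars
      all_goals
        first
          | ring1
          | linear_combination c * f w (b (Sum.inl (⟨0, by omega⟩ : Fin m))) * h3
          | linear_combination c * f w (b (Sum.inl (⟨1, by omega⟩ : Fin m))) * h3
    have hcube : τ v * τ v * τ v = 1 := Subtype.ext (by
      show Symp.T hf v c * Symp.T hf v c * Symp.T hf v c = 1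
      rw [Symp.T_mul, Symp.T_mul, show c + c + c = 0 by linear_combination c * h3,
        Symp.T_zero_right])
    have he := congrArg π hprod
    simp only [map_mul, map_one] at he
    rw [hconst x (hne _ ⟨0, by omega⟩ (by simp [hx, hef])),
      hconst y (hne _ ⟨1, by omega⟩ (by simp [hy, hef])),
      hconst (x + y) (hne _ ⟨0, by omega⟩ (by simp [hx, hy, hadd, hef])),
      hconst (x - y) (hne _ ⟨0, by omega⟩ (by simp [hx, hy, Symp.sub_left hf, hef]))] at he
    have e3 : π (τ v) * π (τ v) * π (τ v) = 1 := by rw [← map_mul, ← map_mul, hcube, map_one]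
    rwa [e3, one_mul] at he

/-- The symplectic group is perfect. -/
theorem isom_le_commutator (hf : Cfsg.Geo.IsSymplecticForm f)
    (h : (∃ a : F, a ≠ 0 ∧ a * a ≠ 1) ∨ ((2 : F) ≠ 0 ∧ 4 ≤ k) ∨ 6 ≤ k) :
    isom f ≤ ⁅isom f, isom f⁆ :=
  Symp.isom_le_of_T_mem hf fun v c => T_mem_commutator hf h v c

end CfsgLib.Geometric.TensorOrth
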