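import Cfsg.Agent.Lib.Geometric.TensorOrth.Basic
import Cfsg.Agent.Lib.Forms.Symplectic

/-!
# The types of factor operators

`rk u u` (type `N`) and `al x z` on a totally isotropic plane (type `A`): transitivity of the
isometries, and the products of two of them in one factor.
-/

set_option autoImplicit false
set_option linter.unusedSectionVars false

namespace CfsgLib.Geometric.TensorOrth

open scoped Matrix MatrixGroups
open Matrix CfsgLib.SmallDim Cfsg.Geo CfsgLib.Geometric.TensorForm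
open CfsgLib.Geometric.TensorHerm (rk rk_mulVec rk_mul rk_add_left rk_add_right rk_smul_left)

variable {k : ℕ} {F : Type*} [Field F]

local notation "Mk" => Matrix (Fin k) (Fin k) F

/-- The type of a factor operator. -/
inductive Ty | one | N | A
  deriving DecidableEq

/-- A factor operator of the given type. -/
def OfTy (D : Datum k F) : Ty → Matrix (Fin k) (Fin k) F → Prop
  | .one, f => f = 1
  | .N, f => ∃ u, u ≠ 0 ∧ f = rk D u u
  | .A, f => ∃ x z, D.f1 x z = 0 ∧ LinearIndependent F ![x, z] ∧ f = al D x z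

variable {D : Datum k F}

lemma li_pair {x z : Fin k → F} :
    LinearIndependent F ![x, z] ↔ x ≠ 0 ∧ z ∉ Submodule.span F {x} := by
  constructor
  · intro h
    have hx : x ≠ 0 := h.ne_zero 0
    refine ⟨hx, fun hz => ?_⟩
    obtain ⟨a, ha⟩ := Submodule.mem_span_singleton.1 hz
    exact (LinearIndependent.pair_iff' hx).1 h a ha
  · rintro ⟨hx, hz⟩
    exact (LinearIndependent.pair_iff' hx).2 fun a ha =>
      hz (Submodule.mem_span_singleton.2 ⟨a, ha⟩)

namespace IsAlt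

variable (hD : IsAlt D)
include hD

lemma neg_left (x y : Fin k → F) : D.f1 (-x) y = -D.f1 x y := by
  rw [← neg_one_smul F x, D.f1_smul_left, neg_one_mul]

lemma neg_right (x y : Fin k → F) : D.f1 x (-y) = -D.f1 x y := by
  rw [← neg_one_smul F y, hD.smul_right, neg_one_mul]

lemma rk_smul_right (s : F) (u w : Fin k → F) : rk D u (s • w) = s • rk D u w := by
  rw [TensorHerm.rk_smul_right, hD.id]; rfl

lemma al_smul_left (s : F) (x z : Fin k → F) : al D (s • x) z = s • al D x z := by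
  rw [al, al, rk_smul_left, hD.rk_smul_right, smul_sub]

omit hD in
lemma al_add_right (x z y : Fin k → F) : al D x (z + y) = al D x z + al D x y := by
  rw [al, al, al, rk_add_right, rk_add_left]; abel

lemma rk_ne_zero {u w : Fin k → F} (hu : u ≠ 0) (hw : w ≠ 0) : rk D u w ≠ 0 := by
  intro h
  obtain ⟨x, hx⟩ := (hD.symp.nondegenerate w hw).1
  have := rk_mulVec (D := D) u w x
  rw [h, Matrix.zero_mulVec] at this
  exact hx ((smul_eq_zero.1 this.symm).resolve_right hu)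

lemma al_ne_zero {x z : Fin k → F} (h : LinearIndependent F ![x, z]) : al D x z ≠ 0 := by
  intro h0
  obtain ⟨hx, hz⟩ := li_pair.1 h
  obtain ⟨p, hp⟩ := (hD.symp.nondegenerate x hx).1
  have h1 := hD.al_mulVec x z p
  rw [h0, Matrix.zero_mulVec, eq_comm, sub_eq_zero] at h1
  exact hz (Submodule.mem_span_singleton.2 ⟨(D.f1 p x)⁻¹ * D.f1 p z, by
    rw [← smul_smul, h1, smul_smul, inv_mul_cancel₀ hp, one_smul]⟩)

/-- Two isometries of independent orthogonal pairs. -/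
lemma exists_isom_pair {x z x' z' : Fin k → F} (h : LinearIndependent F ![x, z])
    (h' : LinearIndependent F ![x', z']) (hf : D.f1 x z = D.f1 x' z') :
    ∃ a ∈ CfsgLib.Geometric.isom D.f1, ap a x = x' ∧ ap a z = z' := by
  obtain ⟨hx, hz⟩ := li_pair.1 h
  obtain ⟨hx', hz'⟩ := li_pair.1 h'
  obtain ⟨g, hg, hgx⟩ := Symp.exists_isom_map hD.symp hx hx'
  have hgz : ap g z ∉ Submodule.span F {x'} := fun hmem => by
    obtain ⟨a, ha⟩ := Submodule.mem_span_singleton.1 hmem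
    refine hz (Submodule.mem_span_singleton.2 ⟨a, ap_injective g ?_⟩)
    rw [ap_smul, hgx, ha]
  obtain ⟨g', hg', hfix, hg'z⟩ := Symp.exists_isom_map_fix hD.symp hgz hz' (by
    rw [hD.skew x' (ap g z), hD.skew x' z', ← hf, ← CfsgLib.Geometric.mem_isom_iff.mp hg x z, hgx])
  exact ⟨g' * g, mul_mem hg' hg, by rw [ap_mul, hgx, hfix], by rw [ap_mul, hg'z]⟩

/-- Hyperbolic vectors. -/
lemma exists_frame {r : ℕ} (hr : r + r ≤ k) : ∃ e f : Fin r → Fin k → F,
    (∀ i j, D.f1 (e i) (e j) = 0) ∧ (∀ i j, D.f1 (f i) (f j) = 0) ∧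
      (∀ i j, D.f1 (e i) (f j) = if i = j then 1 else 0) ∧
      (∀ i j, i ≠ j → LinearIndependent F ![e i, e j]) ∧
      (∀ i j, LinearIndependent F ![e i, f j]) := by
  obtain ⟨m, b, h1, h2, h3⟩ :=
    CfsgLib.Forms.exists_symplectic_basis (Symp.fl hD.symp).flip ⟨fun x hx => by
      by_contra h
      obtain ⟨z, hz⟩ := (hD.symp.nondegenerate x h).2
      exact hz (hx z), fun y hy => by
      by_contra h
      obtain ⟨z, hz⟩ := (hD.symp.nondegenerate y h).1
      exact hz (hy z)⟩ fun x => hD.alt x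
  have hm : k = m + m := by
    have := Module.finrank_eq_card_basis b
    rw [Module.finrank_fin_fun, Fintype.card_sum, Fintype.card_fin] at this
    exact this
  have hrm : r ≤ m := by omega
  have hpair : ∀ p q : Fin m ⊕ Fin m, p ≠ q → LinearIndependent F ![b p, b q] := by
    intro p q hpq
    rw [li_pair]
    refine ⟨b.ne_zero p, fun hmem => ?_⟩
    obtain ⟨a, ha⟩ := Submodule.mem_span_singleton.1 hmem
    have h := congrArg (fun v => b.repr v q) ha
    simp [Finsupp.single_apply, hpq] at h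
  refine ⟨fun i => b (.inl (Fin.castLE hrm i)), fun i => b (.inr (Fin.castLE hrm i)),
    fun i j => h2 _ _, fun i j => h3 _ _, fun i j => ?_, fun i j hij => hpair _ _ ?_,
    fun i j => hpair _ _ Sum.inl_ne_inr⟩
  · rw [show D.f1 (b (.inl (Fin.castLE hrm i))) (b (.inr (Fin.castLE hrm j))) = _ from h1 _ _]
    simp [Fin.castLE_inj]
  · simp [Fin.castLE_inj, hij]

end IsAlt

section types

variable (hD : IsAlt D)
include hD

lemma OfTy.conj {ty : Ty} {f : Mk} (h : OfTy D ty f) {a : GL (Fin k) F}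
    (ha : a ∈ CfsgLib.Geometric.isom D.f1) :
    OfTy D ty ((a : Mk) * f * ((a⁻¹ : GL (Fin k) F) : Mk)) := by
  match ty, h with
  | .one, h => simp [OfTy, show f = 1 from h]
  | .N, ⟨u, hu, hf⟩ => exact ⟨ap a u, fun h0 => hu (ap_injective a (by rw [h0, ap_zero])),
      by rw [hf, hD.conj_rk ha]⟩
  | .A, ⟨x, z, h0, hli, hf⟩ =>
    refine ⟨ap a x, ap a z, by rw [CfsgLib.Geometric.mem_isom_iff.mp ha, h0], ?_,
      by rw [hf, hD.conj_al ha]⟩
    obtain ⟨hx, hz⟩ := li_pair.1 hli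
    refine li_pair.2 ⟨fun h0 => hx (ap_injective a (by rw [h0, ap_zero])), fun hmem => hz ?_⟩
    obtain ⟨c, hc⟩ := Submodule.mem_span_singleton.1 hmem
    exact Submodule.mem_span_singleton.2 ⟨c, ap_injective a (by rw [ap_smul, hc])⟩

/-- The isometries are transitive on each type. -/
lemma OfTy.exists_conj {ty : Ty} {f g : Mk} (h : OfTy D ty f) (h' : OfTy D ty g) :
    ∃ a ∈ CfsgLib.Geometric.isom D.f1, (a : Mk) * f * ((a⁻¹ : GL (Fin k) F) : Mk) = g := by
  match ty, h, h' with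
  | .one, h, h' => exact ⟨1, one_mem _, by simp [show f = 1 from h, show g = 1 from h']⟩
  | .N, ⟨u, hu, hf⟩, ⟨v, hv, hg⟩ =>
    obtain ⟨a, ha, hau⟩ := Symp.exists_isom_map hD.symp hu hv
    exact ⟨a, ha, by rw [hf, hg, hD.conj_rk ha, hau]⟩
  | .A, ⟨x, z, h0, hli, hf⟩, ⟨x', z', h0', hli', hg⟩ =>
    obtain ⟨a, ha, hx, hz⟩ := hD.exists_isom_pair hli hli' (h0.trans h0'.symm)
    exact ⟨a, ha, by rw [hf, hg, hD.conj_al ha, hx, hz]⟩

lemma OfTy.sq {ty : Ty} (hty : ty ≠ .one) {f : Mk} (h : OfTy D ty f) : f * f = 0 := by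
  match ty, h with
  | .one, _ => exact absurd rfl hty
  | .N, ⟨u, _, hf⟩ => rw [hf, hD.rk_self_mul]
  | .A, ⟨x, z, h0, _, hf⟩ => rw [hf, hD.al_sq h0]

lemma OfTy.ne_zero [NeZero k] {ty : Ty} {f : Mk} (h : OfTy D ty f) : f ≠ 0 := by
  match ty, h with
  | .one, h => rw [show f = 1 from h]; exact one_ne_zero
  | .N, ⟨u, hu, hf⟩ => rw [hf]; exact hD.rk_ne_zero hu hu
  | .A, ⟨x, z, _, hli, hf⟩ => rw [hf]; exact hD.al_ne_zero hli

/-- Scaling inside a type. -/
lemma OfTy.exists_scale {ty : Ty} (hty : ty ≠ .one) {f : Mk} (h : OfTy D ty f) (lam : F) :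
    lam ≠ 0 → ∃ g, OfTy D ty g ∧ (if ty = .N then lam * lam else lam) • f = g := by
  intro hl
  match ty, h with
  | .one, _ => exact absurd rfl hty
  | .N, ⟨u, hu, hf⟩ =>
    refine ⟨_, ⟨lam • u, smul_ne_zero hl hu, rfl⟩, ?_⟩
    rw [hf, rk_smul_left, hD.rk_smul_right, smul_smul]
    rfl
  | .A, ⟨x, z, h0, hli, hf⟩ =>
    refine ⟨_, ⟨lam • x, z, by rw [D.f1_smul_left, h0, mul_zero], ?_, rfl⟩, ?_⟩
    · obtain ⟨hx, hz⟩ := li_pair.1 hli
      exact li_pair.2 ⟨smul_ne_zero hl hx,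
        by rwa [Submodule.span_singleton_smul_eq (isUnit_iff_ne_zero.2 hl)]⟩
    · rw [hf, hD.al_smul_left]
      rfl

/-- A pair of operators whose two products are a rank one operator and its mirror image. -/
lemma exists_free_pair (hk : 2 ≤ k) {ty ty' : Ty} (h1 : ty ≠ .one) (h1' : ty' ≠ .one)
    (h4 : ty = .A ∨ ty' = .A → 4 ≤ k) (h6 : ty = .A → ty' = .A → 6 ≤ k) :
    ∃ (f f' : Mk) (p q : Fin k → F) (c c' : F), OfTy D ty f ∧ OfTy D ty' f' ∧ c ≠ 0 ∧
      (c' = c ∨ c' = -c) ∧ LinearIndependent F ![p, q] ∧ f * f' = c • rk D p q ∧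
      f' * f = c' • rk D q p := by
  have key : ∀ (hk : 4 ≤ k), ∃ (f f' : Mk) (p q : Fin k → F), OfTy D .N f ∧ OfTy D .A f' ∧
      LinearIndependent F ![p, q] ∧ f * f' = rk D p q ∧ f' * f = rk D q p := by
    intro hk
    obtain ⟨e, g, he, hg, heg, hee, hef⟩ := hD.exists_frame (r := 2) (by omega)
    have hge : ∀ i j, D.f1 (g i) (e j) = -(if j = i then 1 else 0) := fun i j => by
      rw [hD.skew (e j) (g i), heg]
    refine ⟨rk D (g 0) (g 0), al D (e 0) (e 1), g 0, e 1,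
      ⟨g 0, ((hef 1 0).ne_zero 1), rfl⟩, ⟨e 0, e 1, he 0 1, hee 0 1 (by decide), rfl⟩,
      (LinearIndependent.pair_symm_iff.1 (hef 1 0)), ?_, ?_⟩
    · simp [al, mul_sub, rk_mul, heg, hge]
    · simp [al, sub_mul, rk_mul, heg, hge]
  match ty, ty', h1, h1', h4, h6 with
  | .one, _, h, _, _, _ => exact absurd rfl h
  | _, .one, _, h, _, _ => exact absurd rfl h
  | .N, .A, _, _, h4, _ =>
    obtain ⟨f, f', p, q, hf, hf', hpq, e1, e2⟩ := key (h4 (Or.inr rfl))
    exact ⟨f, f', p, q, 1, 1, hf, hf', one_ne_zero, Or.inl rfl, hpq, by rw [one_smul, e1],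
      by rw [one_smul, e2]⟩
  | .A, .N, _, _, h4, _ =>
    obtain ⟨f, f', p, q, hf, hf', hpq, e1, e2⟩ := key (h4 (Or.inl rfl))
    exact ⟨f', f, q, p, 1, 1, hf', hf, one_ne_zero, Or.inl rfl,
      LinearIndependent.pair_symm_iff.1 hpq, by rw [one_smul, e2], by rw [one_smul, e1]⟩
  | .N, .N, _, _, _, _ =>
    obtain ⟨e, g, he, hg, heg, hee, hef⟩ := hD.exists_frame (r := 1) (by omega)
    have hge : D.f1 (g 0) (e 0) = -1 := by rw [hD.skew (e 0) (g 0), heg]; simp
    refine ⟨rk D (e 0) (e 0), rk D (g 0) (g 0), e 0, g 0, -1, 1,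
      ⟨e 0, (hef 0 0).ne_zero 0, rfl⟩, ⟨g 0, (hef 0 0).ne_zero 1, rfl⟩,
      neg_ne_zero.2 one_ne_zero, Or.inr (neg_neg _).symm, hef 0 0, ?_, ?_⟩
    · rw [rk_mul, hge]
    · rw [rk_mul, heg]; simp
  | .A, .A, _, _, _, h6 =>
    obtain ⟨e, g, he, hg, heg, hee, hef⟩ := hD.exists_frame (r := 3) (by have := h6 rfl rfl; omega)
    have hge : ∀ i j, D.f1 (g i) (e j) = -(if j = i then 1 else 0) := fun i j => by
      rw [hD.skew (e j) (g i), heg]
    refine ⟨al D (e 0) (e 2), al D (g 2) (e 1), e 0, e 1, -1, 1,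
      ⟨e 0, e 2, he 0 2, hee 0 2 (by decide), rfl⟩,
      ⟨g 2, e 1, by simp [hge], LinearIndependent.pair_symm_iff.1 (hef 1 2), rfl⟩,
      neg_ne_zero.2 one_ne_zero, Or.inr (neg_neg _).symm, hee 0 1 (by decide), ?_, ?_⟩
    · simp [al, mul_sub, sub_mul, rk_mul, he, heg, hge]
    · simp [al, mul_sub, sub_mul, rk_mul, he, heg, hge]

/-- A pair of operators whose products, compressed, are the same operator of type `N` up to a
sign. Two operators of type `A` need no compression. -/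
lemma exists_overlap_pair (hk : 2 ≤ k) {ty ty' : Ty} (h1 : ty ≠ .one) (h1' : ty' ≠ .one)
    (h4 : ty = .A ∨ ty' = .A → 4 ≤ k) :
    ∃ (f f' P G : Mk) (s s' : F), OfTy D ty f ∧ OfTy D ty' f' ∧ OfTy D .N G ∧ s ≠ 0 ∧
      (s' = s ∨ s' = -s) ∧ (P = 1 ∨ ∃ z, P = rk D z z) ∧ (ty = .A → ty' = .A → P = 1 ∧
        f * f' * f = 0 ∧ f' * f * f' = 0) ∧
      P * (f * f') * P = s • G ∧ P * (f' * f) * P = s' • G := by
  by_cases hAA : ty = .A ∧ ty' = .A
  · obtain ⟨rfl, rfl⟩ := hAA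
    obtain ⟨e, g, he, hg, heg, hee, hef⟩ := hD.exists_frame (r := 2) (by
      have := h4 (Or.inl rfl); omega)
    have hge : ∀ i j, D.f1 (g i) (e j) = -(if j = i then 1 else 0) := fun i j => by
      rw [hD.skew (e j) (g i), heg]
    refine ⟨al D (e 0) (e 1), al D (e 0) (g 1), 1, rk D (e 0) (e 0), 1, -1,
      ⟨e 0, e 1, he 0 1, hee 0 1 (by decide), rfl⟩, ⟨e 0, g 1, by simp [heg], hef 0 1, rfl⟩,
      ⟨e 0, (hef 0 1).ne_zero 0, rfl⟩, one_ne_zero, Or.inr rfl, Or.inl rfl, fun _ _ => ⟨rfl, ?_, ?_⟩,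
      ?_, ?_⟩ <;>
    simp [al, mul_sub, sub_mul, rk_mul, he, hg, heg, hge]
  obtain ⟨f, f', p, q, c, c', hf, hf', hc, hcc, hpq, e1, e2⟩ :=
    exists_free_pair hD hk h1 h1' h4 fun a b => absurd ⟨a, b⟩ hAA
  obtain ⟨hp, hq⟩ := li_pair.1 hpq
  have hq0 : q ≠ 0 := fun h => hq (h ▸ zero_mem _)
  obtain ⟨z, hzp, hzq⟩ : ∃ z, D.f1 p z ≠ 0 ∧ D.f1 z q ≠ 0 := by
    obtain ⟨z₁, h₁⟩ := (hD.symp.nondegenerate p hp).2
    obtain ⟨z₂, h₂⟩ := (hD.symp.nondegenerate q hq0).1
    by_cases a : D.f1 z₁ q = 0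
    · by_cases b : D.f1 p z₂ = 0
      · exact ⟨z₁ + z₂, by rwa [D.f1_add_right, b, add_zero],
          by rwa [D.f1_add_left, a, zero_add]⟩
      · exact ⟨z₂, b, h₂⟩
    · exact ⟨z₁, h₁, a⟩
  have hz : z ≠ 0 := fun h => hzp (by rw [h]; exact TensorHerm.f1_zero_right _)
  refine ⟨f, f', rk D z z, rk D z z, c * (D.f1 p z * D.f1 z q), c' * (D.f1 p z * D.f1 z q),
    hf, hf', ⟨z, hz, rfl⟩, mul_ne_zero hc (mul_ne_zero hzp hzq),
    hcc.imp (fun h => by rw [h]) (fun h => by rw [h, neg_mul]), Or.inr ⟨z, rfl⟩,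
    fun a b => absurd ⟨a, b⟩ hAA, ?_, ?_⟩
  · rw [e1, Matrix.mul_smul, Matrix.smul_mul, rk_mul, Matrix.smul_mul, rk_mul, smul_smul, smul_smul,
      mul_assoc]
  · rw [e2, Matrix.mul_smul, Matrix.smul_mul, rk_mul, Matrix.smul_mul, rk_mul, smul_smul, smul_smul,
      hD.skew z q, hD.skew p z]
    congr 1
    ring

end types

end CfsgLib.Geometric.TensorOrth
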