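import Cfsg.Agent.Lib.Geometric.TensorOrth.Rad
import Cfsg.Agent.Lib.Geometric.TensorOrth.Fac

/-!
# The adjoint on a tensor power in even characteristic

The adjoint for the form of the tensor power exchanges the arguments of the partial forms.  Rank
one operators of a diagonal shape generate all operators of a factor.
-/

set_option autoImplicit false
set_option linter.unusedSectionVars false

namespace CfsgLib.Geometric.TensorOrth

open scoped Matrix MatrixGroups
open Matrix CfsgLib.SmallDim Cfsg.Geo CfsgLib.Geometric.TensorForm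
open CfsgLib.Geometric.TensorHerm (rk rk_mulVec rk_mul slotGL slotGL_val beta beta_free
  beta_add beta_sub beta_smul beta_add_left beta_add_right beta_smul_left
  beta_mul_slot beta_slot_mul beta_rk_mul_free ext_beta exists_pairing)
open Rad (gram_cancel slot_adj rk_adj exists_dual)

variable {k t : ℕ} {F : Type*} [Field F]

local notation "Mk" => Matrix (Fin k) (Fin k) F
local notation "Mt" => Matrix (Fin t → Fin k) (Fin t → Fin k) F

namespace Ctr

variable {D : Datum k F}

/-- The adjoint for the Gram matrix of the tensor power. -/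
noncomputable def adj (D : Datum k F) (X : Matrix (Fin t → Fin k) (Fin t → Fin k) F) :
    Matrix (Fin t → Fin k) (Fin t → Fin k) F :=
  (D.gram t)⁻¹ * Xᵀ * D.gram t

lemma gram_mul_adj (X : Mt) : D.gram t * adj D X = Xᵀ * D.gram t := by
  rw [adj, mul_assoc, ← mul_assoc, Matrix.mul_nonsing_inv _ (isUnit_iff_ne_zero.mpr D.gram_det),
    one_mul]

lemma adj_eq {X Y : Mt} (h : Xᵀ * D.gram t = D.gram t * Y) : adj D X = Y :=
  gram_cancel ((gram_mul_adj X).trans h)

lemma adj_add (X Y : Mt) : adj D (X + Y) = adj D X + adj D Y := by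
  simp [adj, mul_add, add_mul]

lemma adj_sub (X Y : Mt) : adj D (X - Y) = adj D X - adj D Y := by
  simp [adj, mul_sub, sub_mul]

lemma adj_smul (c : F) (X : Mt) : adj D (c • X) = c • adj D X := by
  simp [adj, Matrix.mul_smul, Matrix.smul_mul]

lemma adj_zero : adj D (0 : Mt) = 0 := by simp [adj]

lemma adj_one : adj D (1 : Mt) = 1 := adj_eq (by simp)

lemma adj_mul (X Y : Mt) : adj D (X * Y) = adj D Y * adj D X :=
  adj_eq (by rw [Matrix.transpose_mul, mul_assoc, ← gram_mul_adj, ← mul_assoc, ← gram_mul_adj,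
    mul_assoc])

lemma eq_zero_of_adj {X : Mt} (h : adj D X = 0) : X = 0 := by
  have h1 := gram_mul_adj (D := D) X
  rw [h, mul_zero] at h1
  have h2 := congrArg (fun Y : Mt => Y * (D.gram t)⁻¹) h1.symm
  simp only [mul_assoc, zero_mul, Matrix.mul_nonsing_inv _ (isUnit_iff_ne_zero.mpr D.gram_det),
    mul_one] at h2
  exact Matrix.transpose_eq_zero.mp h2

lemma adj_slot (i : Fin t) {A A' : Mk} (h : Aᵀ * D.J = D.J * A') :
    adj D (slot i A) = slot i A' :=
  adj_eq (slot_adj h)

lemma adj_free {i : Fin t} {Z : Mt} (hZ : SlotFree i Z) : SlotFree i (adj D Z) := by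
  intro A
  have hA : (D.J * A * D.J⁻¹)ᵀᵀ * D.J = D.J * A := by
    rw [Matrix.transpose_transpose, mul_assoc,
      Matrix.nonsing_inv_mul _ (isUnit_iff_ne_zero.mpr D.det), mul_one]
  rw [← adj_slot i hA, ← adj_mul, ← adj_mul, hZ]

section
variable (hD : IsAlt D) (h2 : (2 : F) = 0)
include hD h2

lemma neg_eq {V : Type*} [AddCommGroup V] [Module F V] (v : V) : -v = v :=
  neg_eq_of_add_eq_zero_right (Rad.add_self_eq_zero h2 v)

lemma f1_comm (x y : Fin k → F) : D.f1 x y = D.f1 y x := by
  rw [hD.skew y x]; exact neg_eq hD h2 _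

lemma beta_smul_r {i : Fin t} (X : Mt) (s : F) (a b : Fin k → F) :
    beta D i X a (s • b) = s • beta D i X a b := by
  rw [TensorHerm.beta_smul_right, hD.id]; rfl

lemma adj_slot_rk (i : Fin t) (u w : Fin k → F) :
    adj D (slot i (rk D u w) : Mt) = slot i (rk D w u) := by
  refine adj_slot i ?_
  rw [rk_adj hD, neg_eq hD h2]

lemma adj_isom {g : GL (Fin t → Fin k) F} (hg : g ∈ D.isom t) :
    adj D (g : Mt) = ((g⁻¹ : GL (Fin t → Fin k) F) : Mt) := by
  have hgg := D.mem_isom.mp hg
  rw [Rad.map_id hD] at hgg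
  refine adj_eq ?_
  calc (g : Mt)ᵀ * D.gram t
      = (g : Mt)ᵀ * D.gram t * ((g : Mt) * ((g⁻¹ : GL (Fin t → Fin k) F) : Mt)) := by
        rw [Units.mul_inv, mul_one]
    _ = _ := by rw [← mul_assoc, hgg]

lemma adj_cj {g : GL (Fin t → Fin k) F} (hg : g ∈ D.isom t) (X : Mt) :
    adj D (Rad.cj g X) = Rad.cj g (adj D X) := by
  rw [Rad.cj, adj_mul, adj_mul, adj_isom hD h2 hg, adj_isom hD h2 (inv_mem hg), inv_inv,
    ← mul_assoc]
  rfl

omit h2 in
lemma exists_one {v : Fin k → F} (hv : v ≠ 0) : ∃ w, D.f1 v w = 1 := by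
  obtain ⟨w, hw, -⟩ := exists_dual hD (show v ∉ (⊥ : Submodule F (Fin k → F)) by simpa using hv)
  exact ⟨w, hw⟩

omit hD h2 in
lemma free_cancel {i : Fin t} {A : Mk} (hA : A ≠ 0) {Z Z' : Mt} (hZ : SlotFree i Z)
    (hZ' : SlotFree i Z') (h : slot i A * Z = slot i A * Z') : Z = Z' :=
  sub_eq_zero.mp (SlotFree.eq_zero (hZ.sub hZ') hA (by rw [mul_sub, h, sub_self]))

omit hD h2 in
lemma sandwich_beta (i : Fin t) (r b a s : Fin k → F) (X : Mt) :
    slot i (rk D r b) * X * slot i (rk D a s) = slot i (rk D r s) * beta D i X a b :=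
  sandwich_ptrace i _ _ _ _ X

/-- The adjoint exchanges the arguments of the partial forms. -/
lemma beta_adj (i : Fin t) (X : Mt) (a b : Fin k → F) :
    beta D i (adj D X) b a = adj D (beta D i X a b) := by
  rcases Nat.eq_zero_or_pos k with rfl | hk
  · have : IsEmpty (Fin t → Fin 0) := ⟨fun x => (x i).elim0⟩
    exact Subsingleton.elim _ _
  let e : Fin k → F := Pi.single ⟨0, hk⟩ 1
  have he : e ≠ 0 := fun h => one_ne_zero (α := F) (by simpa [e] using congrFun h ⟨0, hk⟩)
  have h := congrArg (adj D) (sandwich_beta (D := D) i e b a e X)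
  rw [adj_mul, adj_mul, adj_mul, adj_slot_rk hD h2, adj_slot_rk hD h2, adj_slot_rk hD h2,
    ← mul_assoc, sandwich_beta, ← adj_free (beta_free X a b)] at h
  exact free_cancel (hD.rk_ne_zero he he) (beta_free _ _ _) (adj_free (beta_free X a b)) h

/-- A value of the partial forms on a product with a rank one operator of the factor. -/
lemma beta_eq_zero_of_mul {i : Fin t} {X : Mt} {a s : Fin k → F} (hs : s ≠ 0)
    (h : X * slot i (rk D a s) = 0) (b : Fin k → F) : beta D i X a b = 0 := by
  obtain ⟨r, hr⟩ := exists_one hD hs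
  have := beta_mul_slot (D := D) (i := i) a s X r b
  rwa [h, TensorHerm.beta_zero, f1_comm hD h2, hr, one_smul, eq_comm] at this

/-- The image of a rank one operator of the factor. -/
lemma mul_slot_rk_eq {i : Fin t} {X : Mt} {p q : Fin k → F} {Z : Mt} (hZ : SlotFree i Z)
    (h : ∀ b, beta D i X p b = D.f1 q b • Z) (s : Fin k → F) :
    X * slot i (rk D p s) = slot i (rk D q s) * Z := by
  refine ext_beta (D := D) (i := i) fun a b => ?_
  rw [beta_mul_slot, h, beta_rk_mul_free hZ, smul_smul, mul_comm]

lemma mul_slot_rk_eq₂ {i : Fin t} {X : Mt} {p q q' : Fin k → F} {Z Z' : Mt} (hZ : SlotFree i Z)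
    (hZ' : SlotFree i Z') (h : ∀ b, beta D i X p b = D.f1 q b • Z + D.f1 q' b • Z')
    (s : Fin k → F) :
    X * slot i (rk D p s) = slot i (rk D q s) * Z + slot i (rk D q' s) * Z' := by
  refine ext_beta (D := D) (i := i) fun a b => ?_
  rw [beta_mul_slot, h, beta_add, beta_rk_mul_free hZ, beta_rk_mul_free hZ', smul_add, smul_smul,
    smul_smul, mul_comm, mul_comm (D.f1 a s)]

omit h2 in
/-- A subspace closed under products with all diagonal rank one operators is everything. -/
lemma mem_of_diag (S : Submodule F (Matrix (Fin k) (Fin k) F))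
    (hmul : ∀ A ∈ S, ∀ B ∈ S, A * B ∈ S) (hdiag : ∀ u, rk D u u ∈ S) (A : Mk) : A ∈ S := by
  have hne : ∀ a b, D.f1 b a ≠ 0 → rk D a b ∈ S := by
    intro a b hab
    have h := S.smul_mem (D.f1 b a)⁻¹ (hmul _ (hdiag a) _ (hdiag b))
    rwa [rk_mul, smul_smul, inv_mul_cancel₀ hab, one_smul] at h
  have hall : ∀ a b, rk D a b ∈ S := by
    intro a b
    by_cases hab : D.f1 b a = 0
    · by_cases ha : a = 0
      · subst ha; rw [TensorHerm.rk_zero_left]; exact S.zero_mem
      obtain ⟨p, hp⟩ := (hD.symp.nondegenerate a ha).1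
      have h4 := S.sub_mem (hne a (b + p) (by rwa [D.f1_add_left, hab, zero_add])) (hne a p hp)
      rwa [TensorHerm.rk_add_right, add_sub_cancel_right] at h4
    · exact hne a b hab
  have e : A = ∑ p, vecMulVec (fun r => A r p) (Pi.single p 1 : Fin k → F) := by
    ext r q
    simp [Matrix.sum_apply, Matrix.vecMulVec_apply, Pi.single_apply]
  rw [e]
  refine S.sum_mem fun p _ => ?_
  obtain ⟨b, hb⟩ := exists_pairing (D := D) (Pi.single p 1 : Fin k → F)
  rw [← hb]
  exact hall _ b

omit h2 in
/-- The isometries span all operators of the factor. -/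
lemma span_isom_eq_top :
    Submodule.span F (((↑) : GL (Fin k) F → Mk) '' (CfsgLib.Geometric.isom D.f1 : Set _)) = ⊤ := by
  set S := Submodule.span F (((↑) : GL (Fin k) F → Mk) '' (CfsgLib.Geometric.isom D.f1 : Set _))
    with hS
  rw [Submodule.eq_top_iff']
  refine mem_of_diag hD S (fun A hA B hB => ?_) fun u => ?_
  · refine Submodule.span_induction ?_ ?_ ?_ ?_ hA
    · rintro _ ⟨a, ha, rfl⟩
      refine Submodule.span_induction ?_ ?_ ?_ ?_ hB
      · rintro _ ⟨b, hb, rfl⟩
        exact Submodule.subset_span ⟨a * b, mul_mem ha hb, Units.val_mul a b⟩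
      · rw [mul_zero]; exact S.zero_mem
      · intro x y _ _ hx hy; rw [mul_add]; exact S.add_mem hx hy
      · intro c x _ hx; rw [Matrix.mul_smul]; exact S.smul_mem c hx
    · rw [zero_mul]; exact S.zero_mem
    · intro x y _ _ hx hy; rw [add_mul]; exact S.add_mem hx hy
    · intro c x _ hx; rw [Matrix.smul_mul]; exact S.smul_mem c hx
  · have h1 : ((Symp.T hD.symp u 1 : GL (Fin k) F) : Mk) ∈ S :=
      Submodule.subset_span ⟨_, Symp.T_mem_isom hD.symp u 1, rfl⟩
    have h0 : (1 : Mk) ∈ S := Submodule.subset_span ⟨1, one_mem _, Units.val_one⟩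
    have := S.sub_mem h1 h0
    rwa [hD.T_val, one_smul, add_sub_cancel_left] at this

omit h2 in
/-- An operator killed between all factorwise isometries on both sides vanishes. -/
lemma eq_zero_of_isolated {Z : Mt}
    (h : ∀ a : Fin t → GL (Fin k) F, (∀ j, a j ∈ CfsgLib.Geometric.isom D.f1) →
      Z * pureMat (fun j => (a j : Mk)) * Z = 0) : Z = 0 := by
  classical
  have key : ∀ s : Finset (Fin t), ∀ f : Fin t → Mk,
      (∀ j ∉ s, f j ∈ ((↑) : GL (Fin k) F → Mk) '' (CfsgLib.Geometric.isom D.f1 : Set _)) →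
      Z * pureMat f * Z = 0 := by
    intro s
    induction s using Finset.induction_on with
    | empty =>
      intro f hf
      choose a ha hfa using fun j => hf j (by simp)
      rw [show f = fun j => (a j : Mk) from funext fun j => (hfa j).symm]
      exact h a ha
    | insert j s hj ih =>
      intro f hf
      let L : Mk →ₗ[F] Mt :=
        { toFun := fun A => Z * pureMat (Function.update f j A) * Z
          map_add' := fun A B => by rw [pureMat_update_add, mul_add, add_mul]
          map_smul' := fun c A => by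
            rw [pureMat_update_smul, Matrix.mul_smul, Matrix.smul_mul]; rfl }
      have hle : Submodule.span F (((↑) : GL (Fin k) F → Mk) ''
          (CfsgLib.Geometric.isom D.f1 : Set _)) ≤ LinearMap.ker L := by
        refine Submodule.span_le.mpr fun A hA => ?_
        refine LinearMap.mem_ker.mpr (ih _ fun l hl => ?_)
        by_cases hlj : l = j
        · subst hlj; rwa [Function.update_self]
        · rw [Function.update_of_ne hlj]
          exact hf l (by simp [hlj, hl])
      rw [span_isom_eq_top hD] at hle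
      have := LinearMap.mem_ker.mp (hle (Submodule.mem_top (x := f j)))
      simpa [L, Function.update_eq_self] using this
  have hs : ∀ x y : Fin t → Fin k, Z * Matrix.single x y (1 : F) * Z = 0 := by
    intro x y
    have e : pureMat (fun l : Fin t => Matrix.single (x l) (y l) (1 : F)) =
        Matrix.single x y (1 : F) := by
      ext a b
      by_cases hab : x = a ∧ y = b
      · obtain ⟨rfl, rfl⟩ := hab; simp [pureMat]
      · rw [Matrix.single_apply, if_neg hab]
        rw [not_and_or] at hab
        obtain ⟨l, hl⟩ : ∃ l, x l ≠ a l ∨ y l ≠ b l := by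
          rcases hab with hab | hab
          · obtain ⟨l, hl⟩ := Function.ne_iff.mp hab; exact ⟨l, Or.inl hl⟩
          · obtain ⟨l, hl⟩ := Function.ne_iff.mp hab; exact ⟨l, Or.inr hl⟩
        refine Finset.prod_eq_zero (Finset.mem_univ l) ?_
        simp only [Matrix.single_apply]
        rw [if_neg]
        rintro ⟨e1, e2⟩
        exact hl.elim (fun h => h e1) fun h => h e2
    rw [← e]
    exact key Finset.univ _ fun j hj => absurd (Finset.mem_univ j) hj
  ext a x
  have := congrFun (congrFun (hs x a) a) x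
  rw [Matrix.mul_assoc, Matrix.mul_apply, Finset.sum_eq_single x] at this
  · simpa using this
  · intro b _ hb; simp [Matrix.single_mul_apply_of_ne, Ne.symm hb, hb]
  · intro hx; exact absurd (Finset.mem_univ x) hx

end

end Ctr

end CfsgLib.Geometric.TensorOrth
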