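import Cfsg.Agent.Lib.Geometric.TensorOrth.Closed
import Cfsg.Agent.Lib.Geometric.TensorPower.Maximal

/-!
The bilinear form of a tensor power on an arbitrary finite set of positions, on products and on
slices, and the comparison of the factorwise elements of the two libraries of tensor powers.
-/

set_option autoImplicit false
set_option linter.unusedSectionVars false

namespace CfsgLib.Geometric.TensorOrth

open Matrix TPow CfsgLib.Geometric.TensorForm
open CfsgLib.SmallDim (pureMat pureTensorVec)
open CfsgLib.Geometric.TensorHerm (slotGL slotGL_val)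

variable {k t : ℕ} {F : Type*} [Field F]

/-- The Gram matrix of the power of `J`. -/
def bMat (κ : Type) [Fintype κ] (J : Matrix (Fin k) (Fin k) F) :
    Matrix (κ → Fin k) (κ → Fin k) F :=
  fun x y => ∏ l, J (x l) (y l)

variable {κ : Type} [Fintype κ] [DecidableEq κ] (J : Matrix (Fin k) (Fin k) F)

/-- The bilinear form of the power of `J`. -/
def bForm (x y : (κ → Fin k) → F) : F := x ⬝ᵥ (bMat κ J *ᵥ y)

lemma bForm_pv (u v : κ → Fin k → F) :
    bForm J (pv u) (pv v) = ∏ l, u l ⬝ᵥ (J *ᵥ v l) := by
  have h1 : bMat κ J *ᵥ pv v = pv fun l => J *ᵥ v l := by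
    funext x
    simp only [Matrix.mulVec, dotProduct, bMat, pv, ← Finset.prod_mul_distrib]
    exact (Fintype.prod_sum fun l a => J (x l) a * v l a).symm
  rw [bForm, h1]
  simp only [dotProduct, pv, ← Finset.prod_mul_distrib]
  exact (Fintype.prod_sum fun l a => u l a * (J *ᵥ v l) a).symm

lemma bForm_add_left (x x' y : (κ → Fin k) → F) :
    bForm J (x + x') y = bForm J x y + bForm J x' y := add_dotProduct _ _ _

lemma bForm_smul_left (c : F) (x y : (κ → Fin k) → F) :
    bForm J (c • x) y = c * bForm J x y := smul_dotProduct c _ _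

lemma bForm_add_right (x y y' : (κ → Fin k) → F) :
    bForm J x (y + y') = bForm J x y + bForm J x y' := by
  simp [bForm, Matrix.mulVec_add]

lemma bForm_smul_right (c : F) (x y : (κ → Fin k) → F) :
    bForm J x (c • y) = c * bForm J x y := by
  simp [bForm, Matrix.mulVec_smul]

/-- The pairing of two slices of the same position. -/
lemma bForm_ten (i : κ) (v w : Fin k → F) (y y' : Rest i k → F) :
    bForm J (ten i v y) (ten i w y') = (v ⬝ᵥ (J *ᵥ w)) * bForm J y y' := by
  have key : ∀ r r' : Rest i k, bForm J (ten i v (Pi.single r 1)) (ten i w (Pi.single r' 1)) =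
      (v ⬝ᵥ (J *ᵥ w)) * bForm J (Pi.single r 1) (Pi.single r' 1 : Rest i k → F) := by
    intro r r'
    rw [ten_single, ten_single, bForm_pv, ← pv_single r, ← pv_single r', bForm_pv,
      ← Finset.mul_prod_erase _ _ (Finset.mem_univ i), dif_pos rfl, dif_pos rfl]
    congr 1
    rw [Finset.prod_subtype (Finset.univ.erase i) (p := fun l => l ≠ i) (by simp)]
    exact Finset.prod_congr rfl fun l _ => by rw [dif_neg l.2, dif_neg l.2]
  let L : (Rest i k → F) →ₗ[F] (Rest i k → F) →ₗ[F] F :=
    LinearMap.mk₂ F (fun y y' => bForm J (ten i v y) (ten i w y'))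
      (fun a b c => by simp [bForm_add_left]) (fun s a b => by simp [bForm_smul_left])
      (fun a b c => by simp [bForm_add_right]) (fun s a b => by simp [bForm_smul_right])
  let R : (Rest i k → F) →ₗ[F] (Rest i k → F) →ₗ[F] F :=
    LinearMap.mk₂ F (fun y y' => (v ⬝ᵥ (J *ᵥ w)) * bForm J y y')
      (fun a b c => by simp [bForm_add_left, mul_add])
      (fun s a b => by simp [bForm_smul_left]; ring)
      (fun a b c => by simp [bForm_add_right, mul_add])
      (fun s a b => by simp [bForm_smul_right]; ring)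
  have : L = R := LinearMap.pi_ext' fun r => LinearMap.ext_ring <|
    LinearMap.pi_ext' fun r' => LinearMap.ext_ring (key r r')
  exact LinearMap.congr_fun (LinearMap.congr_fun this y) y'

/-- Pairing with a slice through the contraction. -/
lemma bForm_ten_right (i : κ) (z : (κ → Fin k) → F) (w : Fin k → F) (y : Rest i k → F) :
    bForm J z (ten i w y) = bForm J (con i (J *ᵥ w) z) y := by
  let L : ((κ → Fin k) → F) →ₗ[F] F :=
    { toFun := fun z => bForm J z (ten i w y)
      map_add' := fun z z' => bForm_add_left J z z' _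
      map_smul' := fun c z => bForm_smul_left J c z _ }
  let R : ((κ → Fin k) → F) →ₗ[F] F :=
    { toFun := fun z => bForm J (con i (J *ᵥ w) z) y
      map_add' := fun z z' => by rw [map_add, bForm_add_left]
      map_smul' := fun c z => by rw [map_smul, bForm_smul_left]; rfl }
  refine LinearMap.congr_fun (ext_ten i (f := L) (f' := R) fun v r => ?_) z
  change bForm J (ten i v r) (ten i w y) = bForm J (con i (J *ᵥ w) (ten i v r)) y
  rw [bForm_ten, con_ten, bForm_smul_left, dotProduct_comm]

omit [DecidableEq κ] in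
lemma bMat_mul_inv [DecidableEq κ] (hJ : J.det ≠ 0) : bMat κ J * bMat κ J⁻¹ = 1 := by
  ext x y
  simp only [Matrix.mul_apply, bMat, ← Finset.prod_mul_distrib]
  rw [← Fintype.prod_sum fun l a => J (x l) a * J⁻¹ a (y l)]
  have h : ∀ l, ∑ a, J (x l) a * J⁻¹ a (y l) = if x l = y l then 1 else 0 := fun l => by
    rw [← Matrix.mul_apply, Matrix.mul_nonsing_inv _ (isUnit_iff_ne_zero.2 hJ), Matrix.one_apply]
  simp only [h, Matrix.one_apply]
  by_cases hxy : x = y
  · subst hxy; simp
  · obtain ⟨l, hl⟩ := Function.ne_iff.1 hxy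
    rw [if_neg hxy, Finset.prod_eq_zero (Finset.mem_univ l) (if_neg hl)]

/-- The form separates vectors on the left. -/
lemma eq_zero_of_bForm (hJ : J.det ≠ 0) {x : (κ → Fin k) → F} (h : ∀ y, bForm J x y = 0) :
    x = 0 := by
  funext a
  have h1 := h (bMat κ J⁻¹ *ᵥ Pi.single a 1)
  rwa [bForm, Matrix.mulVec_mulVec, bMat_mul_inv J hJ, Matrix.one_mulVec, dotProduct_single,
    mul_one] at h1

/-! ### Isometries -/

variable {D : Datum k F}

lemma bForm_isom (hD : IsAlt D) {g : GL (Fin t → Fin k) F} (hg : g ∈ D.isom t)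
    (x y : (Fin t → Fin k) → F) : bForm D.J (ap g x) (ap g y) = bForm D.J x y := by
  have h : (g : Matrix _ _ F)ᵀ * bMat (Fin t) D.J * (g : Matrix _ _ F) = bMat (Fin t) D.J := by
    have hg' := (Datum.mem_isom D).1 hg
    rw [hD.id] at hg'
    rw [show bMat (Fin t) D.J = D.gram t from Matrix.ext fun _ _ => rfl]
    simpa using hg'
  rw [bForm, ap_def, ap_def, Matrix.mulVec_mulVec, ← Matrix.vecMul_transpose,
    ← Matrix.dotProduct_mulVec, Matrix.mulVec_mulVec, ← Matrix.mul_assoc, h]
  rfl

/-- The factorwise elements of the two libraries agree. -/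
lemma slotGL_eq (l : Fin t) (a : GL (Fin k) F) : slotGL l a = TPow.slot l a := by
  refine gl_ext_pv fun u => ?_
  rw [ap_slot_pv, ap_def, slotGL_val]
  exact (CfsgLib.Geometric.TensorForm.slot_mulVec l (a : Matrix (Fin k) (Fin k) F) u).trans
    (congrArg pureTensorVec (funext fun m => by
      rcases eq_or_ne m l with rfl | hm
      · simp [Pi.mulSingle_eq_same, ap_def]
      · simp [Pi.mulSingle_eq_of_ne hm, Function.update_of_ne hm]))

lemma OverOn.tslot_mem {act : Finset (Fin t)} {M : Subgroup (GL (Fin t → Fin k) F)}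
    (hM : OverOn D act M) {l : Fin t} (hl : l ∈ act) {a : GL (Fin k) F}
    (ha : a ∈ CfsgLib.Geometric.isom D.f1) : TPow.slot l a ∈ M :=
  slotGL_eq l a ▸ hM.slot_mem l hl a ha

/-- A scalar isometry in characteristic two is trivial. -/
lemma eq_one_of_scalar [NeZero k] (hD : IsAlt D) (h2 : (2 : F) = 0)
    {g : GL (Fin t → Fin k) F} (hg : g ∈ D.isom t) {c : F}
    (hc : (g : Matrix (Fin t → Fin k) (Fin t → Fin k) F) = c • 1) : g = 1 := by
  obtain ⟨x, y, hxy⟩ : ∃ x y : (Fin t → Fin k) → F, bForm D.J x y ≠ 0 := by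
    by_contra h
    push Not at h
    have := congrFun (eq_zero_of_bForm D.J D.det (x := fun _ => (1 : F)) fun y => h _ y) fun _ => 0
    exact one_ne_zero this
  have hap : ∀ z : (Fin t → Fin k) → F, ap g z = c • z := fun z => by
    rw [ap_def, hc, Matrix.smul_mulVec, Matrix.one_mulVec]
  have h1 := bForm_isom hD hg x y
  rw [hap, hap, bForm_smul_left, bForm_smul_right] at h1
  have hc2 : (c - 1) ^ 2 = 0 := by
    have : (c * c - 1) * bForm D.J x y = 0 := by linear_combination h1
    linear_combination (mul_eq_zero.1 this).resolve_right hxy + (1 - c) * h2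
  refine gl_ext fun z => ?_
  rw [hap, ap_one, sub_eq_zero.1 ((pow_eq_zero_iff two_ne_zero).1 hc2), one_smul]

lemma formSlot_mulVec_ten (l : Fin t) (A : Matrix (Fin k) (Fin k) F) (u : Fin k → F)
    (y : Rest l k → F) :
    CfsgLib.Geometric.TensorForm.slot l A *ᵥ ten l u y = ten l (A *ᵥ u) y := by
  refine LinearMap.congr_fun (?_ : (Matrix.mulVecLin
    (CfsgLib.Geometric.TensorForm.slot l A)).comp (ten l u) = ten l (A *ᵥ u)) y
  refine LinearMap.pi_ext' fun r => LinearMap.ext_ring ?_
  simp only [LinearMap.comp_apply, LinearMap.coe_single, Matrix.mulVecLin_apply]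
  rw [ten_single, ten_single]
  exact (CfsgLib.Geometric.TensorForm.slot_mulVec l A _).trans
    (congrArg pureTensorVec (funext fun m => by
      rcases eq_or_ne m l with rfl | hm
      · simp
      · simp [Function.update_of_ne hm, hm]))

/-- An element commuting with all operators of a position moves into no slice there. -/
lemma mov_ne_slice_of_slotFree (hk : 2 ≤ k) {l : Fin t} {f : GL (Fin t → Fin k) F}
    (hf : SlotFree l (f : Matrix (Fin t → Fin k) (Fin t → Fin k) F)) {u : Fin k → F} (hu : u ≠ 0) :
    mov f ≠ slice l u := by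
  intro he
  have hne : Nonempty (Fin k) := ⟨⟨0, by omega⟩⟩
  obtain ⟨w, hw⟩ : ∃ w : Fin k → F, w ∉ Submodule.span F {u} := by
    by_contra h
    push Not at h
    have h1 := Submodule.finrank_mono (show (⊤ : Submodule F (Fin k → F)) ≤ _ from fun x _ => h x)
    rw [finrank_top, Module.finrank_fin_fun, finrank_span_singleton hu] at h1
    omega
  obtain ⟨φ, hφ, hφw⟩ := exists_dot_of_notMem hw
  obtain ⟨χ, -, hχu⟩ := exists_dot_of_notMem (U := (⊥ : Submodule F (Fin k → F))) (x := u)
    (by simpa using hu)
  set A : Matrix (Fin k) (Fin k) F := vecMulVec w χ with hA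
  have hAu : A *ᵥ u = w := by
    ext a
    simp only [hA, Matrix.mulVec, dotProduct, vecMulVec_apply, mul_assoc, ← Finset.mul_sum]
    rw [show ∑ b, χ b * u b = 1 from hχu, mul_one]
  have hmem : CfsgLib.Geometric.TensorForm.slot l A *ᵥ ten l u (fun _ => 1) ∈ slice l u := by
    rw [← he]
    refine (show mov f ≤ (mov f).comap
      (Matrix.mulVecLin (CfsgLib.Geometric.TensorForm.slot l A)) from
        mov_le_iff.2 fun z => ?_) (he ▸ ten_mem_slice l u _)
    rw [Submodule.mem_comap, Matrix.mulVecLin_apply, Matrix.mulVec_sub, ap_def,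
      Matrix.mulVec_mulVec, hf A, ← Matrix.mulVec_mulVec, ← ap_def]
    exact sub_mem_mov f _
  rw [formSlot_mulVec_ten, hAu] at hmem
  obtain ⟨y, hy⟩ := hmem
  have := congrArg (TPow.con l φ) hy
  rw [con_ten, con_ten, hφw, one_smul, hφ u (Submodule.mem_span_singleton_self u),
    zero_smul] at this
  exact zero_ne_one (α := F) (congrFun this fun _ => ⟨0, by omega⟩)

end CfsgLib.Geometric.TensorOrth
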