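import Cfsg.Agent.Lib.Geometric.TensorHerm.Basic

/-!
# Tensor powers of an alternating form in every characteristic

The factor operators `rk u u` and `al u w`, the factorwise isometries, overgroups of these and of
the cyclic exchanges, and the two properties of such an overgroup on which maximality of the
stabiliser in the orthogonal group rests.
-/

set_option autoImplicit false
set_option linter.unusedSectionVars false

namespace CfsgLib.Geometric.TensorOrth

open scoped Matrix MatrixGroups
open Matrix CfsgLib.SmallDim Cfsg.Geo CfsgLib.Geometric.TensorForm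
open CfsgLib.Geometric.TensorHerm (rk rk_mulVec rk_mul slotGL slotGL_val)

variable {k t : ℕ} {F : Type*} [Field F]

local notation "Mk" => Matrix (Fin k) (Fin k) F
local notation "Mt" => Matrix (Fin t → Fin k) (Fin t → Fin k) F

/-- An alternating datum, in any characteristic. -/
structure IsAlt (D : Datum k F) : Prop where
  id : D.σ = RingHom.id F
  alt : ∀ x : Fin k → F, D.f1 x x = 0

/-- The operator `x ↦ f(x, w) u - f(x, u) w`, self-adjoint for the alternating form. -/
def al (D : Datum k F) (u w : Fin k → F) : Mk := rk D u w - rk D w u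

variable {D : Datum k F}

namespace IsAlt

variable (hD : IsAlt D)
include hD

lemma f1_eq (x y : Fin k → F) : D.f1 x y = x ⬝ᵥ (D.J *ᵥ y) := by
  rw [Datum.f1, hD.id]; rfl

lemma skew (x y : Fin k → F) : D.f1 y x = -D.f1 x y := by
  rw [D.f1_swap x y, hD.id]; rfl

lemma smul_right (c : F) (x y : Fin k → F) : D.f1 x (c • y) = c * D.f1 x y := by
  rw [D.f1_smul_right, hD.id]; rfl

lemma symp : IsSymplecticForm D.f1 := by
  refine ⟨⟨D.f1_add_left, D.f1_smul_left, D.f1_add_right, fun c v x => hD.smul_right c v x⟩,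
    fun v w => hD.skew w v, hD.alt, fun v hv => ?_⟩
  have h1 : ∃ x, D.f1 x v ≠ 0 := by
    by_contra h
    push Not at h
    refine hv (Matrix.eq_zero_of_mulVec_eq_zero D.det ?_)
    funext i
    simpa [hD.f1_eq] using h (Pi.single i 1)
  obtain ⟨x, hx⟩ := h1
  exact ⟨⟨x, hx⟩, ⟨x, by rw [hD.skew x v, neg_ne_zero]; exact hx⟩⟩

lemma toSymp (h2 : (2 : F) ≠ 0) : D.IsSymp := ⟨hD.id, h2⟩

lemma rk_self_mul (u : Fin k → F) : rk D u u * rk D u u = 0 := by
  rw [rk_mul, hD.alt, zero_smul]

lemma al_mulVec (u w x : Fin k → F) : al D u w *ᵥ x = D.f1 x w • u - D.f1 x u • w := by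
  rw [al, Matrix.sub_mulVec, rk_mulVec, rk_mulVec]

lemma al_sq {u w : Fin k → F} (h : D.f1 u w = 0) : al D u w * al D u w = 0 := by
  have h' : D.f1 w u = 0 := by rw [hD.skew u w, h, neg_zero]
  simp only [al, sub_mul, mul_sub, rk_mul, hD.alt, h, h', zero_smul, sub_zero]

omit hD in
lemma al_swap (u w : Fin k → F) : al D w u = -al D u w := by rw [al, al, neg_sub]

omit hD in
lemma al_self (u : Fin k → F) : al D u u = 0 := sub_self _

lemma mul_rk (A : Mk) (u w : Fin k → F) : A * rk D u w = rk D (A *ᵥ u) w := by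
  rw [rk, rk, Matrix.mul_vecMulVec]

lemma conj_rk {a : GL (Fin k) F} (ha : a ∈ CfsgLib.Geometric.isom D.f1) (u w : Fin k → F) :
    (a : Mk) * rk D u w * ((a⁻¹ : GL (Fin k) F) : Mk) = rk D (ap a u) (ap a w) := by
  refine Matrix.ext_of_mulVec_single fun p => ?_
  rw [← Matrix.mulVec_mulVec, ← Matrix.mulVec_mulVec, rk_mulVec, rk_mulVec, Matrix.mulVec_smul]
  have h := CfsgLib.Geometric.mem_isom_iff.mp ha (ap a⁻¹ (Pi.single p 1)) w
  rw [ap_ap_inv] at h
  rw [h]
  rfl

lemma conj_al {a : GL (Fin k) F} (ha : a ∈ CfsgLib.Geometric.isom D.f1) (u w : Fin k → F) :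
    (a : Mk) * al D u w * ((a⁻¹ : GL (Fin k) F) : Mk) = al D (ap a u) (ap a w) := by
  rw [al, al, mul_sub, sub_mul, hD.conj_rk ha, hD.conj_rk ha]

/-- The transvection of the factor as a matrix. -/
lemma T_val (u : Fin k → F) (c : F) :
    ((Symp.T hD.symp u c : GL (Fin k) F) : Mk) = 1 + c • rk D u u := by
  refine Matrix.ext_of_mulVec_single fun p => ?_
  rw [← ap_def, Symp.ap_T, Matrix.add_mulVec, Matrix.one_mulVec, Matrix.smul_mulVec, rk_mulVec,
    smul_smul]

/-- A square-zero operator of the factor gives an isometry of the factor. -/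
lemma exists_isom_one_add {A : Mk} (hA : A * A = 0)
    (hiso : ∀ x y, D.f1 (x + A *ᵥ x) (y + A *ᵥ y) = D.f1 x y) :
    ∃ a ∈ CfsgLib.Geometric.isom D.f1, ((a : GL (Fin k) F) : Mk) = 1 + A := by
  let a : GL (Fin k) F :=
    { val := 1 + A
      inv := 1 - A
      val_inv := by rw [add_mul, one_mul, mul_sub, mul_one, hA, sub_zero, sub_add_cancel]
      inv_val := by rw [sub_mul, one_mul, mul_add, mul_one, hA, add_zero, add_sub_cancel_right] }
  refine ⟨a, CfsgLib.Geometric.mem_isom_iff.mpr fun x y => ?_, rfl⟩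
  have h : ∀ z, ap a z = z + A *ᵥ z := fun z => by
    rw [ap_def]
    show (1 + A) *ᵥ z = _
    rw [Matrix.add_mulVec, Matrix.one_mulVec]
  rw [h, h, hiso]

end IsAlt

/-! ## Overgroups -/

variable (D) in
/-- A group of isometries of the tensor power holding the factorwise isometries and the cyclic
exchanges of three factors. -/
structure Over (M : Subgroup (GL (Fin t → Fin k) F)) : Prop where
  le : M ≤ D.isom t
  slot_mem : ∀ (l : Fin t), ∀ a ∈ CfsgLib.Geometric.isom D.f1, slotGL l a ∈ M
  cyc_mem : ∀ a b c : Fin t, a ≠ b → b ≠ c → a ≠ c →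
    (factorPerm (Equiv.swap a c * Equiv.swap a b) : GL (Fin t → Fin k) F) ∈ M

variable (D) in
/-- A factor operator of root type: `rk u u`, or `al x z` on a totally isotropic plane. -/
def IsRootFac (R : Matrix (Fin k) (Fin k) F) : Prop :=
  (∃ u, u ≠ 0 ∧ R = rk D u u) ∨
    ∃ x z, D.f1 x z = 0 ∧ LinearIndependent F ![x, z] ∧ R = al D x z

variable (D) in
/-- `M` holds a long root element at pure tensors: `rk (u l) (u l)` in all positions but one, and
`al x z` (for `k = 2` a scalar) in the position left. -/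
def HasPure (M : Subgroup (GL (Fin t → Fin k) F)) : Prop :=
  ∃ (i : Fin t) (u : Fin t → Fin k → F) (x z : Fin k → F) (κ : F), κ ≠ 0 ∧
    (∀ l, l ≠ i → u l ≠ 0) ∧ LinearIndependent F ![x, z] ∧
    Good M (κ • pureMat (Function.update (fun l => rk D (u l) (u l)) i (al D x z)))

variable (D) in
/-- The only elements of the corner of a factor operator of root type are scalar ones. -/
def NoCorner (M : Subgroup (GL (Fin t → Fin k) F)) : Prop :=
  ∀ (i : Fin t) (R : Mk) (Z : Mt), IsRootFac D R → SlotFree i Z → Good M (slot i R * Z) →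
    ∃ c : F, slot i R * Z = c • slot i R

variable {M : Subgroup (GL (Fin t → Fin k) F)}

lemma Over.mul_slotFree_val (l : Fin t) (a : GL (Fin k) F) {Z : Mt} (hZ : SlotFree l Z) :
    (slotGL l a : Mt) * Z = Z * (slotGL l a : Mt) := by
  rw [slotGL_val]; exact hZ _

/-- The factorwise element `1 + slot l A` of an isometric square-zero operator. -/
lemma Over.one_add_mem (hM : Over D M) (hD : IsAlt D) (l : Fin t) {A : Mk} (hA : A * A = 0)
    (hiso : ∀ x y, D.f1 (x + A *ᵥ x) (y + A *ᵥ y) = D.f1 x y) :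
    Good M (slot l A) := by
  obtain ⟨a, ha, hav⟩ := hD.exists_isom_one_add hA hiso
  refine ⟨by rw [← map_mul, hA, map_zero], slotGL l a, hM.slot_mem l a ha, ?_⟩
  rw [slotGL_val, hav, map_add, map_one]

lemma Over.good_rk (hM : Over D M) (hD : IsAlt D) (l : Fin t) (u : Fin k → F) (c : F) :
    Good M (c • slot l (rk D u u)) := by
  refine ⟨Datum.smul_sq (by rw [← map_mul, hD.rk_self_mul, map_zero]) c,
    slotGL l (Symp.T hD.symp u c), hM.slot_mem l _ (Symp.T_mem_isom hD.symp u c), ?_⟩
  rw [slotGL_val, hD.T_val, map_add, map_one, map_smul]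

lemma Over.good_al (hM : Over D M) (hD : IsAlt D) (h2 : (2 : F) = 0) (l : Fin t)
    {u w : Fin k → F} (h : D.f1 u w = 0) (c : F) : Good M (c • slot l (al D u w)) := by
  rw [← map_smul]
  refine hM.one_add_mem hD l
    (by rw [Matrix.smul_mul, Matrix.mul_smul, hD.al_sq h, smul_zero, smul_zero]) fun x y => ?_
  simp only [Matrix.smul_mulVec, hD.al_mulVec, D.f1_add_left, D.f1_add_right, D.f1_smul_left,
    hD.smul_right, sub_eq_add_neg, ← neg_one_smul F (D.f1 _ _ • (_ : Fin k → F)), hD.alt, h,
    hD.skew u w, neg_zero, mul_zero, add_zero]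
  rw [hD.skew y u, hD.skew y w]
  linear_combination c * (D.f1 y w * D.f1 x u - D.f1 x w * D.f1 y u) * h2

/-- Conjugation of a good element by a factorwise isometry. -/
lemma Good.slot_conj (hM : Over D M) {X : Mt} (h : Good M X) (l : Fin t) {a : GL (Fin k) F}
    (ha : a ∈ CfsgLib.Geometric.isom D.f1) :
    Good M ((slotGL l a : Mt) * X * (((slotGL l a)⁻¹ : GL (Fin t → Fin k) F) : Mt)) :=
  Good.conj h (hM.slot_mem l a ha)

/-- Sums in the corner of a square-zero factor operator. -/
lemma good_add_corner {i : Fin t} {R : Mk} (hR : R * R = 0) {Z Z' : Mt} (hZ : SlotFree i Z)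
    (hZ' : SlotFree i Z') (h : Good M (slot i R * Z)) (h' : Good M (slot i R * Z')) :
    Good M (slot i R * (Z + Z')) := by
  have h0 : ∀ U W : Mt, SlotFree i U → slot i R * U * (slot i R * W) = 0 := fun U W hU => by
    rw [mul_assoc, ← mul_assoc U, ← hU, ← mul_assoc, ← mul_assoc, ← map_mul, hR, map_zero,
      zero_mul, zero_mul]
  rw [mul_add]
  exact h.add h' (h0 _ _ hZ) (h0 _ _ hZ')

/-- Differences in the corner of a square-zero factor operator. -/
lemma good_sub_corner {i : Fin t} {R : Mk} (hR : R * R = 0) {Z Z' : Mt} (hZ : SlotFree i Z)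
    (hZ' : SlotFree i Z') (h : Good M (slot i R * Z)) (h' : Good M (slot i R * Z')) :
    Good M (slot i R * (Z - Z')) := by
  rw [sub_eq_add_neg]
  refine good_add_corner hR hZ (fun A => by rw [mul_neg, hZ', neg_mul]) h ?_
  rw [mul_neg]
  exact Good.neg h'

end CfsgLib.Geometric.TensorOrth
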