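import Cfsg.Agent.Lib.Geometric.TensorOrth.Ops

/-!
# The bracket of two products of factor operators

Exposed positions keep their operators, common positions become of type `N`, and one chosen common
position becomes `al p q` or, in odd characteristic, of type `N`.
-/

set_option autoImplicit false
set_option linter.unusedSectionVars false

namespace CfsgLib.Geometric.TensorOrth

open scoped Matrix MatrixGroups
open Matrix CfsgLib.SmallDim Cfsg.Geo CfsgLib.Geometric.TensorForm
open CfsgLib.Geometric.TensorHerm (rk rk_mulVec rk_mul slotGL slotGL_val)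

variable {k t : ℕ} {F : Type*} [Field F]

local notation "Mk" => Matrix (Fin k) (Fin k) F
local notation "Mt" => Matrix (Fin t → Fin k) (Fin t → Fin k) F

variable {M : Subgroup (GL (Fin t → Fin k) F)} {D : Datum k F}

/-- The types left by a bracket, apart from the chosen position. -/
def join (a b : Ty) : Ty := if a = .one then b else if b = .one then a else .N

lemma join_ne_one {a b : Ty} : join a b ≠ .one ↔ a ≠ .one ∨ b ≠ .one := by
  cases a <;> cases b <;> simp [join]

variable (hD : IsAlt D)
include hD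

lemma exists_ofTy (hk : 2 ≤ k) {ty : Ty} (h4 : ty = .A → 4 ≤ k) : ∃ f : Mk, OfTy D ty f := by
  match ty, h4 with
  | .one, _ => exact ⟨1, rfl⟩
  | .N, _ =>
    obtain ⟨e, g, -, -, -, -, hef⟩ := hD.exists_frame (r := 1) (by omega)
    exact ⟨_, e 0, (hef 0 0).ne_zero 0, rfl⟩
  | .A, h4 =>
    obtain ⟨e, g, he, -, -, hee, -⟩ := hD.exists_frame (r := 2) (by have := h4 rfl; omega)
    exact ⟨_, e 0, e 1, he 0 1, hee 0 1 (by decide), rfl⟩

lemma exists_pairing_both {p q : Fin k → F} (h : LinearIndependent F ![p, q]) :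
    ∃ z, D.f1 p z ≠ 0 ∧ D.f1 z q ≠ 0 := by
  obtain ⟨hp, hq⟩ := li_pair.1 h
  obtain ⟨z₁, h₁⟩ := (hD.symp.nondegenerate p hp).2
  obtain ⟨z₂, h₂⟩ := (hD.symp.nondegenerate q (fun h => hq (h ▸ zero_mem _))).1
  by_cases a : D.f1 z₁ q = 0
  · by_cases b : D.f1 p z₂ = 0
    · exact ⟨z₁ + z₂, by rwa [D.f1_add_right, b, add_zero], by rwa [D.f1_add_left, a, zero_add]⟩
    · exact ⟨z₂, b, h₂⟩
  · exact ⟨z₁, h₁, a⟩

omit hD in
lemma prod_eq_or_neg {ι : Type*} (s : Finset ι) {a b : ι → F} (h : ∀ l, b l = a l ∨ b l = -a l) :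
    ∏ l ∈ s, b l = ∏ l ∈ s, a l ∨ ∏ l ∈ s, b l = -∏ l ∈ s, a l := by
  classical
  induction s using Finset.induction_on with
  | empty => simp
  | insert x s hx ih =>
    rw [Finset.prod_insert hx, Finset.prod_insert hx]
    rcases h x with e | e <;> rcases ih with e' | e' <;> rw [e, e'] <;> simp

variable (hM : Over D M)
include hM

set_option maxHeartbeats 800000 in
/-- The bracket. -/
theorem HasTy.bracket (hk : 2 ≤ k) {τ τ' : Fin t → Ty} (h : HasTy D M τ) (h' : HasTy D M τ')
    {i j j' : Fin t} (hi : τ i ≠ .one) (hi' : τ' i ≠ .one)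
    (h4 : ∀ l, τ l = .A ∨ τ' l = .A → 4 ≤ k) (h6 : τ i = .A → τ' i = .A → 6 ≤ k)
    (hji : j ≠ i) (hj : τ j ≠ .one ∧ (τ' j = .one ∨ τ j = .A ∧ τ' j = .A))
    (hji' : j' ≠ i) (hj' : τ' j' ≠ .one ∧ (τ j' = .one ∨ τ j' = .A ∧ τ' j' = .A))
    (hchar : (2 : F) ≠ 0 ∨ ∀ l, l ≠ i → τ l ≠ .one → τ' l ≠ .one → τ l = .A ∧ τ' l = .A) :
    (∃ (G : Fin t → Mk) (p q : Fin k → F), LinearIndependent F ![p, q] ∧
        (∀ l, l ≠ i → OfTy D (join (τ l) (τ' l)) (G l)) ∧ G i = al D p q ∧
        Root F M (pureMat G)) ∨
      ((2 : F) ≠ 0 ∧ HasTy D M (Function.update (fun l => join (τ l) (τ' l)) i .N)) := by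
  classical
  have hone : OfTy D .one (1 : Mk) := rfl
  have data : ∀ l, ∃ (a b P G : Mk) (s s' : F), l ≠ i →
      OfTy D (τ l) a ∧ OfTy D (τ' l) b ∧ OfTy D (join (τ l) (τ' l)) G ∧ s ≠ 0 ∧
      (s' = s ∨ s' = -s) ∧ (P = 1 ∨ ∃ z, P = rk D z z) ∧
      ((τ l = .one ∨ τ' l = .one ∨ τ l = .A ∧ τ' l = .A) → P = 1) ∧
      (τ l ≠ .one → (τ' l = .one ∨ τ l = .A ∧ τ' l = .A) → a * b * a = 0) ∧
      (τ' l ≠ .one → (τ l = .one ∨ τ l = .A ∧ τ' l = .A) → b * a * b = 0) ∧
      P * (a * b) * P = s • G ∧ P * (b * a) * P = s' • G := by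
    intro l
    by_cases h1 : τ l = .one
    · by_cases h2 : τ' l = .one
      · exact ⟨1, 1, 1, 1, 1, 1, fun _ => ⟨by rw [h1]; exact hone, by rw [h2]; exact hone,
          by rw [h1, h2]; exact hone, one_ne_zero, Or.inl rfl, Or.inl rfl, fun _ => rfl,
          fun h => absurd h1 h, fun h => absurd h2 h, by simp, by simp⟩⟩
      obtain ⟨b, hb⟩ := exists_ofTy hD hk (ty := τ' l) fun e => h4 l (Or.inr e)
      exact ⟨1, b, 1, b, 1, 1, fun _ => ⟨by rw [h1]; exact hone, hb, by simpa [join, h1] using hb,
        one_ne_zero, Or.inl rfl, Or.inl rfl, fun _ => rfl, fun h => absurd h1 h,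
        fun h _ => by rw [mul_one, OfTy.sq hD h hb], by simp, by simp⟩⟩
    by_cases h2 : τ' l = .one
    · obtain ⟨a, ha⟩ := exists_ofTy hD hk (ty := τ l) fun e => h4 l (Or.inl e)
      exact ⟨a, 1, 1, a, 1, 1, fun _ => ⟨ha, by rw [h2]; exact hone,
        by simpa [join, h1, h2] using ha, one_ne_zero, Or.inl rfl, Or.inl rfl, fun _ => rfl,
        fun h _ => by rw [mul_one, OfTy.sq hD h ha], fun h => absurd h2 h, by simp, by simp⟩⟩
    obtain ⟨a, b, P, G, s, s', ha, hb, hG, hs, hss, hP, hAA, e1, e2⟩ :=
      exists_overlap_pair hD hk h1 h2 (h4 l)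
    exact ⟨a, b, P, G, s, s', fun _ => ⟨ha, hb, by simpa [join, h1, h2] using hG, hs, hss, hP,
      fun h => by
        rcases h with h | h | h
        exacts [absurd h h1, absurd h h2, (hAA h.1 h.2).1],
      fun _ h => by
        rcases h with h | h
        exacts [absurd h h2, (hAA h.1 h.2).2.1],
      fun _ h => by
        rcases h with h | h
        exacts [absurd h h1, (hAA h.1 h.2).2.2],
      e1, e2⟩⟩
  choose a b P G s s' hdata using data
  obtain ⟨x, y, p, q, c, c', hx, hy, hc, hcc, hpq, exy, eyx⟩ :=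
    exists_free_pair hD hk hi hi' (h4 i) h6
  set f := Function.update a i x with hf
  set f' := Function.update b i y with hf'
  set Q := Function.update P i 1 with hQ
  set S := Function.update s i c with hS
  set S' := Function.update s' i c' with hS'
  have hfty : ∀ l, OfTy D (τ l) (f l) := fun l => by
    by_cases hl : l = i
    · subst hl; simpa [hf] using hx
    · simpa [hf, Function.update_of_ne hl] using (hdata l hl).1
  have hfty' : ∀ l, OfTy D (τ' l) (f' l) := fun l => by
    by_cases hl : l = i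
    · subst hl; simpa [hf'] using hy
    · simpa [hf', Function.update_of_ne hl] using (hdata l hl).2.1
  obtain ⟨-, -, hGj, -, -, -, hPj, haba, -, ej, ej'⟩ := hdata j hji
  obtain ⟨-, -, -, -, -, -, -, -, hbab, -, -⟩ := hdata j' hji'
  have hfj : f j = a j := by simp [hf, Function.update_of_ne hji]
  have hfj' : f' j = b j := by simp [hf', Function.update_of_ne hji]
  have hP1 : P j = 1 := hPj (hj.2.elim (fun e => Or.inr (Or.inl e)) fun e => Or.inr (Or.inr e))
  rw [hP1, one_mul, mul_one] at ej ej'
  have hbr := root_bracket (h f hfty) (h' f' hfty')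
    (by
      rw [← pureMat_mul]
      exact pureMat_mul_eq_zero j (by simp [hfj, hfj', haba hj.1 hj.2]))
    (by
      rw [← pureMat_mul]
      exact pureMat_mul_eq_zero j' (by
        simp [hf, hf', Function.update_of_ne hji', hbab hj'.1 hj'.2]))
  have hGsq : G j * G j = 0 := OfTy.sq hD (join_ne_one.2 (Or.inl hj.1)) hGj
  set Y : Mt := s j • pureMat (Function.update (f * f') j 1) -
    s' j • pureMat (Function.update (f' * f) j 1) with hY
  have hYf : SlotFree j Y := ((SlotFree.pureMat (by simp)).smul _).sub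
    ((SlotFree.pureMat (by simp)).smul _)
  have hform : pureMat f * pureMat f' - pureMat f' * pureMat f = slot j (G j) * Y := by
    rw [← pureMat_mul, ← pureMat_mul, pureMat_eq_slot_mul (f * f') j,
      pureMat_eq_slot_mul (f' * f) j, Pi.mul_apply, Pi.mul_apply, hfj, hfj', ej, ej', map_smul,
      map_smul, hY, mul_sub, Matrix.mul_smul, Matrix.mul_smul, Matrix.smul_mul, Matrix.smul_mul]
  rw [hform] at hbr
  have hQj : Q j = 1 := by simp [hQ, Function.update_of_ne hji, hP1]
  have hQty : ∀ l, Q l = 1 ∨ ∃ z, Q l = rk D z z := fun l => by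
    by_cases hl : l = i
    · subst hl; simp [hQ]
    · simpa [hQ, Function.update_of_ne hl] using (hdata l hl).2.2.2.2.2.1
  have hcomp : Root F M (pureMat Q * (slot j (G j) * Y) * pureMat Q) := by
    by_cases h2 : (2 : F) = 0
    · have : Q = fun _ => 1 := funext fun l => by
        by_cases hl : l = i
        · subst hl; simp [hQ]
        simp only [hQ, Function.update_of_ne hl]
        refine (hdata l hl).2.2.2.2.2.2.1 ?_
        by_cases ha : τ l = .one
        · exact Or.inl ha
        by_cases hb : τ' l = .one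
        · exact Or.inr (Or.inl hb)
        exact Or.inr (Or.inr ((hchar.resolve_left (fun h => h h2)) l hl ha hb))
      rw [this, show pureMat (fun _ : Fin t => (1 : Mk)) = 1 from pureMat_one, one_mul, mul_one]
      exact hbr
    · exact root_compress hD hM h2 hGsq hYf hbr hQj hQty
  rw [← hform, mul_sub, sub_mul, ← pureMat_mul, ← pureMat_mul, ← pureMat_mul, ← pureMat_mul,
    ← pureMat_mul, ← pureMat_mul] at hcomp
  set G₁ := Function.update G i (rk D p q) with hG₁
  set G₂ := Function.update G i (rk D q p) with hG₂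
  have eA : Q * (f * f') * Q = fun l => S l • G₁ l := funext fun l => by
    by_cases hl : l = i
    · subst hl; simp [hQ, hS, hG₁, hf, hf', exy]
    · simpa [hQ, hS, hG₁, hf, hf', Function.update_of_ne hl] using
        (hdata l hl).2.2.2.2.2.2.2.2.2.1
  have eB : Q * (f' * f) * Q = fun l => S' l • G₂ l := funext fun l => by
    by_cases hl : l = i
    · subst hl; simp [hQ, hS', hG₂, hf, hf', eyx]
    · simpa [hQ, hS', hG₂, hf, hf', Function.update_of_ne hl] using
        (hdata l hl).2.2.2.2.2.2.2.2.2.2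
  rw [eA, eB, pureMat_smul, pureMat_smul] at hcomp
  have hS0 : (∏ l, S l) ≠ 0 := Finset.prod_ne_zero_iff.2 fun l _ => by
    by_cases hl : l = i
    · subst hl; simpa [hS] using hc
    · simpa [hS, Function.update_of_ne hl] using (hdata l hl).2.2.2.1
  have hsign := prod_eq_or_neg Finset.univ (a := S) (b := S') fun l => by
    by_cases hl : l = i
    · subst hl; simpa [hS, hS'] using hcc
    · simpa [hS, hS', Function.update_of_ne hl] using (hdata l hl).2.2.2.2.1
  have hal : ∀ u v, pureMat (Function.update G i (u - v)) =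
      pureMat (Function.update G i u) - pureMat (Function.update G i v) := fun u v => by
    rw [eq_sub_iff_add_eq, ← pureMat_update_add, sub_add_cancel]
  have hleft : Root F M (pureMat (Function.update G i (al D p q))) →
      ∃ (G : Fin t → Mk) (p q : Fin k → F), LinearIndependent F ![p, q] ∧
        (∀ l, l ≠ i → OfTy D (join (τ l) (τ' l)) (G l)) ∧ G i = al D p q ∧
        Root F M (pureMat G) := fun hr =>
    ⟨_, p, q, hpq, fun l hl => by simpa [Function.update_of_ne hl] using (hdata l hl).2.2.1,
      Function.update_self .., hr⟩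
  rcases hsign with e | e
  · rw [e, ← smul_sub] at hcomp
    refine Or.inl (hleft ?_)
    rw [al, hal]
    have := root_smul hcomp (∏ l, S l)⁻¹
    rwa [smul_smul, inv_mul_cancel₀ hS0, one_smul] at this
  · rw [e, neg_smul, sub_neg_eq_add, ← smul_add] at hcomp
    have hsy : Root F M (pureMat (Function.update G i (rk D p q + rk D q p))) := by
      rw [pureMat_update_add]
      have := root_smul hcomp (∏ l, S l)⁻¹
      rwa [smul_smul, inv_mul_cancel₀ hS0, one_smul] at this
    by_cases h2 : (2 : F) = 0
    · refine Or.inl (hleft ?_)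
      rwa [al, sub_eq_add_neg, show -rk D q p = rk D q p from
        neg_eq_of_add_eq_zero_left (by rw [← two_smul F (rk D q p), h2, zero_smul])]
    refine Or.inr ⟨h2, ?_⟩
    obtain ⟨z, hzp, hzq⟩ := exists_pairing_both hD hpq
    have hz : z ≠ 0 := fun h => hzp (by rw [h]; exact TensorHerm.f1_zero_right _)
    set W := Function.update (Function.update G i (rk D p q + rk D q p)) j 1 with hW
    have hWj : pureMat (Function.update G i (rk D p q + rk D q p)) =
        slot j (G j) * pureMat W := by
      rw [hW, slot_mul_pureMat, Function.update_self, mul_one, Function.update_idem]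
      congr 1
      funext l
      by_cases hl : l = j
      · subst hl; simp [Function.update_of_ne hji]
      · simp [Function.update_of_ne hl]
    rw [hWj] at hsy
    have hc2 := root_compress_one hD hM h2 hji.symm hGsq (SlotFree.pureMat (by simp [hW])) hsy z
    rw [← hWj, slot_mul_pureMat, pureMat_mul_slot, Function.update_idem, Function.update_self,
      Function.update_idem, Function.update_self] at hc2
    have ez : rk D z z * (rk D p q + rk D q p) * rk D z z =
        (2 * (D.f1 p z * D.f1 z q)) • rk D z z := by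
      simp only [mul_add, add_mul, rk_mul, Matrix.smul_mul, smul_smul, ← add_smul]
      rw [hD.skew z q, hD.skew p z]
      congr 1
      ring
    rw [ez, pureMat_update_smul] at hc2
    have hr := root_smul hc2 (2 * (D.f1 p z * D.f1 z q))⁻¹
    rw [smul_smul, inv_mul_cancel₀ (mul_ne_zero h2 (mul_ne_zero hzp hzq)), one_smul] at hr
    refine has_of_root hD hM (fun l => ?_) hr
    by_cases hl : l = i
    · subst hl; simpa using ⟨z, hz, rfl⟩
    · simpa [Function.update_of_ne hl] using (hdata l hl).2.2.1

end CfsgLib.Geometric.TensorOrth
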