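import Cfsg.Agent.Lib.Geometric.TensorOrth.BForm
import Cfsg.Agent.Lib.Geometric.TensorUnitary.PlaneTwo

/-!
In even characteristic, with factors of dimension at least six, an overgroup in which slices and
plane slices are only moved factorwise lies in the wreath product: in a least span of a plane of
slices and a moved slice, two involutions which are not conjugate centralise a common one.
-/

set_option autoImplicit false
set_option linter.unusedSectionVars false

namespace CfsgLib.Geometric.TensorOrth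

open Matrix TPow CfsgLib.Geometric.TensorForm
open CfsgLib.Geometric.TPowU (IsPlane planeS slice_le_planeS con_eq_zero_of_plane
  mem_span_of_ten_mem_plane one_ne_zero_rest exists_eq_slot mov_slot_eq mov_slot_plane
  sdim_lt_finrank_plane finrank_span_plane exists_slice_of_mem_wreath exists_commuting_involution)

variable {k t : ℕ} {F : Type*} [Field F] {D : Datum k F}
  {act : Finset (Fin t)} {M : Subgroup (GL (Fin t → Fin k) F)}

/-- The contraction against a vector. -/
def cw (D : Datum k F) (i : Fin t) (v : Fin k → F) :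
    ((Fin t → Fin k) → F) →ₗ[F] (Rest i k → F) :=
  TPow.con i (D.J *ᵥ v)

lemma cw_ten (hD : IsAlt D) (i : Fin t) (v u : Fin k → F) (y : Rest i k → F) :
    cw D i v (ten i u y) = D.f1 u v • y := by
  rw [cw, con_ten, hD.f1_eq, dotProduct_comm]

lemma bMat_symm (hD : IsAlt D) (h2 : (2 : F) = 0) {κ : Type} [Fintype κ] :
    (bMat κ D.J)ᵀ = bMat κ D.J := by
  have hJ : ∀ a b, D.J a b = D.J b a := by
    intro a b
    have h := hD.skew (Pi.single b 1) (Pi.single a 1)
    simp only [hD.f1_eq, Matrix.mulVec_single_one, single_dotProduct, one_mul,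
      Matrix.col_apply] at h
    linear_combination h - D.J b a * h2
  ext x y
  exact Finset.prod_congr rfl fun l _ => hJ _ _

lemma bForm_comm (hD : IsAlt D) (h2 : (2 : F) = 0) {κ : Type} [Fintype κ] [DecidableEq κ]
    (x y : (κ → Fin k) → F) : bForm D.J x y = bForm D.J y x := by
  rw [bForm, bForm, Matrix.dotProduct_mulVec, dotProduct_comm, ← Matrix.mulVec_transpose,
    bMat_symm hD h2]

lemma plane_f1_zero (hD : IsAlt D) {w v a b : Fin k → F} (hp : IsPlane D.f1 w v)
    (ha : a ∈ Submodule.span F {w, v}) (hb : b ∈ Submodule.span F {w, v}) : D.f1 a b = 0 := by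
  obtain ⟨s, t, rfl⟩ := Submodule.mem_span_pair.1 ha
  obtain ⟨s', t', rfl⟩ := Submodule.mem_span_pair.1 hb
  simp [D.f1_add_left, D.f1_smul_left, D.f1_add_right, hD.smul_right, hp.ww, hp.vv, hp.wv, hp.vw]

/-- The transvection of one factor with coefficient one. -/
def zT (hD : IsAlt D) (i : Fin t) (v : Fin k → F) : GL (Fin t → Fin k) F :=
  TPow.slot i (Symp.T hD.symp v 1)

lemma ap_zT (hD : IsAlt D) (i : Fin t) (v : Fin k → F) (z : (Fin t → Fin k) → F) :
    ap (zT hD i v) z = z + ten i v (cw D i v z) := by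
  refine LinearMap.congr_fun (ext_ten i (f := (apEquiv (zT hD i v)).toLinearMap)
    (f' := LinearMap.id + (ten i v).comp (cw D i v)) fun u r => ?_) z
  simp only [LinearEquiv.coe_coe, apEquiv_apply, zT, slot_ten, Symp.ap_T hD.symp, one_mul,
    LinearMap.add_apply, LinearMap.id_apply, LinearMap.comp_apply, cw_ten hD, map_smul,
    ten_add_left, ten_smul_left]

lemma zT_mem (hD : IsAlt D) (hM : OverOn D act M) {i : Fin t} (hi : i ∈ act) (v : Fin k → F) :
    zT hD i v ∈ M :=
  hM.tslot_mem hi (Symp.T_mem_isom hD.symp v 1)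

lemma mov_zT (hD : IsAlt D) (i : Fin t) {v : Fin k → F} (hv : v ≠ 0) :
    mov (zT hD i v) = slice i v := by
  refine le_antisymm (mov_le_iff.2 fun z => by
    rw [ap_zT, add_sub_cancel_left]; exact ten_mem_slice _ _ _) ?_
  rintro _ ⟨y, rfl⟩
  obtain ⟨⟨x, hx⟩, -⟩ := hD.symp.nondegenerate v hv
  have := sub_mem_mov (zT hD i v) (ten i ((D.f1 x v)⁻¹ • x) y)
  rwa [ap_zT, add_sub_cancel_left, cw_ten hD, D.f1_smul_left, inv_mul_cancel₀ hx, one_smul] at this

lemma zT_sq (hD : IsAlt D) (h2 : (2 : F) = 0) (i : Fin t) (v : Fin k → F) :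
    zT hD i v * zT hD i v = 1 := by
  refine gl_ext fun z => ?_
  rw [ap_mul, ap_one, ap_zT, ap_zT, map_add, cw_ten hD, hD.alt, zero_smul, add_zero, add_assoc,
    ← two_smul F (ten i v (cw D i v z)), h2, zero_smul, add_zero]

/-- The least span of a plane of slices and a moved slice. -/
structure PlaneLeast (D : Datum k F) (act : Finset (Fin t))
    (M : Subgroup (GL (Fin t → Fin k) F))
    (g : GL (Fin t → Fin k) F) (i j : Fin t) (w v w' : Fin k → F) : Prop where
  fst : i ∈ act
  snd : j ∈ act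
  mem : g ∈ M
  notMem : g ∉ wreath (Fin t) k F
  plane : IsPlane D.f1 w v
  ne' : w' ≠ 0
  least : ∀ g' ∈ M, g' ∉ wreath (Fin t) k F → ∀ i' ∈ act, ∀ j' ∈ act, ∀ (a b c : Fin k → F),
    IsPlane D.f1 a b → c ≠ 0 →
    Module.finrank F ↥(planeS i w v ⊔ (slice j w').map (apEquiv g).toLinearMap) ≤
      Module.finrank F ↥(planeS i' a b ⊔ (slice j' c).map (apEquiv g').toLinearMap)

/-- The span of a plane of slices and a moved slice. -/
abbrev pspan (g : GL (Fin t → Fin k) F) (i j : Fin t) (w v w' : Fin k → F) :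
    Submodule F ((Fin t → Fin k) → F) :=
  planeS i w v ⊔ (slice j w').map (apEquiv g).toLinearMap

variable {g : GL (Fin t → Fin k) F} {i j : Fin t} {w v w' : Fin k → F}

/-- The moved slice seen from a slice has the rank of the reverse. -/
lemma finrank_pair_le [Finite F] (hD : IsAlt D) (h2 : (2 : F) = 0) (hg : g ∈ D.isom t)
    (u : Fin k → F) :
    Module.finrank F (LinearMap.range
        ((cw D j w').comp ((apEquiv g⁻¹).toLinearMap.comp (ten i u)))) ≤
      Module.finrank F (LinearMap.range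
        ((cw D i u).comp ((apEquiv g).toLinearMap.comp (ten j w')))) := by
  classical
  set A : (Rest i k → F) →ₗ[F] (Rest j k → F) :=
    (cw D j w').comp ((apEquiv g⁻¹).toLinearMap.comp (ten i u)) with hA
  set B : (Rest j k → F) →ₗ[F] (Rest i k → F) :=
    (cw D i u).comp ((apEquiv g).toLinearMap.comp (ten j w')) with hB
  set N : Matrix (Rest j k) (Rest i k) F :=
    (LinearMap.toMatrix' B)ᵀ * bMat {l : Fin t // l ≠ i} D.J with hN
  have hker : LinearMap.ker N.mulVecLin ≤ LinearMap.ker A := by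
    intro y hy
    rw [LinearMap.mem_ker] at hy ⊢
    refine eq_zero_of_bForm D.J D.det fun y' => ?_
    have h1 : bForm D.J (B y') y = 0 := by
      have : y' ⬝ᵥ N *ᵥ y = 0 := by
        rw [show N *ᵥ y = 0 from hy, dotProduct_zero]
      rw [hN, ← Matrix.mulVec_mulVec, Matrix.dotProduct_mulVec, Matrix.vecMul_transpose,
        LinearMap.toMatrix'_mulVec] at this
      exact this
    rw [hA, LinearMap.comp_apply, LinearMap.comp_apply, cw, ← bForm_ten_right D.J j,
      LinearEquiv.coe_coe, apEquiv_apply, ← bForm_isom hD hg, ap_ap_inv, bForm_comm hD h2,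
      bForm_ten_right D.J i]
    exact h1
  have e1 := A.finrank_range_add_finrank_ker
  have e2 := Submodule.finrank_mono hker
  have e3 := N.mulVecLin.finrank_range_add_finrank_ker
  have e4 : N.rank ≤ (LinearMap.toMatrix' B).rank := by
    rw [← Matrix.rank_transpose (LinearMap.toMatrix' B)]
    exact Matrix.rank_mul_le_left _ _
  have e5 : (LinearMap.toMatrix' B).mulVecLin = B := LinearMap.ext fun y => by simp
  rw [Matrix.rank, Matrix.rank, e5] at e4
  omega

/-- A vector of the plane kills only the plane's slices in the span. -/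
lemma PlaneLeast.mem_plane [Finite F] (hD : IsAlt D) (h2 : (2 : F) = 0) (hM : OverOn D act M)
    (hL : PlaneLeast D act M g i j w v w') (hf : g * zT hD j w' * g⁻¹ ∉ wreath (Fin t) k F)
    {u : Fin k → F} (hu : u ∈ Submodule.span F {w, v}) (hu0 : u ≠ 0)
    {x : (Fin t → Fin k) → F} (hx : x ∈ pspan g i j w v w') (hxu : cw D i u x = 0) :
    x ∈ planeS i w v := by
  by_contra hxP
  set f := g * zT hD j w' * g⁻¹ with hfdef
  have hle := hL.least f (M.mul_mem (M.mul_mem hL.mem (zT_mem hD hM hL.snd w'))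
    (M.inv_mem hL.mem)) hf i hL.fst i hL.fst w v u hL.plane hu0
  set R := pspan g i j w v w' with hR
  set A : (Rest i k → F) →ₗ[F] (Rest j k → F) :=
    (cw D j w').comp ((apEquiv g⁻¹).toLinearMap.comp (ten i u)) with hA
  set B : (Rest j k → F) →ₗ[F] (Rest i k → F) :=
    (cw D i u).comp ((apEquiv g).toLinearMap.comp (ten j w')) with hB
  set Ψ : (Rest i k → F) →ₗ[F] ((Fin t → Fin k) → F) :=
    ((apEquiv g).toLinearMap.comp (ten j w')).comp A with hΨ
  have hf' : ∀ y, ap f (ten i u y) = ten i u y + Ψ y := fun y => by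
    simp only [hfdef, hΨ, hA, ap_mul, ap_zT, ap_add, ap_ap_inv, LinearMap.comp_apply,
      LinearEquiv.coe_coe, apEquiv_apply]
  have h1 : Module.finrank F (LinearMap.range Ψ) ≤ Module.finrank F (LinearMap.range B) := by
    rw [hΨ, LinearMap.range_comp]
    exact (Submodule.finrank_map_le _ _).trans (finrank_pair_le hD h2 (hM.le hL.mem) u)
  have hb : LinearMap.range B ≤ R.map (cw D i u) := by
    rintro _ ⟨y, rfl⟩
    exact ⟨_, Submodule.mem_sup_right ⟨_, ten_mem_slice j w' y, rfl⟩, rfl⟩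
  have h3 := finrank_map_add_le (cw D i u) (S := planeS i w v ⊔ Submodule.span F {x}) (R := R)
    (sup_le le_sup_left ((Submodule.span_singleton_le_iff_mem _ _).2 hx))
    (sup_le (sup_le (by
        rintro _ ⟨y, rfl⟩
        simp [cw_ten hD, plane_f1_zero hD hL.plane
          (Submodule.subset_span (by simp : w ∈ ({w, v} : Set _))) hu])
      (by
        rintro _ ⟨y, rfl⟩
        simp [cw_ten hD, plane_f1_zero hD hL.plane
          (Submodule.subset_span (by simp : v ∈ ({w, v} : Set _))) hu]))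
      ((Submodule.span_singleton_le_iff_mem _ _).2 hxu))
  rw [finrank_sup_singleton hxP] at h3
  have h4 : planeS i w v ⊔ (slice i u).map (apEquiv f).toLinearMap ≤
      planeS i w v ⊔ LinearMap.range Ψ := by
    refine sup_le le_sup_left ?_
    rintro _ ⟨_, ⟨y, rfl⟩, rfl⟩
    rw [LinearEquiv.coe_coe, apEquiv_apply, hf']
    exact Submodule.add_mem_sup (slice_le_planeS i hu (ten_mem_slice _ _ _)) ⟨y, rfl⟩
  have h5 := Submodule.finrank_mono h4
  have h6 := Submodule.finrank_add_le_finrank_add_finrank (planeS i w v) (LinearMap.range Ψ)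
  have h7 := Submodule.finrank_mono hb
  have h8 : Module.finrank F R =
      Module.finrank F ↥(planeS i w v ⊔ (slice j w').map (apEquiv g).toLinearMap) := rfl
  omega

/-- Products in the span have their factor in the plane. -/
lemma PlaneLeast.of_ten_mem [Finite F] (hD : IsAlt D) (h2 : (2 : F) = 0) (hM : OverOn D act M)
    (hL : PlaneLeast D act M g i j w v w') (hf : g * zT hD j w' * g⁻¹ ∉ wreath (Fin t) k F)
    {u : Fin k → F} {y : Rest i k → F} (hy : y ≠ 0) (hu : ten i u y ∈ pspan g i j w v w') :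
    u ∈ Submodule.span F {w, v} := by
  obtain ⟨p, hp, hp0, hup⟩ : ∃ p ∈ Submodule.span F {w, v}, p ≠ 0 ∧ D.f1 u p = 0 := by
    by_cases hv : D.f1 u v = 0
    · exact ⟨v, Submodule.subset_span (by simp), hL.plane.ne_snd, hv⟩
    refine ⟨w + (-(D.f1 u w / D.f1 u v)) • v,
      Submodule.mem_span_pair.2 ⟨1, -(D.f1 u w / D.f1 u v), by module⟩,
      fun h0 => hL.plane.symm.notMem (Submodule.mem_span_singleton.2
        ⟨D.f1 u w / D.f1 u v, by linear_combination (norm := module) (-1 : F) • h0⟩), ?_⟩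
    rw [D.f1_add_right, hD.smul_right]
    field_simp
    ring
  refine mem_span_of_ten_mem_plane i hy (hL.mem_plane hD h2 hM hf hp hp0 hu ?_)
  rw [cw_ten hD, hup, zero_smul]

/-- A factorwise element of square one moving into the span acts on the factor of the plane and
moves into the plane. -/
lemma PlaneLeast.exists_slot [Finite F] (hD : IsAlt D) (h2 : (2 : F) = 0) (hM : OverOn D act M)
    (hk : 4 ≤ k) (hL : PlaneLeast D act M g i j w v w')
    (hf : g * zT hD j w' * g⁻¹ ∉ wreath (Fin t) k F) {d : GL (Fin t → Fin k) F}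
    (hdW : d ∈ wreath (Fin t) k F) (hdM : d ∈ M) (hdR : d ∈ movInto (pspan g i j w v w'))
    (hd2 : d * d = 1) :
    ∃ a : GL (Fin k) F, d = TPow.slot i a ∧ ∀ u, ap a u - u ∈ Submodule.span F {w, v} := by
  have hne : Nonempty (Fin k) := ⟨⟨0, by omega⟩⟩
  set T0 := Submodule.span F {w, v} with hT0
  have hfin : Module.finrank F T0 = 2 := finrank_span_plane hL.plane
  obtain ⟨π, b, hdb⟩ := hdW
  obtain ⟨φ, hφ⟩ := hdb.split (by omega) i
  have himg : ∀ u ∈ T0, slice (π i) (ap (b (π i)) u) ≤ pspan g i j w v w' := by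
    intro u hu
    rw [← Split.map_slice hφ u]
    rintro _ ⟨z, hz, rfl⟩
    exact ap_mem_of_movInto hdR (Submodule.mem_sup_left (slice_le_planeS i hu hz))
  have hπ : π i = i := by
    by_contra hne'
    obtain ⟨p, -, hp⟩ := SetLike.exists_of_lt (show T0 < ⊤ from lt_top_iff_ne_top.2 fun htop => by
      rw [htop, finrank_top, Module.finrank_fin_fun] at hfin; omega)
    set c := ap (b (π i)) w
    set u₀ : Fin t → Fin k → F := Function.update (fun _ => c) i p with hu₀
    have h1 : pv u₀ ∈ slice (π i) c := by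
      rw [pv_eq_ten (π i), hu₀, Function.update_of_ne hne']
      exact ten_mem_slice _ _ _
    have h2' : pv u₀ = ten i p (pv fun _ : {l : Fin t // l ≠ i} => c) := by
      rw [pv_eq_ten i, hu₀, Function.update_self]
      congr 2
      funext l
      rw [Function.update_of_ne l.2]
    have hy : (pv fun _ : {l : Fin t // l ≠ i} => c) ≠ 0 := by
      obtain ⟨q, hq⟩ := Function.ne_iff.1 (ap_ne_zero (b (π i)) hL.plane.ne)
      exact Function.ne_iff.2 ⟨fun _ => q, by
        simp only [pv, Pi.zero_apply, Finset.prod_ne_zero_iff]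
        exact fun _ _ => hq⟩
    exact hp (hL.of_ten_mem hD h2 hM hf hy
      (h2' ▸ himg w (Submodule.subset_span (by simp)) h1))
  obtain ⟨a, η, hsplit⟩ : Split d i i := by
    have := split_of_wreath (show 1 ≤ k by omega) hdb i
    rwa [hπ] at this
  have hηne : ∀ {y}, y ≠ 0 → η y ≠ 0 := fun hy h0 => hy (η.map_eq_zero_iff.1 h0)
  have haT : ∀ u ∈ T0, ap a u ∈ T0 := fun u hu =>
    hL.of_ten_mem hD h2 hM hf (hηne (one_ne_zero_rest i)) (hsplit u _ ▸
      ap_mem_of_movInto hdR (Submodule.mem_sup_left (slice_le_planeS i hu (ten_mem_slice i u _))))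
  obtain ⟨lam, hlam⟩ : ∃ lam : F, ∀ u, ap a (ap a u) = lam • u := by
    have hsq : ∀ u y, ten i (ap a (ap a u)) (η (η y)) = ten i u y := fun u y => by
      rw [← hsplit, ← hsplit, ← ap_mul, hd2, ap_one]
    refine exists_scalar (B := ((apEquiv a).toLinearMap.comp (apEquiv a).toLinearMap)) fun u => ?_
    by_contra hn
    push Not at hn
    obtain ⟨φ', hφ', hφu⟩ := exists_dot_of_notMem (U := Submodule.span F {u})
      (x := ap a (ap a u)) fun hm => by
        obtain ⟨c, hc⟩ := Submodule.mem_span_singleton.1 hm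
        exact hn c hc.symm
    have := congrArg (TPow.con i φ') (hsq u fun _ => 1)
    rw [con_ten, con_ten, hφu, one_smul, hφ' u (Submodule.mem_span_singleton_self u),
      zero_smul] at this
    exact hηne (hηne (one_ne_zero_rest i)) this
  obtain ⟨μ, hμ⟩ : ∃ μ : F, μ ^ 2 = lam := by
    refine Finite.surjective_of_injective (fun x y (hxy : x ^ 2 = y ^ 2) => sub_eq_zero.1 ?_) lam
    refine pow_eq_zero_iff (n := 2) two_ne_zero |>.1 ?_
    linear_combination hxy + (y ^ 2 - x * y) * h2
  obtain ⟨v₀, hv₀, hv₀0, hav₀⟩ : ∃ v₀ ∈ T0, v₀ ≠ 0 ∧ ap a v₀ = μ • v₀ := by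
    by_cases hw : ap a w - μ • w = 0
    · exact ⟨w, Submodule.subset_span (by simp), hL.plane.ne, sub_eq_zero.1 hw⟩
    refine ⟨_, T0.sub_mem (haT w (Submodule.subset_span (by simp)))
      (T0.smul_mem μ (Submodule.subset_span (by simp))), hw, ?_⟩
    rw [ap_sub, ap_smul, hlam, ← hμ, smul_sub, smul_smul, pow_two]
    refine eq_of_sub_eq_zero ?_
    rw [show (μ * μ) • w - μ • ap a w - (μ • ap a w - (μ * μ) • w) =
      (2 : F) • ((μ * μ) • w - μ • ap a w) by rw [two_smul]; abel, h2, zero_smul]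
  have hμ0 : μ ≠ 0 := fun h0 => ap_ne_zero a hv₀0 (by rw [hav₀, h0, zero_smul])
  have hperp : ∀ u, D.f1 u v₀ = 0 → D.f1 (ap a u) v₀ = 0 := by
    intro u hu
    by_contra hne0
    refine one_ne_zero_rest (F := F) (k := k) i (eq_zero_of_bForm D.J D.det fun y₂ => ?_)
    have h1 := bForm_isom hD (hM.le hdM) (ten i u (η.symm fun _ => 1)) (ten i v₀ (η.symm y₂))
    rw [hsplit, hsplit, bForm_ten, bForm_ten, ← hD.f1_eq, ← hD.f1_eq, hu, zero_mul,
      η.apply_symm_apply, η.apply_symm_apply, hav₀, hD.smul_right, mul_eq_zero] at h1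
    exact h1.resolve_left (mul_ne_zero hμ0 hne0)
  obtain ⟨p, hpv, hp⟩ : ∃ p, D.f1 p v₀ = 0 ∧ p ∉ T0 := by
    by_contra hc
    push Not at hc
    let L : (Fin k → F) →ₗ[F] F :=
      { toFun := fun x => D.f1 x v₀
        map_add' := fun x y => D.f1_add_left x y v₀
        map_smul' := fun c x => D.f1_smul_left c x v₀ }
    have hle : LinearMap.ker L ≤ T0 := fun x hx => hc x hx
    have h1 := L.finrank_range_add_finrank_ker
    have h3 := Submodule.finrank_mono hle
    have h4 : Module.finrank F (LinearMap.range L) ≤ 1 := by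
      simpa using Submodule.finrank_le (LinearMap.range L)
    rw [Module.finrank_fin_fun] at h1
    omega
  obtain ⟨χ, hχ, hχp⟩ := exists_dot_of_notMem hp
  have hη : ∀ y, (χ ⬝ᵥ ap a p) • η y = y := by
    intro y
    have hmem : ap d (ten i p y) - ten i p y ∈ planeS i w v :=
      hL.mem_plane hD h2 hM hf hv₀ hv₀0 (hdR _) (by
        rw [map_sub, hsplit, cw_ten hD, cw_ten hD, hperp p hpv, hpv, zero_smul, zero_smul,
          sub_zero])
    have := con_eq_zero_of_plane i (hχ w (Submodule.subset_span (by simp)))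
      (hχ v (Submodule.subset_span (by simp))) hmem
    rwa [map_sub, hsplit, con_ten, con_ten, hχp, one_smul, sub_eq_zero] at this
  have hν0 : χ ⬝ᵥ ap a p ≠ 0 := fun h0 => by
    have := hη fun _ => 1
    rw [h0, zero_smul] at this
    exact one_ne_zero_rest i this.symm
  have hd' : ∀ u y, ap d (ten i u y) =
      ten i (((χ ⬝ᵥ ap a p)⁻¹ • (apEquiv a).toLinearMap) u) y := fun u y => by
    rw [hsplit]
    conv_rhs => rw [← hη y]
    rw [map_smul, LinearMap.smul_apply, ten_smul_left, smul_smul, mul_inv_cancel₀ hν0, one_smul]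
    rfl
  obtain ⟨a', rfl, ha'⟩ := exists_eq_slot i _ hd'
  refine ⟨a', rfl, fun u => hL.of_ten_mem hD h2 hM hf (one_ne_zero_rest i) ?_⟩
  rw [ten_sub_left, ← slot_ten]
  exact hdR _

/-- A factorwise involution in the span moves a slice of the plane or the plane. -/
lemma PlaneLeast.mov_cases [Finite F] (hD : IsAlt D) (h2 : (2 : F) = 0) (hM : OverOn D act M)
    (hk : 4 ≤ k) (hL : PlaneLeast D act M g i j w v w')
    (hf : g * zT hD j w' * g⁻¹ ∉ wreath (Fin t) k F) {d : GL (Fin t → Fin k) F}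
    (hdW : d ∈ wreath (Fin t) k F) (hdM : d ∈ M) (hdR : d ∈ movInto (pspan g i j w v w'))
    (hd2 : d * d = 1) (hd1 : d ≠ 1) :
    (∃ u, u ≠ 0 ∧ mov d = slice i u) ∨ mov d = planeS i w v := by
  obtain ⟨a, rfl, ha⟩ := hL.exists_slot hD h2 hM hk hf hdW hdM hdR hd2
  by_cases hone : ∃ u, ∀ p, ap a p - p ∈ Submodule.span F {u}
  · obtain ⟨u, hu⟩ := hone
    obtain ⟨p, hp⟩ : ∃ p, ap a p ≠ p := by
      by_contra hc
      push Not at hc
      refine hd1 ?_
      rw [show a = 1 from gl_ext fun p => by rw [hc, ap_one], map_one]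
    refine Or.inl ⟨ap a p - p, sub_ne_zero.2 hp, mov_slot_eq i (fun q => ?_) hp⟩
    obtain ⟨s, hs⟩ := Submodule.mem_span_singleton.1 (hu p)
    obtain ⟨r, hr⟩ := Submodule.mem_span_singleton.1 (hu q)
    have hs0 : s ≠ 0 := fun h0 => hp (sub_eq_zero.1 (by rw [← hs, h0, zero_smul]))
    exact Submodule.mem_span_singleton.2 ⟨r * s⁻¹, by
      rw [← hs, ← hr, smul_smul, mul_assoc, inv_mul_cancel₀ hs0, mul_one]⟩
  · push Not at hone
    exact Or.inr (mov_slot_plane hL.plane i ha hone)

/-- An element carrying a factorwise involution of the span to one acts factorwise. -/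
lemma PlaneLeast.mem_of_conj [Finite F] (hD : IsAlt D) (h2 : (2 : F) = 0) (hM : OverOn D act M)
    (hk : 4 ≤ k) (hS : SliceClosed act M) (hP : PlaneClosed D act M)
    (hL : PlaneLeast D act M g i j w v w') (hf : g * zT hD j w' * g⁻¹ ∉ wreath (Fin t) k F)
    {x d : GL (Fin t → Fin k) F} (hx : x ∈ M ⊓ movInto (pspan g i j w v w'))
    (hd : d ∈ M ⊓ movInto (pspan g i j w v w')) (hd2 : d * d = 1) (hd1 : d ≠ 1)
    (hdW : d ∈ wreath (Fin t) k F) (hxd : x * d * x⁻¹ ∈ wreath (Fin t) k F) :
    x ∈ wreath (Fin t) k F := by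
  have hne : Nonempty (Fin k) := ⟨⟨0, by omega⟩⟩
  have hc := hL.mov_cases hD h2 hM hk hf hxd
    (M.mul_mem (M.mul_mem hx.1 hd.1) (M.inv_mem hx.1))
    ((movInto _).mul_mem ((movInto _).mul_mem hx.2 hd.2) ((movInto _).inv_mem hx.2))
    (by rw [show x * d * x⁻¹ * (x * d * x⁻¹) = x * (d * d) * x⁻¹ by group, hd2]; group)
    (fun h1 => hd1 (by rwa [conj_eq_one_iff] at h1))
  rw [mov_conj] at hc
  rw [← standard_eq_wreath]
  rcases hL.mov_cases hD h2 hM hk hf hdW hd.1 hd.2 hd2 hd1 with ⟨u, hu, hdu⟩ | hdp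
  · rw [hdu] at hc
    rcases hc with ⟨u', hu', he⟩ | he
    · exact hS x hx.1 i hL.fst i hL.fst u' u hu' hu he
    · have := congrArg (fun R : Submodule F ((Fin t → Fin k) → F) => Module.finrank F R) he
      simp only [LinearEquiv.finrank_map_eq, finrank_slice i hu] at this
      have := sdim_lt_finrank_plane (T := Fin t) hL.plane i
      omega
  · rw [hdp] at hc
    rcases hc with ⟨u', hu', he⟩ | he
    · have := congrArg (fun R : Submodule F ((Fin t → Fin k) → F) => Module.finrank F R) he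
      simp only [LinearEquiv.finrank_map_eq, finrank_slice i hu'] at this
      have := sdim_lt_finrank_plane (T := Fin t) hL.plane i
      omega
    · refine hP x hx.1 i hL.fst w v hL.plane.wv
        ((LinearIndependent.pair_iff' hL.plane.ne).2 fun s hs => hL.plane.notMem ?_) he
      exact Submodule.mem_span_singleton.2 ⟨s, hs⟩

/-- An overgroup in which slices and plane slices are only moved factorwise lies in the wreath
product. -/
theorem le_wreath_of_closed [Finite F] (hD : IsAlt D) (h2 : (2 : F) = 0) (hk : 6 ≤ k)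
    (hM : OverOn D act M) (hS : SliceClosed act M) (hP : PlaneClosed D act M) :
    M ≤ Cfsg.Geo.tensorWreathStandard k t F := by
  classical
  have hne : Nonempty (Fin k) := ⟨⟨0, by omega⟩⟩
  have : NeZero k := ⟨by omega⟩
  rw [standard_eq_wreath]
  intro g₀ hg₀
  by_contra hg₀W
  obtain ⟨i₀, hi₀⟩ : act.Nonempty := by
    by_contra hact
    rw [Finset.not_nonempty_iff_eq_empty] at hact
    obtain ⟨c, hc⟩ := eq_scalar_of_slotFree fun l => hM.free g₀ hg₀ l (by simp [hact])
    refine hg₀W ?_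
    rw [show g₀ = 1 from eq_one_of_scalar hD h2 (hM.le hg₀) hc]
    exact (wreath (Fin t) k F).one_mem
  have : Nonempty (Fin t) := ⟨i₀⟩
  obtain ⟨w₀, hw₀⟩ : ∃ w₀ : Fin k → F, w₀ ≠ 0 :=
    ⟨Pi.single ⟨0, by omega⟩ 1, fun h => by simpa using congrFun h ⟨0, by omega⟩⟩
  obtain ⟨v₀, hv₀, hwv⟩ : ∃ v₀, v₀ ∉ Submodule.span F {w₀} ∧ D.f1 v₀ w₀ = 0 := by
    by_contra hc
    push Not at hc
    let L : (Fin k → F) →ₗ[F] F :=
      { toFun := fun x => D.f1 x w₀
        map_add' := fun x y => D.f1_add_left x y w₀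
        map_smul' := fun c x => D.f1_smul_left c x w₀ }
    have hle : LinearMap.ker L ≤ Submodule.span F {w₀} := fun x hx => by
      by_contra hx'
      exact hc x hx' hx
    have h1 := L.finrank_range_add_finrank_ker
    have h3 := Submodule.finrank_mono hle
    have h4 : Module.finrank F (LinearMap.range L) ≤ 1 := by
      simpa using Submodule.finrank_le (LinearMap.range L)
    rw [finrank_span_singleton hw₀] at h3
    rw [Module.finrank_fin_fun] at h1
    omega
  have hp₀ : IsPlane D.f1 w₀ v₀ := ⟨hw₀, hv₀, hD.alt _, hD.alt _,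
    by rw [hD.skew v₀ w₀, hwv, neg_zero], hwv⟩
  let P : ℕ → Prop := fun n => ∃ g ∈ M, g ∉ wreath (Fin t) k F ∧
    ∃ (i j : Fin t) (w v w' : Fin k → F), i ∈ act ∧ j ∈ act ∧ IsPlane D.f1 w v ∧ w' ≠ 0 ∧
      Module.finrank F ↥(pspan g i j w v w') = n
  have hex : ∃ n, P n := ⟨_, g₀, hg₀, hg₀W, i₀, i₀, w₀, v₀, w₀, hi₀, hi₀, hp₀, hw₀, rfl⟩
  obtain ⟨g, hg, hgW, i, j, w, v, w', hi, hj, hp, hw', hn⟩ := Nat.find_spec hex
  have hL : PlaneLeast D act M g i j w v w' := ⟨hi, hj, hg, hgW, hp, hw',
    fun g' hg' hg'W i' hi' j' hj' a b c hab hc => hn.trans_le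
      (Nat.find_min' hex ⟨g', hg', hg'W, i', j', a, b, c, hi', hj', hab, hc, rfl⟩)⟩
  set f := g * zT hD j w' * g⁻¹ with hfdef
  have hbot : mov (1 : GL (Fin t → Fin k) F) = ⊥ := le_bot_iff.1 (mov_le_iff.2 fun z => by simp)
  have hpos := TPow.sdim_pos (T := Fin t) (show 3 ≤ k by omega)
  have hfmov : mov f = (slice j w').map (apEquiv g).toLinearMap := by
    rw [hfdef, mov_conj, mov_zT hD j hw']
  have hf : f ∉ wreath (Fin t) k F := by
    intro hfW
    have hd : Module.finrank F (mov f) = sdim (Fin t) k := by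
      rw [hfmov, LinearEquiv.finrank_map_eq, finrank_slice j hw']
    have hf1 : f ≠ 1 := fun h1 => by
      rw [h1, hbot, finrank_bot] at hd
      omega
    obtain ⟨l, u, hu, he⟩ := exists_slice_of_mem_wreath (by omega) hfW hf1 hd.le
    have hl : l ∈ act := by
      by_contra hl
      exact mov_ne_slice_of_slotFree (show 2 ≤ k by omega)
        (hM.free f (M.mul_mem (M.mul_mem hg (zT_mem hD hM hj w')) (M.inv_mem hg)) l hl) hu he
    exact hgW (standard_eq_wreath (F := F) (m := k) (t := t) ▸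
      hS g hg l hl j hj u w' hu hw' (hfmov.symm.trans he))
  set J := M ⊓ movInto (pspan g i j w v w') with hJ
  have hfJ : f ∈ J := ⟨M.mul_mem (M.mul_mem hg (zT_mem hD hM hj _)) (M.inv_mem hg),
    mem_movInto.2 fun z => Submodule.mem_sup_right (hfmov ▸ sub_mem_mov f z)⟩
  have hzTJ : ∀ {u : Fin k → F}, u ∈ Submodule.span F {w, v} → zT hD i u ∈ J :=
    fun hu => ⟨zT_mem hD hM hi _, mem_movInto.2 fun z => by
      rw [ap_zT, add_sub_cancel_left]
      exact Submodule.mem_sup_left (slice_le_planeS i hu (ten_mem_slice _ _ _))⟩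
  have hwT : w ∈ Submodule.span F {w, v} := Submodule.subset_span (by simp)
  have hvT : v ∈ Submodule.span F {w, v} := Submodule.subset_span (by simp)
  set e := zT hD i w with he
  set u := zT hD i w * zT hD i v with hu
  have heW : e ∈ wreath (Fin t) k F := slot_mem_wreath _ _
  have huW : u ∈ wreath (Fin t) k F :=
    (wreath (Fin t) k F).mul_mem (slot_mem_wreath _ _) (slot_mem_wreath _ _)
  have hap : ∀ z, ap u z = z + ten i v (cw D i v z) + ten i w (cw D i w z) := fun z => by
    rw [hu, ap_mul, ap_zT, ap_zT, map_add, cw_ten hD, hp.vw, zero_smul, add_zero]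
  have hu2 : u * u = 1 := gl_ext fun z => by
    rw [ap_mul, hap, hap, ap_one]
    simp only [map_add, cw_ten hD, hp.vv, hp.wv, hp.vw, hp.ww, zero_smul, add_zero]
    rw [show z + ten i v (cw D i v z) + ten i w (cw D i w z) +
      ten i v (cw D i v z) + ten i w (cw D i w z) =
      z + (2 : F) • (ten i v (cw D i v z) + ten i w (cw D i w z)) by
        rw [two_smul]; abel, h2, zero_smul, add_zero]
  have hdual : ∀ {a b : Fin k → F}, a ∉ Submodule.span F {b} →
      ∃ x, D.f1 x a = 1 ∧ D.f1 x b = 0 := by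
    intro a b hab
    have hinj : Function.Injective fun x : Fin k → F => D.J *ᵥ x := fun x y hxy => by
      refine sub_eq_zero.1 (Matrix.eq_zero_of_mulVec_eq_zero D.det ?_)
      rw [Matrix.mulVec_sub]; exact sub_eq_zero.2 hxy
    obtain ⟨x, hx, hxa⟩ := exists_dot_of_notMem (U := Submodule.span F {D.J *ᵥ b})
      (x := D.J *ᵥ a) fun hm => by
        obtain ⟨c, hc⟩ := Submodule.mem_span_singleton.1 hm
        exact hab (Submodule.mem_span_singleton.2 ⟨c, hinj (by simp [Matrix.mulVec_smul, hc])⟩)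
    exact ⟨x, by rw [hD.f1_eq]; exact hxa,
      by rw [hD.f1_eq]; exact hx _ (Submodule.mem_span_singleton_self _)⟩
  have humov : mov u = planeS i w v := by
    refine le_antisymm (mov_le_iff.2 fun z => ?_) (sup_le ?_ ?_)
    · rw [hap, add_assoc, add_sub_cancel_left, add_comm]
      exact Submodule.add_mem_sup (ten_mem_slice _ _ _) (ten_mem_slice _ _ _)
    · rintro _ ⟨y, rfl⟩
      obtain ⟨x, hx, hxv⟩ := hdual hp.symm.notMem
      have := sub_mem_mov u (ten i x y)
      rwa [hap, add_assoc, add_sub_cancel_left, cw_ten hD, cw_ten hD, hxv, hx, zero_smul,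
        map_zero, zero_add, one_smul] at this
    · rintro _ ⟨y, rfl⟩
      obtain ⟨x, hx, hxw⟩ := hdual hp.notMem
      have := sub_mem_mov u (ten i x y)
      rwa [hap, add_assoc, add_sub_cancel_left, cw_ten hD, cw_ten hD, hxw, hx, zero_smul,
        map_zero, add_zero, one_smul] at this
  have hlt := sdim_lt_finrank_plane (T := Fin t) hp i
  have hu1 : u ≠ 1 := fun h1 => by
    rw [← humov, h1, hbot, finrank_bot] at hlt
    omega
  have he1 : e ≠ 1 := fun h1 => by
    have hm := mov_zT hD i hp.ne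
    rw [← he, h1, hbot] at hm
    have h3 := finrank_slice (F := F) i hp.ne
    rw [← hm, finrank_bot] at h3
    omega
  have he2 : e * e = 1 := zT_sq hD h2 i w
  have hb2 : f * u * f⁻¹ * (f * u * f⁻¹) = 1 := by
    rw [show f * u * f⁻¹ * (f * u * f⁻¹) = f * (u * u) * f⁻¹ by group, hu2]; group
  obtain ⟨z, hz, hz1, hz2, hze, hzb⟩ := exists_commuting_involution he2 hb2 fun c hc => by
    have hm : Module.finrank F (mov (c * e * c⁻¹)) = Module.finrank F (mov (f * u * f⁻¹)) := by
      rw [hc]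
    rw [mov_conj, mov_conj, LinearEquiv.finrank_map_eq, LinearEquiv.finrank_map_eq, humov, he,
      mov_zT hD i hp.ne, finrank_slice i hp.ne] at hm
    omega
  have huJ : u ∈ J := J.mul_mem (hzTJ hwT) (hzTJ hvT)
  have hzJ : z ∈ J := by
    refine Subgroup.closure_le J |>.2 ?_ hz
    rintro _ (rfl | rfl)
    · exact hzTJ hwT
    · exact J.mul_mem (J.mul_mem hfJ huJ) (J.inv_mem hfJ)
  have hk4 : 4 ≤ k := by omega
  have hzW : z ∈ wreath (Fin t) k F := hL.mem_of_conj hD h2 hM hk4 hS hP hf hzJ (hzTJ hwT)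
    he2 he1 heW (by rw [hze, mul_inv_cancel_right]; exact heW)
  set z' := f⁻¹ * z * f with hz'
  have hz'J : z' ∈ J := J.mul_mem (J.mul_mem (J.inv_mem hfJ) hzJ) hfJ
  have hz'u : z' * u = u * z' := by
    have := congrArg (fun x => f⁻¹ * x * f) hzb
    simp only [mul_assoc, inv_mul_cancel, mul_one, inv_mul_cancel_left] at this
    simpa [hz', mul_assoc] using this
  have hz'W : z' ∈ wreath (Fin t) k F := hL.mem_of_conj hD h2 hM hk4 hS hP hf hz'J huJ
    hu2 hu1 huW (by rw [hz'u, mul_inv_cancel_right]; exact huW)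
  refine hf (hL.mem_of_conj hD h2 hM hk4 hS hP hf hfJ hz'J ?_ ?_ hz'W ?_)
  · rw [show z' * z' = f⁻¹ * (z * z) * f by rw [hz']; group, hz2]; group
  · intro h1
    refine hz1 ?_
    rw [show z = f * z' * f⁻¹ by rw [hz']; group, h1]
    group
  · rw [show f * z' * f⁻¹ = z by rw [hz']; group]
    exact hzW

end CfsgLib.Geometric.TensorOrth
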