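import Cfsg.Agent.Lib.Geometric.TensorOrth.Commutant
import Cfsg.Agent.Lib.Geometric.TensorOrth.Dihedral
import Cfsg.Agent.Lib.Geometric.TensorForm.Compress

/-!
# Elements carrying a slice to a slice

In even characteristic an element of an overgroup without proper corners carrying one slice to a
slice carries the root operators of every active position to root operators of active positions,
and so acts factorwise.
-/

set_option autoImplicit false
set_option linter.unusedSectionVars false

namespace CfsgLib.Geometric.TensorOrth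

open scoped Matrix MatrixGroups
open Matrix CfsgLib.SmallDim Cfsg.Geo CfsgLib.Geometric.TensorForm
open CfsgLib.Geometric.TensorHerm (rk rk_mulVec rk_mul slotGL slotGL_val)
open Rad (cj cj_mul exists_outside exists_dual)

variable {k t : ℕ} {F : Type*} [Field F]

local notation "Mk" => Matrix (Fin k) (Fin k) F
local notation "Mt" => Matrix (Fin t → Fin k) (Fin t → Fin k) F

namespace Ctr

variable {D : Datum k F} {act : Finset (Fin t)} {M : Subgroup (GL (Fin t → Fin k) F)}

lemma slot_injective [NeZero k] {i : Fin t} {A B : Mk} (h : slot i A = slot i B) : A = B := by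
  by_contra hne
  exact one_ne_zero (α := Mt) (SlotFree.eq_zero (j := i) (fun C => by rw [mul_one, one_mul])
    (sub_ne_zero.2 hne) (by rw [mul_one, map_sub, h, sub_self]))

lemma rk_not_commute (hD : IsAlt D) (h2 : (2 : F) = 0) {a b : Fin k → F} (hab : D.f1 a b ≠ 0) :
    rk D a a * rk D b b ≠ rk D b b * rk D a a := by
  intro h
  have ha : a ≠ 0 := fun h0 => hab (by rw [h0, D.f1_zero_left])
  have h1 := congrArg (· *ᵥ a) h
  simp only [rk_mul, Matrix.smul_mulVec, rk_mulVec, hD.alt, f1_comm hD h2 b a, zero_smul,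
    smul_zero, smul_smul] at h1
  exact hab (mul_self_eq_zero.1 ((smul_eq_zero.1 h1).resolve_right ha))

lemma exists_both_ne (hD : IsAlt D) (h2 : (2 : F) = 0) {a b : Fin k → F} (ha : a ≠ 0)
    (hb : b ≠ 0) : ∃ z, D.f1 a z ≠ 0 ∧ D.f1 b z ≠ 0 := by
  obtain ⟨z₁, h₁⟩ := exists_one hD ha
  obtain ⟨z₂, h₂⟩ := exists_one hD hb
  by_cases e₁ : D.f1 b z₁ = 0
  · by_cases e₂ : D.f1 a z₂ = 0
    · exact ⟨z₁ + z₂, by rw [D.f1_add_right, h₁, e₂, add_zero]; exact one_ne_zero,
        by rw [D.f1_add_right, h₂, e₁, zero_add]; exact one_ne_zero⟩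
    · exact ⟨z₂, e₂, by rw [h₂]; exact one_ne_zero⟩
  · exact ⟨z₁, by rw [h₁]; exact one_ne_zero, e₁⟩

/-- A slice carried to a slice passes this on to the commuting root operators. -/
lemma exists_slice_step [Finite F] (hD : IsAlt D) (h2 : (2 : F) = 0) (hk : 6 ≤ k)
    (hM : OverOn D act M) (hN : NoCorner D M)
    (IH : ∀ l ∈ act, ∀ g ∈ M, SlotFree l (g : Mt) → g ∈ tensorWreathStandard k t F)
    {g : GL (Fin t → Fin k) F} (hg : g ∈ M) {i j l : Fin t} (hi : i ∈ act) (hj : j ∈ act)
    (hl : l ∈ act) {u v x : Fin k → F} (hu : u ≠ 0) (hv : v ≠ 0) (hx : x ≠ 0)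
    (h : (TPow.slice j v).map (apEquiv g).toLinearMap = TPow.slice i u)
    (hcomm : l ≠ j ∨ D.f1 x v = 0) :
    ∃ m ∈ act, ∃ y : Fin k → F, y ≠ 0 ∧
      (TPow.slice l x).map (apEquiv g).toLinearMap = TPow.slice m y := by
  have : Nonempty (Fin t) := ⟨i⟩
  obtain ⟨γ, hγ0, hγ⟩ := exists_smul_of_slices hD hM hN hg hj hu hv h
  set T := Symp.T hD.symp x 1 with hT
  have hTm : T ∈ CfsgLib.Geometric.isom D.f1 := Symp.T_mem_isom hD.symp x 1
  set r := slotGL (t := t) l T with hr
  have hrM : r ∈ M := hM.slot_mem l hl T hTm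
  set R := g * r * g⁻¹ with hR
  have hRM : R ∈ M := mul_mem (mul_mem hg hrM) (inv_mem hg)
  have hrN : (r : Mt) * slot j (rk D v v) = slot j (rk D v v) * (r : Mt) := by
    rw [hr, slotGL_val, hD.T_val, one_smul, map_add, map_one, add_mul, mul_add, one_mul, mul_one]
    congr 1
    rcases eq_or_ne l j with rfl | hlj
    · have h0 : D.f1 x v = 0 := hcomm.resolve_left fun e => e rfl
      rw [← map_mul, ← map_mul, rk_mul, rk_mul, h0, f1_comm hD h2 v x, h0, zero_smul, zero_smul]
    · exact slot_commute hlj _ _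
  have hc : (R : Mt) * slot i (rk D u u) = slot i (rk D u u) * (R : Mt) := by
    have e : slot i (rk D u u) = cj g (slot j (γ⁻¹ • rk D v v)) := by
      rw [Rad.cj, hγ, inv_mul_cancel₀ hγ0, one_smul]
    have eR : (R : Mt) = cj g (r : Mt) := by rw [hR, Units.val_mul, Units.val_mul]; rfl
    rw [e, eR, ← cj_mul, ← cj_mul, map_smul, Matrix.mul_smul, Matrix.smul_mul, hrN]
  have hW := mem_wreath_of_commute hD h2 hk hM hN hi hu IH hRM hc
  rw [TPow.standard_eq_wreath] at hW
  have hmovr : TPow.mov r = TPow.slice l x := by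
    rw [hr, slotGL_eq]
    exact mov_zT hD l hx
  have hmov : TPow.mov R = (TPow.slice l x).map (apEquiv g).toLinearMap := by
    rw [hR, TPow.mov_conj, hmovr]
  have hd : Module.finrank F (TPow.mov R) = TPow.sdim (Fin t) k := by
    rw [hmov, LinearEquiv.finrank_map_eq, TPow.finrank_slice l hx]
  have hR1 : R ≠ 1 := fun h1 => by
    have hbot : TPow.mov (1 : GL (Fin t → Fin k) F) = ⊥ :=
      le_bot_iff.1 (TPow.mov_le_iff.2 fun z => by simp)
    have hpos := TPow.sdim_pos (T := Fin t) (show 3 ≤ k by omega)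
    rw [h1, hbot, finrank_bot] at hd
    omega
  obtain ⟨m, y, hy, he⟩ :=
    CfsgLib.Geometric.TPowU.exists_slice_of_mem_wreath (show 4 ≤ k by omega) hW hR1 hd.le
  refine ⟨m, ?_, y, hy, hmov.symm.trans he⟩
  by_contra hm
  exact mov_ne_slice_of_slotFree (show 2 ≤ k by omega) (hM.free R hRM m hm) hy he

end Ctr

open Ctr in
/-- Without proper corners, an element carrying a slice to a slice acts factorwise, provided the
elements free at an active position do. -/
theorem sliceClosed [Finite F] {D : Datum k F} (hD : IsAlt D) (h2 : (2 : F) = 0) (hk : 6 ≤ k)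
    {act : Finset (Fin t)} {M : Subgroup (GL (Fin t → Fin k) F)} (hM : OverOn D act M)
    (hN : NoCorner D M)
    (IH : ∀ i ∈ act, ∀ g ∈ M, SlotFree i (g : Mt) → g ∈ tensorWreathStandard k t F) :
    SliceClosed act M := by
  classical
  intro g hg i hi j hj u v hu hv h
  have : NeZero k := ⟨by omega⟩
  -- every active slice goes to an active slice
  have hall : ∀ l ∈ act, ∀ x : Fin k → F, x ≠ 0 → ∃ m ∈ act, ∃ y : Fin k → F, y ≠ 0 ∧
      (TPow.slice l x).map (apEquiv g).toLinearMap = TPow.slice m y := by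
    intro l hl x hx
    by_cases hlj : l = j
    · subst hlj
      obtain ⟨v', hv'v, hv'x, hv'⟩ := exists_outside hD hk v x
      have hv'0 : v' ≠ 0 := fun h0 => hv' (h0 ▸ zero_mem _)
      obtain ⟨m, hm, y, hy, he⟩ :=
        exists_slice_step hD h2 hk hM hN IH hg hi hl hl hu hv hv'0 h (Or.inr hv'v)
      exact exists_slice_step hD h2 hk hM hN IH hg hm hl hl hy hv'0 hx he
        (Or.inr (by rw [f1_comm hD h2, hv'x]))
    · exact exists_slice_step hD h2 hk hM hN IH hg hi hj hl hu hv hx h (Or.inl hlj)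
  have hroot : ∀ l ∈ act, ∀ x : Fin k → F, x ≠ 0 → ∃ m ∈ act, ∃ y : Fin k → F, ∃ γ : F,
      y ≠ 0 ∧ γ ≠ 0 ∧ cj g (slot l (rk D x x)) = slot m (γ • rk D y y) := by
    intro l hl x hx
    obtain ⟨m, hm, y, hy, he⟩ := hall l hl x hx
    obtain ⟨γ, hγ0, hγ⟩ := exists_smul_of_slices hD hM hN hg hl hy hx he
    have e := hγ 1
    rw [one_smul, one_mul] at e
    exact ⟨m, hm, y, γ, hy, hγ0, e⟩
  choose! pos hpos img gam himg hgam hcjr using hroot
  -- the image position is constant in each position
  have hne : ∀ l ∈ act, ∀ a b : Fin k → F, a ≠ 0 → b ≠ 0 → D.f1 a b ≠ 0 →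
      pos l a = pos l b := by
    intro l hl a b ha hb hab
    by_contra hne
    have hslot := slot_commute hne (gam l a • rk D (img l a) (img l a))
      (gam l b • rk D (img l b) (img l b))
    rw [← hcjr l hl a ha, ← hcjr l hl b hb, ← cj_mul, ← cj_mul, Rad.cj, Rad.cj, Units.mul_left_inj,
      Units.mul_right_inj, ← map_mul, ← map_mul] at hslot
    exact rk_not_commute hD h2 hab (slot_injective hslot)
  obtain ⟨e₀, he₀⟩ : ∃ e₀ : Fin k → F, e₀ ≠ 0 := ⟨v, hv⟩
  have hconst : ∀ l ∈ act, ∀ a : Fin k → F, a ≠ 0 → pos l a = pos l e₀ := by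
    intro l hl a ha
    obtain ⟨z, hz₁, hz₂⟩ := exists_both_ne hD h2 ha he₀
    have hz : z ≠ 0 := fun h0 => hz₁ (by rw [h0, TensorHerm.f1_zero_right])
    rw [hne l hl a z ha hz hz₁, hne l hl e₀ z he₀ hz hz₂]
  let π : Fin t → Fin t := fun l => if l ∈ act then pos l e₀ else l
  have himage : ∀ l A, ∃ A', cj g (slot l A) = slot (π l) A' := by
    intro l A
    by_cases hl : l ∈ act
    · let S : Submodule F Mk :=
        { carrier := {A | ∃ A', cj g (slot l A) = slot (π l) A'}
          add_mem' := fun {A B} ⟨A', hA⟩ ⟨B', hB⟩ =>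
            ⟨A' + B', by rw [map_add, Rad.cj_add, hA, hB, map_add]⟩
          zero_mem' := ⟨0, by simp [Rad.cj]⟩
          smul_mem' := fun c A ⟨A', hA⟩ =>
            ⟨c • A', by rw [map_smul, Rad.cj_smul, hA, map_smul]⟩ }
      refine mem_of_diag hD S ?_ (fun x => ?_) A
      · rintro A ⟨A', hA⟩ B ⟨B', hB⟩
        exact ⟨A' * B', by rw [map_mul, cj_mul, hA, hB, map_mul]⟩
      · by_cases hx : x = 0
        · exact hx ▸ (by rw [TensorHerm.rk_zero_left]; exact S.zero_mem)
        refine ⟨gam l x • rk D (img l x) (img l x), ?_⟩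
        rw [hcjr l hl x hx, hconst l hl x hx]
        simp [π, hl]
    · exact ⟨A, by simp only [π, if_neg hl]; rw [Rad.cj, ← hM.free g hg l hl A, mul_assoc,
        Units.mul_inv, mul_one]⟩
  have hπ : Function.Injective π := by
    intro a b hab
    by_contra hne
    have hsub : ∀ A : Mk, ∃ B : Mk, slot b A = slot a B := by
      let Λ : Fin t → (Mk →ₗ[F] Mt) := fun l =>
        { toFun := fun A => cj g (slot l A)
          map_add' := fun A B => by rw [map_add, Rad.cj_add]
          map_smul' := fun c A => by rw [map_smul, Rad.cj_smul]; rfl }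
      have hinj : ∀ {l A B}, cj g (slot (F := F) (k := k) l A) = cj g (slot l B) → A = B :=
        fun h => by
          rw [Rad.cj, Rad.cj, Units.mul_left_inj, Units.mul_right_inj] at h
          exact slot_injective h
      have hle : ∀ l, LinearMap.range (Λ l) ≤ LinearMap.range (slot (F := F) (k := k) (π l)).toLinearMap := by
        rintro l _ ⟨A, rfl⟩
        obtain ⟨A', hA'⟩ := himage l A
        exact ⟨A', hA'.symm⟩
      have heq : LinearMap.range (Λ a) = LinearMap.range (slot (F := F) (k := k) (π a)).toLinearMap := by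
        refine Submodule.eq_of_le_of_finrank_eq (hle a) ?_
        rw [LinearMap.finrank_range_of_inj (fun A B h => hinj h),
          LinearMap.finrank_range_of_inj (fun A B h => slot_injective h)]
      intro A
      have h3 := hle b (LinearMap.mem_range_self (Λ b) A)
      rw [← hab, ← heq] at h3
      obtain ⟨B, hB⟩ := h3
      refine ⟨B, ?_⟩
      have h4 : cj g (slot b A) = cj g (slot a B) := hB.symm
      rwa [Rad.cj, Rad.cj, Units.mul_left_inj, Units.mul_right_inj] at h4
    have hcomm : ∀ A C : Mk, A * C = C * A := fun A C => by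
      obtain ⟨B, hB⟩ := hsub A
      refine slot_injective (i := b) ?_
      rw [map_mul, map_mul, hB, slot_commute hne]
    let p : Fin k := ⟨0, by omega⟩
    let q : Fin k := ⟨1, by omega⟩
    have := congrFun (congrFun (hcomm (Matrix.single p q 1) (Matrix.single q p 1)) p) p
    simp [p, q, Matrix.single_apply] at this
  refine mem_of_maps_slots (π := Equiv.ofBijective π hπ.bijective_of_finite)
    (Fin.pos i) fun l A => ?_
  exact himage l A

end CfsgLib.Geometric.TensorOrth
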