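import Cfsg.Agent.Lib.Geometric.TensorOrth.Basic
import Cfsg.Agent.Lib.Geometric.TensorPower.Wreath

/-!
# Elements fixing slices

Two closure properties of an overgroup: elements carrying a slice to a slice, and elements fixing the
product of a totally isotropic plane with the other factors, act factorwise.
-/

set_option autoImplicit false

namespace CfsgLib.Geometric.TensorOrth

open CfsgLib.Geometric.TensorForm

variable {k t : ℕ} {F : Type*} [Field F]

/-- A group of isometries, trivial on the positions outside `act`, holding the factorwise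
isometries at the positions in `act`. -/
structure OverOn (D : Datum k F) (act : Finset (Fin t)) (M : Subgroup (GL (Fin t → Fin k) F)) :
    Prop where
  le : M ≤ D.isom t
  slot_mem : ∀ l ∈ act, ∀ a ∈ CfsgLib.Geometric.isom D.f1, TensorHerm.slotGL l a ∈ M
  free : ∀ g ∈ M, ∀ l ∉ act, SlotFree l (g : Matrix (Fin t → Fin k) (Fin t → Fin k) F)

/-- Elements of `M` carrying a slice to a slice act factorwise. -/
def SliceClosed (act : Finset (Fin t)) (M : Subgroup (GL (Fin t → Fin k) F)) : Prop :=
  ∀ g ∈ M, ∀ i ∈ act, ∀ j ∈ act, ∀ (u v : Fin k → F), u ≠ 0 → v ≠ 0 →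
    (TPow.slice j v).map (apEquiv g).toLinearMap = TPow.slice i u →
      g ∈ Cfsg.Geo.tensorWreathStandard k t F

/-- Elements of `M` fixing a totally isotropic plane slice act factorwise. -/
def PlaneClosed (D : Datum k F) (act : Finset (Fin t)) (M : Subgroup (GL (Fin t → Fin k) F)) : Prop :=
  ∀ g ∈ M, ∀ i ∈ act, ∀ (x z : Fin k → F), D.f1 x z = 0 → LinearIndependent F ![x, z] →
    (TPow.slice i x ⊔ TPow.slice i z).map (apEquiv g).toLinearMap =
      TPow.slice i x ⊔ TPow.slice i z →
      g ∈ Cfsg.Geo.tensorWreathStandard k t F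

end CfsgLib.Geometric.TensorOrth
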