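import Cfsg.Agent.Lib.Geometric.TensorOrth.Radical
import Cfsg.Agent.Lib.Geometric.TensorPower.Wreath

/-!
# The commutant of a root operator of one factor

In even characteristic, an element of an overgroup without proper corners commuting with a root
operator of an active position acts factorwise, given that this holds for the elements which are
free at some active position.
-/

set_option autoImplicit false
set_option linter.unusedSectionVars false

namespace CfsgLib.Geometric.TensorOrth

open scoped Matrix MatrixGroups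
open Matrix CfsgLib.SmallDim Cfsg.Geo CfsgLib.Geometric.TensorForm
open CfsgLib.Geometric.TensorHerm (rk rk_mulVec rk_mul slotGL slotGL_val beta beta_free beta_add
  beta_sub beta_smul beta_add_left beta_add_right beta_smul_left beta_mul_slot beta_slot_mul
  beta_slot_mul' beta_mul_free beta_free_mul beta_one beta_rk_mul_free beta_conj beta_zero
  beta_of_free ext_beta exists_pairing slotGL_mem_wreath)
open Rad (cj cj_add cj_mul cj_free cj_slot corner_mul exists_dual exists_outside exists_al
  corner_scalar al_eq_add pair_of_notMem good_cj)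

variable {k t : ℕ} {F : Type*} [Field F]

local notation "Mk" => Matrix (Fin k) (Fin k) F
local notation "Mt" => Matrix (Fin t → Fin k) (Fin t → Fin k) F

namespace Ctr

variable {D : Datum k F} {act : Finset (Fin t)} {M : Subgroup (GL (Fin t → Fin k) F)}
  {i : Fin t} {u w : Fin k → F}

/-- The partial form as a linear map in the first argument, followed by a right factor. -/
def betaL (D : Datum k F) (i : Fin t) (X : Matrix (Fin t → Fin k) (Fin t → Fin k) F)
    (b : Fin k → F) (K : Matrix (Fin t → Fin k) (Fin t → Fin k) F) :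
    (Fin k → F) →ₗ[F] Matrix (Fin t → Fin k) (Fin t → Fin k) F where
  toFun a := beta D i X a b * K
  map_add' a a' := by rw [beta_add_left, add_mul]
  map_smul' c a := by rw [beta_smul_left, Matrix.smul_mul]; rfl

/-- The operator by which an element commuting with the root operator at `u` acts on the others. -/
def core (D : Datum k F) (i : Fin t) (u w : Fin k → F) (R : GL (Fin t → Fin k) F) :
    Matrix (Fin t → Fin k) (Fin t → Fin k) F :=
  beta D i (R : Mt) u w

variable (hD : IsAlt D) (h2 : (2 : F) = 0)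
include hD h2

/-- A scalar valued linear map on the perpendicular of `u` is a pairing. -/
lemma exists_rep [NeZero k] (hwu : D.f1 w u = 1) (G : (Fin k → F) →ₗ[F] Mt)
    (hG : ∀ p, D.f1 p u = 0 → ∃ c : F, G p = c • 1) :
    ∃ b, D.f1 w b = 0 ∧ ∀ p, D.f1 p u = 0 → G p = D.f1 p b • (1 : Mt) := by
  let a₀ : Fin t → Fin k := fun _ => 0
  let π : (Fin k → F) →ₗ[F] (Fin k → F) :=
    { toFun := fun z => z + D.f1 z u • w
      map_add' := fun a b => by rw [D.f1_add_left, add_smul]; abel
      map_smul' := fun c a => by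
        rw [D.f1_smul_left, RingHom.id_apply, smul_add, smul_smul] }
  let ψ : (Fin k → F) →ₗ[F] F :=
    { toFun := fun z => G (π z) a₀ a₀
      map_add' := fun a b => by rw [map_add, map_add]; rfl
      map_smul' := fun c a => by rw [map_smul, map_smul]; rfl }
  obtain ⟨b, hb⟩ := exists_pairing (D := D) (fun r => ψ (Pi.single r 1))
  have hf : ∀ z, D.f1 z b = ψ z := fun z => by
    show z ⬝ᵥ (D.J *ᵥ (D.σ ∘ b)) = _
    rw [hb]
    conv_rhs => rw [vec_expand z, map_sum]
    exact Finset.sum_congr rfl fun r _ => by rw [map_smul, smul_eq_mul]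
  refine ⟨b, ?_, fun p hp => ?_⟩
  · rw [hf]
    show G (w + D.f1 w u • w) a₀ a₀ = 0
    rw [hwu, one_smul, Rad.add_self_eq_zero h2, map_zero, Matrix.zero_apply]
  · obtain ⟨c, hc⟩ := hG p hp
    rw [hf, hc]
    show c • (1 : Mt) = G (p + D.f1 p u • w) a₀ a₀ • (1 : Mt)
    rw [hp, zero_smul, add_zero, hc, Matrix.smul_apply, Matrix.one_apply_eq, smul_eq_mul, mul_one]

variable (hwu : D.f1 w u = 1)
include hwu

lemma ne_zero_of_pair : u ≠ 0 := fun h => zero_ne_one (α := F) (by
  rw [← hwu, h, f1_comm hD h2, D.f1_zero_left])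

lemma f1_uw : D.f1 u w = 1 := by rw [f1_comm hD h2, hwu]

variable {R : GL (Fin t → Fin k) F}
variable (hc : Units.val R * slot i (rk D u u) = slot i (rk D u u) * Units.val R)

omit hwu in
lemma commute_inv (hc : (R : Mt) * slot i (rk D u u) = slot i (rk D u u) * (R : Mt)) :
    ((R⁻¹ : GL (Fin t → Fin k) F) : Mt) * slot i (rk D u u) =
      slot i (rk D u u) * ((R⁻¹ : GL (Fin t → Fin k) F) : Mt) := by
  have hR : Commute (R : Mt) (slot i (rk D u u)) := hc
  exact hR.units_inv_left.eq

include hc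

lemma beta_u_left (b : Fin k → F) :
    beta D i (R : Mt) u b = D.f1 u b • core D i u w R := by
  have key : ∀ a b, D.f1 a u • beta D i (R : Mt) u b = D.f1 u b • beta D i (R : Mt) a u :=
    fun a b => by rw [← beta_mul_slot, hc, beta_slot_mul]
  have h1 := key w w
  rw [hwu, f1_uw hD h2 hwu, one_smul, one_smul] at h1
  have h3 := key w b
  rw [hwu, one_smul, ← h1] at h3
  exact h3

lemma beta_u_right (a : Fin k → F) :
    beta D i (R : Mt) a u = D.f1 a u • core D i u w R := by
  have h1 : D.f1 a u • beta D i (R : Mt) u w = D.f1 u w • beta D i (R : Mt) a u := by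
    rw [← beta_mul_slot, hc, beta_slot_mul]
  rw [f1_uw hD h2 hwu, one_smul] at h1
  exact h1.symm

lemma mul_slot_u (s : Fin k → F) :
    (R : Mt) * slot i (rk D u s) = slot i (rk D u s) * core D i u w R :=
  mul_slot_rk_eq hD h2 (beta_free _ _ _) (beta_u_left hD h2 hwu hc) s

lemma core_inv_mul : core D i u w R⁻¹ * core D i u w R = 1 := by
  have hu := ne_zero_of_pair hD h2 hwu
  refine free_cancel (hD.rk_ne_zero hu hu) ((beta_free _ _ _).mul (beta_free _ _ _))
    (fun A => by rw [mul_one, one_mul]) ?_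
  rw [mul_one, ← mul_assoc, ← mul_slot_u hD h2 hwu (commute_inv hD h2 hc), mul_assoc,
    ← mul_slot_u hD h2 hwu hc, ← mul_assoc, Units.inv_mul, one_mul]

lemma core_mul_inv : core D i u w R * core D i u w R⁻¹ = 1 := by
  have h := core_inv_mul hD h2 hwu (commute_inv hD h2 hc)
  rwa [inv_inv] at h

lemma adj_core (hR : R ∈ D.isom t) : adj D (core D i u w R) = core D i u w R⁻¹ := by
  rw [core, ← beta_adj hD h2, adj_isom hD h2 hR,
    beta_u_right hD h2 hwu (commute_inv hD h2 hc), hwu, one_smul]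

/-- The image of a rank one operator on the perpendicular of `u`. -/
lemma mul_slot_perp {X : Mt} {p y : Fin k → F} {A : Mt} (hA : SlotFree i A)
    (h : ∀ q, D.f1 q u = 0 → beta D i X p q = D.f1 y q • A) (s : Fin k → F) :
    X * slot i (rk D p s) = slot i (rk D y s) * A +
      slot i (rk D u s) * (beta D i X p w + D.f1 y w • A) := by
  refine mul_slot_rk_eq₂ hD h2 hA
    (fun B => by rw [mul_add, add_mul, beta_free X p w B, hA.smul (D.f1 y w) B]) (fun b => ?_) s
  obtain ⟨b', r, hb', rfl⟩ : ∃ b' : Fin k → F, ∃ r : F, D.f1 b' u = 0 ∧ b = b' + r • w :=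
    ⟨_, _, f1_split hD h2 hwu b, split_eq hD h2 b⟩
  rw [beta_add_right, beta_smul_r hD h2, h b' hb', D.f1_add_right, D.f1_add_right, hD.smul_right,
    hD.smul_right, f1_comm hD h2 u b', hb', f1_uw hD h2 hwu, zero_add, mul_one, add_smul, smul_add,
    smul_smul, add_assoc]
  congr 1
  rw [add_comm (r • beta D i X p w), ← add_assoc, Rad.add_self_eq_zero h2, zero_add]

variable (hk : 6 ≤ k) (hM : OverOn D act M) (hN : NoCorner D M) (hi : i ∈ act) (hR : R ∈ M)
include hk hM hN hi hR

/-- An element commuting with the root operator maps the perpendicular of `u` modulo `u` up to a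
factor of the other positions. -/
lemma exists_image {y : Fin k → F} (hy : D.f1 y u = 0) :
    ∃ b, D.f1 b u = 0 ∧ D.f1 b w = 0 ∧
      ∀ p, D.f1 p u = 0 → beta D i (R : Mt) p b = D.f1 p y • core D i u w R := by
  have : NeZero k := ⟨by omega⟩
  have hu := ne_zero_of_pair hD h2 hwu
  have huw := f1_uw hD h2 hwu
  have huy : D.f1 u y = 0 := by rw [f1_comm hD h2, hy]
  set R' : Mt := ((R⁻¹ : GL (Fin t → Fin k) F) : Mt) with hR'
  have hc' : R' * slot i (rk D u u) = slot i (rk D u u) * R' := commute_inv hD h2 hc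
  set Q : Mt := slot i (rk D u y) + slot i (rk D y u) with hQ
  obtain ⟨a, ha, hav, -⟩ := exists_al hD h2 huy
  have hav' : (slotGL i a : Mt) = 1 + Q := by
    rw [slotGL_val, hav, map_add, map_one, al_eq_add h2, map_add]
  set h := R * slotGL i a * R⁻¹ with hh
  have hhM : h ∈ M := mul_mem (mul_mem hR (hM.slot_mem i hi a ha)) (inv_mem hR)
  set X := (R : Mt) * Q * R' with hX
  have hhX : (h : Mt) - 1 = X := by
    rw [hh, Units.val_mul, Units.val_mul, hav', hX, mul_add, add_mul, mul_one, Units.mul_inv,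
      add_sub_cancel_left]
  have hQN : Q * slot i (rk D u u) = 0 := by
    rw [hQ, add_mul, ← map_mul, ← map_mul, rk_mul, rk_mul, huy, hD.alt, zero_smul, zero_smul,
      map_zero, add_zero]
  have hadjX : adj D X = X := by
    rw [hX, adj_mul, adj_mul, hR', adj_isom hD h2 (inv_mem (hM.le hR)), inv_inv,
      adj_isom hD h2 (hM.le hR), hQ, adj_add, adj_slot_rk hD h2, adj_slot_rk hD h2,
      add_comm (slot i (rk D y u)), ← mul_assoc]
  have hleft : ∀ b, beta D i X u b = 0 := fun b => beta_eq_zero_of_mul hD h2 (s := u) hu (by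
    rw [hX, mul_assoc _ R', hc', ← mul_assoc, mul_assoc (R : Mt) Q, hQN, mul_zero, zero_mul]) b
  have hmid : ∀ p q, D.f1 p u = 0 → D.f1 q u = 0 → beta D i X p q = 0 := by
    intro p q hp hq
    refine SlotFree.eq_zero (beta_free X p q) (hD.rk_ne_zero hu hu) ?_
    rw [← sandwich_beta]
    set Y := R' * slot i (rk D p u) with hY
    set Y' := slot i (rk D u q) * (R : Mt) with hY'
    have hNY : slot i (rk D u u) * Y = 0 := by
      rw [hY, ← mul_assoc, ← hc', mul_assoc, ← map_mul, rk_mul, hp, zero_smul, map_zero, mul_zero]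
    have hYN : Y' * slot i (rk D u u) = 0 := by
      rw [hY', mul_assoc, hc, ← mul_assoc, ← map_mul, rk_mul, f1_comm hD h2 u q, hq, zero_smul,
        map_zero, zero_mul]
    have e1 : slot i (rk D y u) * Y = 0 := by
      have : rk D y u = rk D y w * rk D u u := by rw [rk_mul, huw, one_smul]
      rw [this, map_mul, mul_assoc, hNY, mul_zero]
    have e2 : Y' * slot i (rk D u y) = 0 := by
      have : rk D u y = rk D u u * rk D w y := by rw [rk_mul, hwu, one_smul]
      rw [this, map_mul, ← mul_assoc, hYN, zero_mul]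
    calc slot i (rk D u q) * X * slot i (rk D p u) = Y' * Q * Y := by
          simp only [hX, hY, hY', mul_assoc]
      _ = 0 := by rw [hQ, mul_add, add_mul, e2, zero_mul, mul_assoc, e1, mul_zero, add_zero]
  have hrad : IsRad D i u ((h : Mt) - 1) := by
    rw [hhX]
    refine ⟨hleft, fun a => ?_, hmid⟩
    rw [← hadjX, beta_adj hD h2, hleft, adj_zero]
  obtain ⟨b, hwb, hb⟩ := exists_rep hD h2 hwu (betaL D i X w 1) fun p hp => by
    obtain ⟨c, hc0⟩ := radical_scalar hD h2 hk hM hN hi hwu hhM hrad hp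
    exact ⟨c, by show beta D i X p w * 1 = _; rw [mul_one, ← hhX, hc0]⟩
  have hb' : ∀ p, D.f1 p u = 0 → beta D i X p w = D.f1 p b • (1 : Mt) := fun p hp => by
    rw [← hb p hp]; exact (mul_one _).symm
  have hbu : D.f1 b u = 0 := by
    have h0 := hb' u (hD.alt u)
    rw [hleft, eq_comm, smul_eq_zero] at h0
    rw [f1_comm hD h2]
    exact h0.resolve_right one_ne_zero
  have hbw : D.f1 b w = 0 := by rw [f1_comm hD h2, hwb]
  refine ⟨b, hbu, hbw, fun p hp => ?_⟩
  set Z := beta D i X w w with hZ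
  have hup : slot i (rk D u w) * X = slot i (rk D u b) * 1 + slot i (rk D u u) * Z := by
    refine ext_beta (D := D) (i := i) fun a c => ?_
    rw [beta_slot_mul, beta_add, beta_rk_mul_free (fun A => by rw [mul_one, one_mul]),
      beta_rk_mul_free (beta_free _ _ _)]
    obtain ⟨a', r, ha', rfl⟩ : ∃ a' : Fin k → F, ∃ r : F, D.f1 a' u = 0 ∧ a = a' + r • w :=
      ⟨_, _, f1_split hD h2 hwu a, split_eq hD h2 a⟩
    simp only [beta_add_left, beta_smul_left, hb' a' ha', ← hZ, D.f1_add_left, D.f1_smul_left,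
      hwb, ha', hwu, mul_zero, add_zero, zero_add, mul_one, smul_add, smul_smul]
  have hXR : X * (R : Mt) = (R : Mt) * Q := by rw [hX, mul_assoc, hR', Units.inv_mul, mul_one]
  have e := congrArg (fun Y => beta D i (slot i (rk D u w) * Y) p w) hXR
  simp only [← mul_assoc] at e
  rw [hup, add_mul, mul_one, beta_add, beta_slot_mul, mul_assoc (slot i (rk D u u)), beta_slot_mul,
    beta_free_mul (beta_free X w w), beta_u_right hD h2 hwu hc, hp, zero_smul, mul_zero, smul_zero,
    add_zero, hQ, mul_add, beta_add, beta_mul_slot, beta_mul_slot, hp, zero_smul, add_zero,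
    beta_slot_mul, huw, one_smul, one_smul] at e
  rw [e]
  rfl

omit hR hc in
lemma eq_zero_of_perp_image {R : GL (Fin t → Fin k) F}
    (hc : (R : Mt) * slot i (rk D u u) = slot i (rk D u u) * (R : Mt)) (hR : R ∈ M)
    {b : Fin k → F} (hbu : D.f1 b u = 0) (hbw : D.f1 b w = 0)
    (h : ∀ p, D.f1 p u = 0 → beta D i (R : Mt) p b = 0) : b = 0 := by
  have : NeZero k := ⟨by omega⟩
  by_contra hb
  have hA0 : core D i u w R ≠ 0 := fun h0 => by
    have := core_inv_mul hD h2 hwu hc
    rw [h0, mul_zero] at this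
    exact zero_ne_one this
  obtain ⟨z, hz, hz0⟩ := exists_dual hD
    (show b ∉ Submodule.span F {u} ⊔ Submodule.span F {w} from fun hm => hb (by
      obtain ⟨p, hp, q, hq, rfl⟩ := Submodule.mem_sup.1 hm
      obtain ⟨α, rfl⟩ := Submodule.mem_span_singleton.1 hp
      obtain ⟨β, rfl⟩ := Submodule.mem_span_singleton.1 hq
      simp only [D.f1_add_left, D.f1_smul_left, hD.alt, hwu, f1_uw hD h2 hwu, mul_zero, mul_one,
        add_zero, zero_add] at hbu hbw
      rw [hbu, hbw, zero_smul, zero_smul, add_zero]))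
  have hzu : D.f1 z u = 0 := by
    rw [f1_comm hD h2]
    exact hz0 u (Submodule.mem_sup_left (Submodule.mem_span_singleton_self u))
  have hci := commute_inv hD h2 hc
  obtain ⟨c, hcu, -, hc0⟩ := exists_image hD h2 hwu hci hk hM hN hi (inv_mem hR) hzu
  have h1 := beta_adj hD h2 i (((R⁻¹ : GL (Fin t → Fin k) F) : Mt)) b c
  rw [adj_isom hD h2 (inv_mem (hM.le hR)), inv_inv, h c hcu, hc0 b hbu, hz, one_smul,
    adj_core hD h2 hwu hci (inv_mem (hM.le hR)), inv_inv] at h1
  exact hA0 h1.symm

omit hR hc in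
/-- The maps of the perpendicular preserve the form. -/
lemma f1_image {R : GL (Fin t → Fin k) F}
    (hc : (R : Mt) * slot i (rk D u u) = slot i (rk D u u) * (R : Mt)) (hR : R ∈ M)
    {y b y' b' : Fin k → F} (hy : D.f1 y u = 0) (hb'u : D.f1 b' u = 0)
    (hb : ∀ p, D.f1 p u = 0 → beta D i (R : Mt) p b = D.f1 p y • core D i u w R)
    (hb' : ∀ p, D.f1 p u = 0 → beta D i (R : Mt) p b' = D.f1 p y' • core D i u w R) :
    D.f1 b b' = D.f1 y y' := by
  have : NeZero k := ⟨by omega⟩
  have hci := commute_inv hD h2 hc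
  set R' : Mt := ((R⁻¹ : GL (Fin t → Fin k) F) : Mt) with hR'
  set A := core D i u w R
  set A' := core D i u w R⁻¹
  have hAf : SlotFree i A' := beta_free _ _ _
  have h1 : ∀ q, D.f1 q u = 0 → beta D i R' b q = D.f1 y q • A' := fun q hq => by
    rw [hR', ← adj_isom hD h2 (hM.le hR), beta_adj hD h2, hb q hq, adj_smul,
      adj_core hD h2 hwu hc (hM.le hR), f1_comm hD h2 q y]
  have h3 := congrArg ((R : Mt) * ·) (mul_slot_perp hD h2 hwu hci hAf h1 w)
  simp only [hR', mul_add, ← mul_assoc, Units.mul_inv, one_mul,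
    mul_slot_u hD h2 hwu hc] at h3
  have hfree : SlotFree i (beta D i R' b w + D.f1 y w • A') := fun B => by
    rw [mul_add, add_mul, beta_free R' b w B, hAf.smul (D.f1 y w) B]
  have h4 := congrArg (fun X => beta D i X u b') h3
  simp only [beta_add, TensorHerm.beta_slot, rk_mulVec, beta_mul_free hAf, beta_mul_slot, hb' y hy,
    mul_assoc (slot i (rk D u w)), beta_slot_mul, f1_uw hD h2 hwu, f1_comm hD h2 u b', hb'u,
    one_smul, zero_smul, add_zero, Matrix.smul_mul] at h4
  rw [show core D i u w R * A' = 1 from core_mul_inv hD h2 hwu hc] at h4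
  exact smul_left_injective F (one_ne_zero (α := Mt)) h4

omit hR hc in
/-- The normalising isometry. -/
lemma exists_normal {R : GL (Fin t → Fin k) F}
    (hc : (R : Mt) * slot i (rk D u u) = slot i (rk D u u) * (R : Mt)) (hR : R ∈ M) :
    ∃ a ∈ CfsgLib.Geometric.isom D.f1, ap a u = u ∧ ap a w = w ∧ ∀ p q, D.f1 p u = 0 →
      D.f1 q u = 0 → beta D i (R : Mt) p (ap a q) = D.f1 p q • core D i u w R := by
  classical
  have huw := f1_uw hD h2 hwu
  set A := core D i u w R with hA
  have hA0 : A ≠ 0 := fun h0 => by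
    have : NeZero k := ⟨by omega⟩
    have := core_inv_mul hD h2 hwu hc
    rw [← hA, h0, mul_zero] at this
    exact zero_ne_one this
  set π : (Fin k → F) → (Fin k → F) := fun z => z + D.f1 z w • u + D.f1 z u • w with hπ
  have hπu : ∀ z, D.f1 (π z) u = 0 := fun z => by
    simp only [hπ, D.f1_add_left, D.f1_smul_left, hD.alt, hwu, mul_zero, mul_one, add_zero]
    exact Rad.add_self_eq_zero h2 _
  choose b hbu hbw hb using fun z => exists_image hD h2 hwu hc hk hM hN hi hR (hπu z)
  have hlin : ∀ z c, D.f1 c u = 0 → D.f1 c w = 0 →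
      (∀ p, D.f1 p u = 0 → beta D i (R : Mt) p c = D.f1 p (π z) • A) →
      c = b z := by
    intro z c hcu hcw hcb
    refine sub_eq_zero.1 (eq_zero_of_perp_image hD h2 hwu hk hM hN hi hc hR ?_ ?_ fun p hp => ?_)
    · rw [sub_eq_add_neg, neg_eq hD h2, D.f1_add_left, hcu, hbu, add_zero]
    · rw [sub_eq_add_neg, neg_eq hD h2, D.f1_add_left, hcw, hbw, add_zero]
    · rw [TensorHerm.beta_sub_right, hcb p hp, hb z p hp, sub_self]
  let L : (Fin k → F) →ₗ[F] (Fin k → F) :=
    { toFun := fun z => D.f1 z w • u + D.f1 z u • w + b z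
      map_add' := fun z z' => by
        have e : b (z + z') = b z + b z' := by
          refine (hlin (z + z') _ ?_ ?_ fun p hp => ?_).symm
          · rw [D.f1_add_left, hbu, hbu, add_zero]
          · rw [D.f1_add_left, hbw, hbw, add_zero]
          · rw [beta_add_right, hb z p hp, hb z' p hp, ← add_smul, ← D.f1_add_right]
            congr 2
            simp only [hπ, D.f1_add_left, add_smul]
            abel
        rw [e, D.f1_add_left, D.f1_add_left, add_smul, add_smul]
        abel
      map_smul' := fun c z => by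
        have e : b (c • z) = c • b z := by
          refine (hlin (c • z) _ ?_ ?_ fun p hp => ?_).symm
          · rw [D.f1_smul_left, hbu, mul_zero]
          · rw [D.f1_smul_left, hbw, mul_zero]
          · rw [beta_smul_r hD h2, hb z p hp, smul_smul, ← hD.smul_right]
            congr 2
            simp only [hπ, D.f1_smul_left, smul_add, smul_smul]
        rw [e, D.f1_smul_left, D.f1_smul_left, RingHom.id_apply, smul_add, smul_add, smul_smul,
          smul_smul] }
  have hiso : ∀ z z', D.f1 (L z) (L z') = D.f1 z z' := by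
    intro z z'
    have h1 := f1_image hD h2 hwu hk hM hN hi hc hR (hπu z) (hbu z') (hb z) (hb z')
    have hub : ∀ x, D.f1 u (b x) = 0 := fun x => by rw [f1_comm hD h2, hbu]
    have hwb : ∀ x, D.f1 w (b x) = 0 := fun x => by rw [f1_comm hD h2, hbw]
    show D.f1 (D.f1 z w • u + D.f1 z u • w + b z) (D.f1 z' w • u + D.f1 z' u • w + b z') = _
    simp only [D.f1_add_left, D.f1_add_right, D.f1_smul_left, hD.smul_right, hD.alt, hwu, huw,
      hub, hwb, hbu, hbw, h1, hπ, f1_comm hD h2 u z', f1_comm hD h2 w z']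
    linear_combination (2 * (D.f1 z w * D.f1 z' u + D.f1 z u * D.f1 z' w)) * h2
  have hdet : (LinearMap.toMatrix' L).det ≠ 0 := by
    intro h0
    obtain ⟨v, hv0, hv⟩ := Matrix.exists_mulVec_eq_zero_iff.2 h0
    rw [LinearMap.toMatrix'_mulVec] at hv
    obtain ⟨z, hz⟩ := exists_one hD hv0
    rw [← hiso, hv, D.f1_zero_left] at hz
    exact zero_ne_one hz
  set a : GL (Fin k) F := Matrix.GeneralLinearGroup.mkOfDetNeZero _ hdet with hadef
  have hap : ∀ z, ap a z = L z := fun z => by
    rw [ap_def]; exact LinearMap.toMatrix'_mulVec L z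
  refine ⟨a, CfsgLib.Geometric.mem_isom_iff.mpr fun z z' => by rw [hap, hap, hiso], ?_, ?_,
    fun p q hp hq => ?_⟩
  · have hb0 : b u = 0 := (hlin u 0 (D.f1_zero_left u) (D.f1_zero_left w) fun p hp => by
      rw [← zero_smul F (0 : Fin k → F), beta_smul_r hD h2, zero_smul]
      simp only [hπ, huw, hD.alt, one_smul, zero_smul, add_zero, Rad.add_self_eq_zero h2,
        TensorHerm.f1_zero_right, zero_smul]).symm
    rw [hap]
    show D.f1 u w • u + D.f1 u u • w + b u = u
    rw [hb0, huw, hD.alt, one_smul, zero_smul, add_zero, add_zero]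
  · have hb0 : b w = 0 := (hlin w 0 (D.f1_zero_left u) (D.f1_zero_left w) fun p hp => by
      rw [← zero_smul F (0 : Fin k → F), beta_smul_r hD h2, zero_smul]
      simp only [hπ, hwu, hD.alt, one_smul, zero_smul, add_zero, Rad.add_self_eq_zero h2,
        TensorHerm.f1_zero_right, zero_smul]).symm
    rw [hap]
    show D.f1 w w • u + D.f1 w u • w + b w = w
    rw [hb0, hwu, hD.alt, one_smul, zero_smul, zero_add, add_zero]
  · rw [hap]
    show beta D i (R : Mt) p (D.f1 q w • u + D.f1 q u • w + b q) = _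
    rw [hq, zero_smul, add_zero, beta_add_right, beta_smul_r hD h2, beta_u_right hD h2 hwu hc,
      hp, zero_smul, smul_zero, zero_add, hb q p hp, ← hA]
    congr 1
    simp only [hπ, hq, zero_smul, add_zero, D.f1_add_right, hD.smul_right, hp, mul_zero]

omit hR hc in
/-- After normalising, the values towards `w` are given by one vector. -/
lemma exists_shift {R : GL (Fin t → Fin k) F}
    (hc : (R : Mt) * slot i (rk D u u) = slot i (rk D u u) * (R : Mt)) (hR : R ∈ M)
    (hmid : ∀ p q, D.f1 p u = 0 → D.f1 q u = 0 →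
      beta D i (R : Mt) p q = D.f1 p q • core D i u w R) :
    ∃ y₀, D.f1 y₀ u = 0 ∧ ∀ p, D.f1 p u = 0 →
      beta D i (R : Mt) p w = (D.f1 p w + D.f1 p y₀) • core D i u w R := by
  have : NeZero k := ⟨by omega⟩
  have huw := f1_uw hD h2 hwu
  have hu := ne_zero_of_pair hD h2 hwu
  set A := core D i u w R with hA
  set A' := core D i u w R⁻¹ with hA'
  set R' : Mt := ((R⁻¹ : GL (Fin t → Fin k) F) : Mt) with hR'
  have hci := commute_inv hD h2 hc
  have hAA' : A * A' = 1 := core_mul_inv hD h2 hwu hc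
  have hA'A : A' * A = 1 := core_inv_mul hD h2 hwu hc
  have hA'f : SlotFree i A' := beta_free _ _ _
  have hmid' : ∀ p q, D.f1 p u = 0 → D.f1 q u = 0 → beta D i R' p q = D.f1 p q • A' := by
    intro p q hp hq
    rw [hR', ← adj_isom hD h2 (hM.le hR), beta_adj hD h2, hmid q p hq hp, adj_smul,
      adj_core hD h2 hwu hc (hM.le hR), f1_comm hD h2 q p]
  have hscal : ∀ x, D.f1 x u = 0 → D.f1 x w = 0 →
      ∃ c : F, beta D i (R : Mt) x w * A' = c • 1 := by
    intro x hxu hxw
    by_cases hx : x = 0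
    · refine ⟨0, ?_⟩
      rw [hx, ← zero_smul F (0 : Fin k → F), beta_smul_left, zero_smul, zero_smul, zero_mul]
    set T := Symp.T hD.symp x 1 with hT
    have hTm : T ∈ CfsgLib.Geometric.isom D.f1 := Symp.T_mem_isom hD.symp x 1
    have hTinv : ∀ z, ap T⁻¹ z = z + D.f1 z x • x := fun z => by
      refine ap_injective T ?_
      rw [ap_ap_inv, hT, Symp.ap_T, D.f1_add_left, D.f1_smul_left, hD.alt, mul_zero, add_zero,
        one_mul, add_assoc, Rad.add_self_eq_zero h2, add_zero]
    have hux : D.f1 u x = 0 := by rw [f1_comm hD h2, hxu]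
    have hTu : ap T⁻¹ u = u := by rw [hTinv, hux, zero_smul, add_zero]
    have hTp : ∀ p, D.f1 p u = 0 → D.f1 (ap T⁻¹ p) u = 0 := fun p hp => by
      rw [hTinv, D.f1_add_left, D.f1_smul_left, hxu, mul_zero, add_zero, hp]
    have hTf : ∀ p q, D.f1 (ap T⁻¹ p) (ap T⁻¹ q) = D.f1 p q :=
      fun p q => CfsgLib.Geometric.mem_isom_iff.mp (inv_mem hTm) p q
    have hTw : ap T⁻¹ w = w := by rw [hTinv, f1_comm hD h2, hxw, zero_smul, add_zero]
    set e := slotGL (t := t) i T with he
    have heM : e ∈ M := hM.slot_mem i hi T hTm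
    obtain ⟨Z₀, hZ₀⟩ : ∃ Z : Mt, Z = cj e (R : Mt) - (R : Mt) := ⟨_, rfl⟩
    have hb : ∀ a b, beta D i Z₀ a b =
        beta D i (R : Mt) (ap T⁻¹ a) (ap T⁻¹ b) - beta D i (R : Mt) a b := fun a b => by
      rw [hZ₀, he, Rad.cj, beta_sub, beta_conj hTm]
    have hl : ∀ b, beta D i Z₀ u b = 0 := fun b => by
      rw [hb, hTu, beta_u_left hD h2 hwu hc, beta_u_left hD h2 hwu hc]
      have h := hTf u b
      rw [hTu] at h
      rw [h, sub_self]
    have hr : ∀ a, beta D i Z₀ a u = 0 := fun a => by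
      rw [hb, hTu, beta_u_right hD h2 hwu hc, beta_u_right hD h2 hwu hc]
      have h := hTf a u
      rw [hTu] at h
      rw [h, sub_self]
    have hm : ∀ p q, D.f1 p u = 0 → D.f1 q u = 0 → beta D i Z₀ p q = 0 := fun p q hp hq => by
      rw [hb, hmid _ _ (hTp p hp) (hTp q hq), hmid p q hp hq, hTf, sub_self]
    have hZu : ∀ s, Z₀ * slot i (rk D u s) = 0 := fun s =>
      ext_beta (D := D) (i := i) fun a b => by rw [beta_mul_slot, hl, smul_zero, beta_zero]
    set g := e * R * e⁻¹ * R⁻¹ with hg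
    have hgM : g ∈ M := mul_mem (mul_mem (mul_mem heM hR) (inv_mem heM)) (inv_mem hR)
    have hgX : (g : Mt) - 1 = Z₀ * R' := by
      rw [hg, hZ₀, sub_mul, hR', Units.mul_inv, Units.val_mul, Units.val_mul, Units.val_mul]
      rfl
    -- the values of the commutator
    have hval : ∀ p b, D.f1 p u = 0 →
        beta D i (Z₀ * R') p b = beta D i Z₀ p b * A' := by
      intro p b hp
      have h3 := mul_slot_perp hD h2 hwu hci hA'f (fun q hq => hmid' p q hp hq) w
      have h4 := congrArg (fun X => beta D i (Z₀ * X) u b) h3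
      simp only [mul_add, ← mul_assoc, hZu, zero_mul, add_zero, beta_mul_slot, beta_mul_free hA'f,
        huw, one_smul] at h4
      exact h4
    have hrad : IsRad D i u ((g : Mt) - 1) := by
      rw [hgX]
      refine ⟨fun b => beta_eq_zero_of_mul hD h2 (s := u) hu ?_ b, fun a => ?_,
        fun p q hp hq => by rw [hval p q hp, hm p q hp hq, zero_mul]⟩
      · rw [mul_assoc, hR', mul_slot_u hD h2 hwu hci, ← mul_assoc, hZu, zero_mul]
      · have h5 : slot i (rk D w u) * Z₀ = 0 :=
          ext_beta (D := D) (i := i) fun a b => by rw [beta_slot_mul, hr, smul_zero, beta_zero]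
        have h6 := beta_slot_mul (D := D) (i := i) w u (Z₀ * R') a u
        rw [← mul_assoc, h5, zero_mul, beta_zero, hwu, one_smul] at h6
        exact h6.symm
    obtain ⟨p, hxp, hp0⟩ := exists_dual hD
      (show x ∉ Submodule.span F {u} ⊔ Submodule.span F {w} from fun hm => hx (by
        obtain ⟨p, hp, q, hq, rfl⟩ := Submodule.mem_sup.1 hm
        obtain ⟨α, rfl⟩ := Submodule.mem_span_singleton.1 hp
        obtain ⟨β, rfl⟩ := Submodule.mem_span_singleton.1 hq
        simp only [D.f1_add_left, D.f1_smul_left, hD.alt, hwu, huw, mul_zero, mul_one, add_zero,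
          zero_add] at hxu hxw
        rw [hxu, hxw, zero_smul, zero_smul, add_zero]))
    have hpu : D.f1 p u = 0 := by
      rw [f1_comm hD h2]
      exact hp0 u (Submodule.mem_sup_left (Submodule.mem_span_singleton_self u))
    obtain ⟨c, hc0⟩ := radical_scalar hD h2 hk hM hN hi hwu hgM hrad hpu
    refine ⟨c, ?_⟩
    rw [← hc0, hgX, hval p w hpu, hb, hTw, hTinv, beta_add_left, beta_smul_left,
      f1_comm hD h2 p x, hxp, one_smul, add_sub_cancel_left]
  obtain ⟨b, hwb, hb⟩ := exists_rep hD h2 hwu (betaL D i (R : Mt) w A') fun p hp => by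
    obtain ⟨c, hc0⟩ := hscal (p + D.f1 p w • u)
      (by rw [D.f1_add_left, D.f1_smul_left, hp, hD.alt, mul_zero, add_zero])
      (by rw [D.f1_add_left, D.f1_smul_left, huw, mul_one, Rad.add_self_eq_zero h2])
    refine ⟨c + D.f1 p w, ?_⟩
    show beta D i (R : Mt) p w * A' = _
    rw [beta_add_left, beta_smul_left, beta_u_left hD h2 hwu hc, huw, one_smul, add_mul,
      Matrix.smul_mul, ← hA, hAA'] at hc0
    rw [add_smul, ← hc0, add_assoc, Rad.add_self_eq_zero h2, add_zero]
  have hb' : ∀ p, D.f1 p u = 0 → beta D i (R : Mt) p w = D.f1 p b • A := fun p hp => by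
    have h : beta D i (R : Mt) p w * A' = D.f1 p b • (1 : Mt) := hb p hp
    calc beta D i (R : Mt) p w = beta D i (R : Mt) p w * A' * A := by rw [mul_assoc, hA'A, mul_one]
      _ = _ := by rw [h, Matrix.smul_mul, one_mul]
  have hub : D.f1 u b = 1 := by
    have h0 : beta D i (R : Mt) u w * A' = D.f1 u b • (1 : Mt) := hb u (hD.alt u)
    rw [show beta D i (R : Mt) u w = A from rfl, hAA'] at h0
    exact (smul_left_injective F (one_ne_zero (α := Mt)) ((one_smul F _).trans h0)).symm
  refine ⟨b + w, ?_, fun p hp => ?_⟩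
  · rw [D.f1_add_left, f1_comm hD h2 b u, hub, hwu, Rad.add_self_eq_zero h2]
  · rw [hb' p hp, D.f1_add_right, add_comm (D.f1 p b), ← add_assoc, Rad.add_self_eq_zero h2,
      zero_add]

omit hR hc hwu in
/-- A combination of two root operators of orthogonal vectors, with scalar cofactor only. -/
lemma scalar_of_pairs {Z : Mt} (hZ : SlotFree i Z)
    (hS : ∀ x z, D.f1 x z = 0 → LinearIndependent F ![x, z] →
      Good M (slot i (rk D x x + rk D z z) * Z)) : ∃ c : F, Z = c • 1 := by
  obtain ⟨e, -, he, -, -, hee, -⟩ := hD.exists_frame (r := 2) (by omega)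
  set x := e 0 with hx
  set z := e 1 with hz
  have hxz : D.f1 x z = 0 := he 0 1
  have hind : LinearIndependent F ![x, z] := hee 0 1 (by decide)
  obtain ⟨hx0, -⟩ := li_pair.1 hind
  obtain ⟨y, hyx, hyz, hy⟩ := exists_outside hD hk x z
  have hyz' : y + z ∉ Submodule.span F {x} ⊔ Submodule.span F {z} := fun hm => hy (by
    have h := Submodule.sub_mem _ hm (Submodule.mem_sup_right (Submodule.mem_span_singleton_self z))
    rwa [add_sub_cancel_right] at h)
  have hpair : ∀ v, D.f1 v x = 0 → v ∉ Submodule.span F {x} ⊔ Submodule.span F {z} →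
      D.f1 v (x + v) = 0 ∧ LinearIndependent F ![v, x + v] := by
    intro v hvx hv
    refine ⟨by rw [D.f1_add_right, hvx, hD.alt, add_zero],
      pair_of_notMem (fun h : v = 0 => hv (h ▸ zero_mem _)) fun hm => ?_⟩
    have hm' : x ∈ Submodule.span F {v} := by
      have h := Submodule.sub_mem _ hm (Submodule.mem_span_singleton_self v)
      rwa [add_sub_cancel_right] at h
    obtain ⟨s, hs⟩ := Submodule.mem_span_singleton.1 hm'
    have hs0 : s ≠ 0 := fun h0 => hx0 (by rw [← hs, h0, zero_smul])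
    refine hv (Submodule.mem_sup_left (Submodule.mem_span_singleton.2 ⟨s⁻¹, ?_⟩))
    rw [← hs, smul_smul, inv_mul_cancel₀ hs0, one_smul]
  obtain ⟨f1, l1⟩ := hpair y hyx hy
  obtain ⟨f2, l2⟩ := hpair (y + z) (by rw [D.f1_add_left, hyx, f1_comm hD h2 z x, hxz, add_zero])
    hyz'
  have hxy : D.f1 x y = 0 := by rw [f1_comm hD h2, hyx]
  have hzx : D.f1 z x = 0 := by rw [f1_comm hD h2, hxz]
  have hzy : D.f1 z y = 0 := by rw [f1_comm hD h2, hyz]
  have hsum : ∀ v : Fin k → F, rk D v v + rk D (x + v) (x + v) = rk D x x + al D x v := by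
    intro v
    rw [al_eq_add h2]
    simp only [TensorHerm.rk_add_left, TensorHerm.rk_add_right]
    rw [show rk D v v + (rk D x x + rk D v x + (rk D x v + rk D v v)) =
      rk D x x + (rk D x v + rk D v x) + (rk D v v + rk D v v) by abel,
      Rad.add_self_eq_zero h2, add_zero]
  have h := (hS _ _ f1 l1).add (hS _ _ f2 l2)
    (by
      rw [corner_mul _ _ _ hZ]
      simp [mul_add, add_mul, rk_mul, hD.alt, hxy, hyx, hyz, hzy, hxz, hzx,
        D.f1_add_left, D.f1_add_right])
    (by
      rw [corner_mul _ _ _ hZ]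
      simp [mul_add, add_mul, rk_mul, hD.alt, hxy, hyx, hyz, hzy, hxz, hzx,
        D.f1_add_left, D.f1_add_right])
  rw [← add_mul, ← map_add, hsum, hsum, IsAlt.al_add_right x y z,
    show rk D x x + al D x y + (rk D x x + (al D x y + al D x z)) =
      al D x z + ((rk D x x + al D x y) + (rk D x x + al D x y)) by abel,
    Rad.add_self_eq_zero h2, add_zero] at h
  exact corner_scalar hN (Or.inr ⟨x, z, hxz, hind, rfl⟩) (hD.al_ne_zero hind) hZ h

omit hR hc hwu in
/-- An element commuting with a root operator of an active position acts factorwise. -/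
theorem mem_wreath_of_commute (hu : u ≠ 0)
    (IH : ∀ l ∈ act, ∀ g ∈ M, SlotFree l (g : Mt) → g ∈ tensorWreathStandard k t F)
    {R : GL (Fin t → Fin k) F} (hR : R ∈ M)
    (hc : (R : Mt) * slot i (rk D u u) = slot i (rk D u u) * (R : Mt)) :
    R ∈ tensorWreathStandard k t F := by
  classical
  have : NeZero k := ⟨by omega⟩
  obtain ⟨w, huw⟩ := exists_one hD hu
  have hwu : D.f1 w u = 1 := by rw [f1_comm hD h2, huw]
  -- normalise the action on the perpendicular of `u`
  obtain ⟨a, ha, hau, haw, hmid⟩ := exists_normal hD h2 hwu hk hM hN hi hc hR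
  have hsm : ∀ (b : GL (Fin k) F) (S : GL (Fin t → Fin k) F), b ∈ CfsgLib.Geometric.isom D.f1 →
      ∀ p q, beta D i (((slotGL i b)⁻¹ * S : GL (Fin t → Fin k) F) : Mt) p q =
        beta D i (S : Mt) p (ap b q) := by
    intro b S hb p q
    rw [Units.val_mul, ← map_inv, slotGL_val]
    refine beta_slot_mul' _ _ _ fun z => ?_
    have h := CfsgLib.Geometric.mem_isom_iff.mp hb (ap b⁻¹ z) q
    rw [ap_ap_inv] at h
    exact h.symm
  have hcomm : ∀ b : GL (Fin k) F, b ∈ CfsgLib.Geometric.isom D.f1 → ap b u = u →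
      ∀ S : GL (Fin t → Fin k) F, (S : Mt) * slot i (rk D u u) = slot i (rk D u u) * (S : Mt) →
      (((slotGL i b)⁻¹ * S : GL (Fin t → Fin k) F) : Mt) * slot i (rk D u u) =
        slot i (rk D u u) * (((slotGL i b)⁻¹ * S : GL (Fin t → Fin k) F) : Mt) := by
    intro b hb hbu S hS
    have h1 : ((b⁻¹ : GL (Fin k) F) : Mk) * rk D u u = rk D u u * ((b⁻¹ : GL (Fin k) F) : Mk) := by
      have h := hD.conj_rk hb u u
      rw [hbu] at h
      conv_lhs => rw [← h]
      rw [← mul_assoc, ← mul_assoc, Units.inv_mul, one_mul]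
    rw [Units.val_mul, ← map_inv, slotGL_val, mul_assoc, hS, ← mul_assoc, ← map_mul, h1, map_mul,
      mul_assoc]
  set R₁ := (slotGL i a)⁻¹ * R with hR₁
  have hR₁M : R₁ ∈ M := mul_mem (inv_mem (hM.slot_mem i hi a ha)) hR
  have hc₁ := hcomm a ha hau R hc
  have hcore₁ : core D i u w R₁ = core D i u w R := by rw [core, hsm a R ha, haw]; rfl
  have hmid₁ : ∀ p q, D.f1 p u = 0 → D.f1 q u = 0 →
      beta D i (R₁ : Mt) p q = D.f1 p q • core D i u w R₁ := fun p q hp hq => by
    rw [hsm a R ha, hmid p q hp hq, hcore₁]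
  obtain ⟨y₀, hy₀, hD₁⟩ := exists_shift hD h2 hwu hk hM hN hi hc₁ hR₁M hmid₁
  obtain ⟨b, hb, -, hbp⟩ := exists_al hD h2 (show D.f1 u y₀ = 0 by rw [f1_comm hD h2, hy₀])
  have hbu : ap b u = u := by
    rw [hbp, f1_comm hD h2 u y₀, hy₀, hD.alt, zero_smul, zero_smul, sub_zero, add_zero]
  have hbq : ∀ q, ap b q = q + D.f1 q y₀ • u + D.f1 q u • y₀ := fun q => by
    rw [hbp, sub_eq_add_neg, neg_eq hD h2, add_assoc]
  set R₂ := (slotGL i b)⁻¹ * R₁ with hR₂
  have hR₂M : R₂ ∈ M := mul_mem (inv_mem (hM.slot_mem i hi b hb)) hR₁M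
  have hc₂ := hcomm b hb hbu R₁ hc₁
  set A := core D i u w R₁ with hA
  have hAf : SlotFree i A := beta_free _ _ _
  have hrow : ∀ p q, D.f1 p u = 0 → beta D i (R₂ : Mt) p q = D.f1 p q • A := by
    intro p q hp
    obtain ⟨q', r, hq', rfl⟩ : ∃ q' : Fin k → F, ∃ r : F, D.f1 q' u = 0 ∧ q = q' + r • w :=
      ⟨_, _, f1_split hD h2 hwu q, split_eq hD h2 q⟩
    rw [hsm b R₁ hb, ap_add, ap_smul, beta_add_right, beta_smul_r hD h2, hbq, hbq, hq', zero_smul,
      add_zero, hwu, one_smul, beta_add_right, beta_add_right, beta_add_right, beta_smul_r hD h2,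
      beta_smul_r hD h2, hmid₁ p q' hp hq', hmid₁ p y₀ hp hy₀, beta_u_right hD h2 hwu hc₁, hp,
      zero_smul, smul_zero, smul_zero, add_zero, add_zero, hD₁ p hp, D.f1_add_right, hD.smul_right,
      ← add_smul, add_assoc, Rad.add_self_eq_zero h2, add_zero, smul_smul, ← add_smul]
  have hcore₂ : core D i u w R₂ = A := by rw [core, hrow u w (hD.alt u), huw, one_smul]
  have hci₂ := commute_inv hD h2 hc₂
  set A' := core D i u w R₂⁻¹ with hA'
  have hA'f : SlotFree i A' := beta_free _ _ _
  have hA'A : A' * A = 1 := by rw [← hcore₂]; exact core_inv_mul hD h2 hwu hc₂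
  have hAA' : A * A' = 1 := by rw [← hcore₂]; exact core_mul_inv hD h2 hwu hc₂
  have hrow' : ∀ p q, D.f1 p u = 0 → beta D i (((R₂⁻¹ : GL (Fin t → Fin k) F)) : Mt) p q =
      D.f1 p q • A' := by
    intro p q hp
    have h3 : (R₂ : Mt) * slot i (rk D p w) = slot i (rk D p w) * A :=
      mul_slot_rk_eq hD h2 hAf (hrow p · hp) w
    have h4 : ((R₂⁻¹ : GL (Fin t → Fin k) F) : Mt) * slot i (rk D p w) =
        slot i (rk D p w) * A' := by
      calc ((R₂⁻¹ : GL (Fin t → Fin k) F) : Mt) * slot i (rk D p w)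
          = ((R₂⁻¹ : GL (Fin t → Fin k) F) : Mt) * (slot i (rk D p w) * A) * A' := by
            rw [mul_assoc, mul_assoc (slot i (rk D p w)), hAA', mul_one]
        _ = _ := by rw [← h3, ← mul_assoc, Units.inv_mul, one_mul]
    have h5 := congrArg (fun X => beta D i X u q) h4
    simp only [beta_mul_slot, beta_rk_mul_free hA'f, huw, one_smul, mul_one] at h5
    exact h5
  set Z₀ := beta D i (R₂ : Mt) w w with hZ₀
  have hform : (R₂ : Mt) = A + slot i (rk D u u) * Z₀ := by
    refine ext_split (i := i) hD h2 hwu (fun p q hp hq => ?_) (fun p hp => ?_) (fun q hq => ?_) ?_ <;>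
      rw [beta_add, beta_of_free hAf, beta_rk_mul_free (beta_free _ _ _)]
    · rw [hrow p q hp, hp, mul_zero, zero_smul, add_zero]
    · rw [hrow p w hp, hp, mul_zero, zero_smul, add_zero]
    · have h := beta_adj hD h2 i (((R₂⁻¹ : GL (Fin t → Fin k) F)) : Mt) q w
      rw [adj_isom hD h2 (inv_mem (hM.le hR₂M)), inv_inv, hrow' q w hq, adj_smul, hA',
        adj_core hD h2 hwu hci₂ (inv_mem (hM.le hR₂M)), inv_inv, hcore₂] at h
      rw [h, f1_comm hD h2 u q, hq, zero_mul, zero_smul, add_zero, f1_comm hD h2 q w]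
    · rw [hD.alt, zero_smul, zero_add, huw, hwu, mul_one, one_smul]
  set Z := Z₀ * A' with hZ
  have hZf : SlotFree i Z := (beta_free _ _ _).mul hA'f
  have hform' : ∀ v : Fin k → F, slot i (rk D v v) * Z * A = slot i (rk D v v) * Z₀ := fun v => by
    rw [mul_assoc, hZ, mul_assoc Z₀, hA'A, mul_one]
  obtain ⟨c, hc0⟩ : ∃ c : F, Z = c • 1 := by
    refine scalar_of_pairs hD h2 hk hM hN hi hZf fun x z hxz hind => ?_
    obtain ⟨v, hvu, -, hv⟩ := exists_outside hD hk u u
    have hvs : v ∉ Submodule.span F {u} := fun hm => hv (Submodule.mem_sup_left hm)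
    have hv0 : v ≠ 0 := fun h => hvs (h ▸ zero_mem _)
    obtain ⟨d, hd, hdu⟩ := Symp.exists_isom_map hD.symp hu hv0
    set T := slotGL (t := t) i d with hT
    have hTM : T ∈ M := hM.slot_mem i hi d hd
    set h := T * R₂ * T⁻¹ * R₂⁻¹ with hh
    have huv : D.f1 u v = 0 := by rw [f1_comm hD h2, hvu]
    have hcj : cj T (R₂ : Mt) = A + slot i (rk D v v) * Z₀ := by
      rw [hform, hT, cj_add, cj_mul, cj_slot, hD.conj_rk hd, hdu, cj_free hAf,
        cj_free (beta_free _ _ _)]
    have hgood : Good M (slot i (rk D u u + rk D v v) * Z) := by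
      refine ⟨?_, h, mul_mem (mul_mem (mul_mem hTM hR₂M) (inv_mem hTM)) (inv_mem hR₂M), ?_⟩
      · rw [corner_mul _ _ _ hZf]
        simp [mul_add, add_mul, rk_mul, hD.alt, huv, hvu]
      have hkey : (1 + slot i (rk D u u + rk D v v) * Z) * (R₂ : Mt) = cj T (R₂ : Mt) := by
        rw [hcj, hform, map_add, add_mul, add_mul, add_mul, one_mul, mul_add, mul_add,
          hform', hform', corner_mul _ _ _ hZf, corner_mul _ _ _ hZf, rk_mul, rk_mul, hD.alt, huv,
          zero_smul, zero_smul, map_zero, zero_mul, add_zero, add_zero, ← add_assoc,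
          add_assoc A, Rad.add_self_eq_zero h2, add_zero]
      calc (h : Mt) = cj T (R₂ : Mt) * ((R₂⁻¹ : GL (Fin t → Fin k) F) : Mt) := by
            rw [hh, Units.val_mul, Units.val_mul, Units.val_mul]; rfl
        _ = _ := by rw [← hkey, mul_assoc, Units.mul_inv, mul_one]
    obtain ⟨m, hm, hmu, hmv⟩ :=
      hD.exists_isom_pair (pair_of_notMem hu hvs) hind (huv.trans hxz.symm)
    have := good_cj hM hi hm hgood
    rwa [map_add, add_mul, cj_add, cj_mul _ (slot i (rk D u u)) Z, cj_mul _ (slot i (rk D v v)) Z,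
      cj_free hZf, cj_slot, cj_slot, hD.conj_rk hm, hD.conj_rk hm, hmu, hmv, ← add_mul,
      ← map_add] at this
  set S := slotGL (t := t) i (Symp.T hD.symp u c) with hS
  have hSM : S ∈ M := hM.slot_mem i hi _ (Symp.T_mem_isom hD.symp u c)
  have hSA : (S : Mt) * A = (R₂ : Mt) := by
    rw [hS, slotGL_val, hD.T_val, map_add, map_one, map_smul, hform, add_mul, one_mul]
    congr 1
    rw [← hform' u, hc0, Matrix.mul_smul, mul_one]
  have hA₂ : (((S⁻¹ * R₂ : GL (Fin t → Fin k) F)) : Mt) = A := by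
    rw [Units.val_mul, ← hSA, ← mul_assoc, Units.inv_mul, one_mul]
  have hW := IH i hi (S⁻¹ * R₂) (mul_mem (inv_mem hSM) hR₂M) (hA₂.symm ▸ hAf)
  have e : R = slotGL i a * (slotGL i b * (S * (S⁻¹ * R₂))) := by
    rw [mul_inv_cancel_left, hR₂, mul_inv_cancel_left, hR₁, mul_inv_cancel_left]
  rw [e]
  exact mul_mem (slotGL_mem_wreath _ _) (mul_mem (slotGL_mem_wreath _ _)
    (mul_mem (slotGL_mem_wreath _ _) hW))

end Ctr

end CfsgLib.Geometric.TensorOrth
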