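import Cfsg.Agent.Lib.Geometric.TensorOrth.Fac
import Cfsg.Agent.Lib.Geometric.TensorHerm.Extract

/-!
# Splitting off one factor

A set closed under differences and under the isometries of one position contains, with an element
not commuting with that factor, a product of a factor operator of root type and a non-zero operator
of the other positions.
-/

set_option autoImplicit false
set_option linter.unusedSectionVars false

namespace CfsgLib.Geometric.TensorOrth

open scoped Matrix MatrixGroups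
open Matrix CfsgLib.SmallDim Cfsg.Geo CfsgLib.Geometric.TensorForm
open CfsgLib.Geometric.TensorHerm (rk rk_mulVec rk_mul slotGL slotGL_val beta beta_free
  beta_free_of_free beta_add beta_sub beta_smul beta_add_left beta_add_right beta_smul_left
  beta_smul_right beta_sub_left beta_sub_right beta_rk_mul_free beta_of_free beta_conj ext_beta)

variable {k t : ℕ} {F : Type*} [Field F]

local notation "Mk" => Matrix (Fin k) (Fin k) F
local notation "Mt" => Matrix (Fin t → Fin k) (Fin t → Fin k) F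

variable {D : Datum k F} (hD : IsAlt D) {l : Fin t}
include hD

lemma beta_smul_right' (X : Mt) (s : F) (a b : Fin k → F) :
    beta D l X a (s • b) = s • beta D l X a b := by
  rw [beta_smul_right, hD.id]; rfl

/-- An operator whose partial forms vanish on orthogonal pairs commutes with the factor. -/
lemma slotFree_of_orth (hk2 : 2 ≤ k) {Z : Mt}
    (h : ∀ u x, D.f1 u x = 0 → beta D l Z u x = 0) : SlotFree l Z := by
  set B := beta D l Z with hB
  have hleft : ∀ p q r, D.f1 p r = 1 → B p q = D.f1 p q • B p r := by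
    intro p q r hr
    have h0 := h p (q - D.f1 p q • r) (by
      rw [sub_eq_add_neg, D.f1_add_right, ← neg_one_smul F (D.f1 p q • r), hD.smul_right,
        hD.smul_right, hr]; ring)
    rwa [hB, beta_sub_right, beta_smul_right' hD, sub_eq_zero] at h0
  have hright : ∀ p q r, D.f1 r q = 1 → B p q = D.f1 p q • B r q := by
    intro p q r hr
    have h0 := h (p - D.f1 p q • r) q (by
      rw [sub_eq_add_neg, D.f1_add_left, ← neg_one_smul F (D.f1 p q • r), D.f1_smul_left,
        D.f1_smul_left, hr]; ring)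
    rwa [hB, beta_sub_left, beta_smul_left, sub_eq_zero] at h0
  obtain ⟨e, g, -, -, heg, -, -⟩ := hD.exists_frame (r := 1) (by omega)
  have he : D.f1 (e 0) (g 0) = 1 := by simp [heg]
  -- hyperbolic pairs sharing an entry have equal values
  have hL : ∀ p r r', D.f1 p r = 1 → D.f1 p r' = 1 → B p r' = B p r := fun p r r' h1 h2 => by
    rw [hleft p r' r h1, h2, one_smul]
  have hR : ∀ p p' r, D.f1 p r = 1 → D.f1 p' r = 1 → B p' r = B p r := fun p p' r h1 h2 => by
    rw [hright p' r p h1, h2, one_smul]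
  have hconst : ∀ p r, D.f1 p r = 1 → B p r = B (e 0) (g 0) := by
    intro p r hpr
    by_cases h1 : D.f1 (e 0) r = 0
    · have h2 : D.f1 (e 0) (r + g 0) = 1 := by rw [D.f1_add_right, h1, he, zero_add]
      by_cases h3 : D.f1 p (g 0) = 0
      · have h4 : D.f1 p (r + g 0) = 1 := by rw [D.f1_add_right, h3, hpr, add_zero]
        rw [hL p (r + g 0) r h4 hpr, hR (e 0) p (r + g 0) h2 h4, hL (e 0) (g 0) _ he h2]
      · set s := D.f1 p (g 0) with hs
        have h4 : D.f1 p (s⁻¹ • g 0) = 1 := by rw [hD.smul_right, ← hs, inv_mul_cancel₀ h3]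
        have h5 : D.f1 (s • e 0) (s⁻¹ • g 0) = 1 := by
          rw [D.f1_smul_left, hD.smul_right, he, mul_one, mul_inv_cancel₀ h3]
        rw [hL p (s⁻¹ • g 0) r h4 hpr, hR (s • e 0) p _ h5 h4, hB, beta_smul_left, beta_smul_right' hD,
          smul_smul, mul_inv_cancel₀ h3, one_smul]
    · set s := D.f1 (e 0) r with hs
      have h4 : D.f1 (s⁻¹ • e 0) r = 1 := by rw [D.f1_smul_left, ← hs, inv_mul_cancel₀ h1]
      have h5 : D.f1 (s⁻¹ • e 0) (s • g 0) = 1 := by
        rw [D.f1_smul_left, hD.smul_right, he, mul_one, inv_mul_cancel₀ h1]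
      rw [hR (s⁻¹ • e 0) p r h4 hpr, hL (s⁻¹ • e 0) (s • g 0) r h5 h4, hB, beta_smul_left,
        beta_smul_right' hD, smul_smul, inv_mul_cancel₀ h1, one_smul]
  set C := B (e 0) (g 0) with hC
  have hCfree : SlotFree l C := beta_free Z _ _
  suffices Z = C from this ▸ hCfree
  refine ext_beta (D := D) (i := l) fun p q => ?_
  rw [beta_of_free hCfree]
  by_cases hp : p = 0
  · subst hp
    rw [D.f1_zero_left, zero_smul]
    exact h _ _ (D.f1_zero_left _)
  obtain ⟨r₀, hr₀⟩ := (hD.symp.nondegenerate p hp).2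
  have hr : D.f1 p ((D.f1 p r₀)⁻¹ • r₀) = 1 := by rw [hD.smul_right, inv_mul_cancel₀ hr₀]
  show B p q = _
  rw [hleft p q _ hr, hconst p _ hr]

/-- Extraction of a factor operator. -/
theorem exists_extract (hk2 : 2 ≤ k) (hk : 4 ≤ k ∨ (2 : F) ≠ 0)
    {B : Set (Matrix (Fin t → Fin k) (Fin t → Fin k) F)}
    (hsub : ∀ X ∈ B, ∀ Y ∈ B, X - Y ∈ B)
    (hconj : ∀ a ∈ CfsgLib.Geometric.isom D.f1, ∀ X ∈ B,
      (slotGL l a : Mt) * X * (((slotGL l a)⁻¹ : GL (Fin t → Fin k) F) : Mt) ∈ B)
    {Z : Mt} (hZ : Z ∈ B) (hnf : ¬ SlotFree l Z) :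
    ∃ (R : Mk) (Z' : Mt), IsRootFac D R ∧ SlotFree l Z' ∧ Z' ≠ 0 ∧ slot l R * Z' ∈ B ∧
      ∀ s, s ≠ l → SlotFree s Z → SlotFree s Z' := by
  set β := beta D l Z with hβ
  have hTinv : ∀ (u : Fin k → F) (c : F) p,
      ap (Symp.T hD.symp u c)⁻¹ p = p + (-c * D.f1 p u) • u := fun u c p => by
    refine ap_injective (Symp.T hD.symp u c) ?_
    rw [ap_ap_inv, Symp.ap_T, D.f1_add_left, D.f1_smul_left, hD.alt]
    module
  by_cases hdiag : (2 : F) ≠ 0 ∧ ∃ u, β u u ≠ 0
  · obtain ⟨h2, u, hu⟩ := hdiag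
    have hu0 : u ≠ 0 := fun h => hu (by
      rw [h, hβ, ← zero_smul F (0 : Fin k → F), beta_smul_left, zero_smul])
    set T := slotGL (t := t) l (Symp.T hD.symp u 1)
    set T' := slotGL (t := t) l (Symp.T hD.symp u (-1))
    have hm := hsub _ (hsub _ (hconj _ (Symp.T_mem_isom hD.symp u 1) _ hZ) _ hZ) _
      (hsub _ hZ _ (hconj _ (Symp.T_mem_isom hD.symp u (-1)) _ hZ))
    refine ⟨rk D u u, (-2 : F) • β u u, Or.inl ⟨u, hu0, rfl⟩, (beta_free Z u u).smul _,
      smul_ne_zero (neg_ne_zero.2 h2) hu, ?_, fun s hs hsf => (beta_free_of_free hs hsf u u).smul _⟩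
    convert hm using 1
    refine ext_beta (D := D) (i := l) fun p q => ?_
    rw [beta_rk_mul_free ((beta_free Z u u).smul _), beta_sub, beta_sub, beta_sub,
      beta_conj (Symp.T_mem_isom hD.symp u 1), beta_conj (Symp.T_mem_isom hD.symp u (-1)),
      hTinv, hTinv, hTinv, hTinv, hD.skew q u]
    simp only [hβ, beta_add_left, beta_add_right, beta_smul_left, beta_smul_right' hD]
    module
  by_cases horth : ∀ u x, D.f1 u x = 0 → β u x = 0
  · exact absurd (slotFree_of_orth hD hk2 horth) hnf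
  have hk4 : 4 ≤ k := by
    rcases hk with h | h2
    · exact h
    by_contra hlt
    refine horth fun u x hux => ?_
    simp only [not_and, not_exists, not_not] at hdiag
    by_cases hu : u = 0
    · subst hu; rw [hβ, ← zero_smul F (0 : Fin k → F), beta_smul_left, zero_smul]
    by_cases hx : x ∈ Submodule.span F {u}
    · obtain ⟨c, rfl⟩ := Submodule.mem_span_singleton.1 hx
      rw [hβ, beta_smul_right' hD, ← hβ, hdiag h2 u, smul_zero]
    · obtain ⟨e, g, -, -, -, -, hef⟩ := hD.exists_frame (r := 1) (by omega)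
      have h1 : LinearIndependent F ![u, x] := li_pair.2 ⟨hu, hx⟩
      have h3 := h1.fintype_card_le_finrank
      rw [Fintype.card_fin, Module.finrank_fin_fun] at h3
      have hk' : k = 2 ∨ k = 3 := by omega
      exact absurd hux (by
        rcases hk' with rfl | rfl
        · intro h0
          obtain ⟨p, hp⟩ := (hD.symp.nondegenerate u hu).2
          have htop : Submodule.span F (Set.range ![u, x]) = ⊤ :=
            h1.span_eq_top_of_card_eq_finrank' (by simp [Module.finrank_fin_fun])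
          obtain ⟨c, hc⟩ := (Submodule.mem_span_range_iff_exists_fun F).1
            (htop ▸ Submodule.mem_top : p ∈ Submodule.span F (Set.range ![u, x]))
          refine hp ?_
          rw [← hc, Fin.sum_univ_two]
          simp [D.f1_add_right, hD.smul_right, hD.alt, h0]
        · obtain ⟨m, b, -⟩ := CfsgLib.Forms.exists_symplectic_basis (Symp.fl hD.symp).flip
            ⟨fun v hv => by
              by_contra h
              obtain ⟨z, hz⟩ := (hD.symp.nondegenerate v h).2
              exact hz (hv z), fun v hv => by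
              by_contra h
              obtain ⟨z, hz⟩ := (hD.symp.nondegenerate v h).1
              exact hz (hv z)⟩ fun v => hD.alt v
          have := Module.finrank_eq_card_basis b
          rw [Module.finrank_fin_fun, Fintype.card_sum, Fintype.card_fin] at this
          omega)
  obtain ⟨u, x, hux, hli, hne⟩ : ∃ u x, D.f1 u x = 0 ∧ LinearIndependent F ![u, x] ∧
      β x u ≠ 0 := by
    by_contra hno
    push Not at hno
    have hswap : ∀ u x, D.f1 u x = 0 → LinearIndependent F ![u, x] → β u x = 0 := fun u x h1 h2 =>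
      hno x u (by rw [hD.skew u x, h1, neg_zero]) (LinearIndependent.pair_symm_iff.1 h2)
    refine horth fun u x hux => ?_
    by_cases hu : u = 0
    · subst hu; rw [hβ, ← zero_smul F (0 : Fin k → F), beta_smul_left, zero_smul]
    by_cases hx : x ∈ Submodule.span F {u}
    · obtain ⟨c, rfl⟩ := Submodule.mem_span_singleton.1 hx
      obtain ⟨e, g, he, -, -, hee, -⟩ := hD.exists_frame (r := 2) (by omega)
      obtain ⟨a, ha, hau⟩ := Symp.exists_isom_map hD.symp ((hee 0 1 (by decide)).ne_zero 0) hu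
      set y := ap a (e 1)
      have hau' : ap a (e 0) = u := hau
      have hy0 : D.f1 u y = 0 := by rw [← hau', CfsgLib.Geometric.mem_isom_iff.mp ha, he]
      obtain ⟨-, h1⟩ := li_pair.1 (hee 0 1 (by decide))
      have hy : y ∉ Submodule.span F {u} := fun hm => h1 (by
        obtain ⟨d, hd⟩ := Submodule.mem_span_singleton.1 hm
        exact Submodule.mem_span_singleton.2 ⟨d, ap_injective a (by rw [ap_smul, hau']; exact hd)⟩)
      have hy' : u + y ∉ Submodule.span F {u} := fun hm => hy (by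
        simpa using Submodule.sub_mem _ hm (Submodule.mem_span_singleton_self u))
      have e1 := hswap u y hy0 (li_pair.2 ⟨hu, hy⟩)
      have e2 := hswap u (u + y) (by rw [D.f1_add_right, hD.alt, hy0, add_zero])
        (li_pair.2 ⟨hu, hy'⟩)
      rw [hβ, beta_add_right, ← hβ, e1, add_zero] at e2
      rw [hβ, beta_smul_right' hD, ← hβ, e2, smul_zero]
    · exact hswap u x hux (li_pair.2 ⟨hu, hx⟩)
  have hxu : D.f1 x u = 0 := by rw [hD.skew u x, hux, neg_zero]
  set γ₁ := β x u with hγ₁
  set γ₂ := β u x with hγ₂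
  set Z₁ := (slotGL l (Symp.T hD.symp u 1) : Mt) * Z *
    (((slotGL l (Symp.T hD.symp u 1))⁻¹ : GL (Fin t → Fin k) F) : Mt) - Z with hZ₁
  have hZ₁m : Z₁ ∈ B := hsub _ (hconj _ (Symp.T_mem_isom hD.symp u 1) _ hZ) _ hZ
  set Z₂ := (slotGL l (Symp.T hD.symp x 1) : Mt) * Z₁ *
    (((slotGL l (Symp.T hD.symp x 1))⁻¹ : GL (Fin t → Fin k) F) : Mt) - Z₁ with hZ₂
  have hZ₂m : Z₂ ∈ B := hsub _ (hconj _ (Symp.T_mem_isom hD.symp x 1) _ hZ₁m) _ hZ₁m
  have hb₂ : ∀ p q, beta D l Z₂ p q =
      (D.f1 q u * D.f1 p x) • γ₁ + (D.f1 p u * D.f1 q x) • γ₂ := by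
    intro p q
    rw [hZ₂, beta_sub, beta_conj (Symp.T_mem_isom hD.symp x 1), hZ₁, beta_sub, beta_sub,
      beta_conj (Symp.T_mem_isom hD.symp u 1), beta_conj (Symp.T_mem_isom hD.symp u 1)]
    simp only [hTinv, beta_add_left, beta_add_right, beta_smul_left, beta_smul_right' hD,
      D.f1_add_left, D.f1_smul_left, hxu, mul_zero, add_zero, ← hβ, ← hγ₁, ← hγ₂]
    module
  have hfree1 : SlotFree l γ₁ := beta_free Z x u
  by_cases hsum : γ₁ + γ₂ = 0
  · refine ⟨al D x u, γ₁, Or.inr ⟨x, u, hxu, LinearIndependent.pair_symm_iff.1 hli, rfl⟩, hfree1,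
      hne, ?_, fun s hs hsf => beta_free_of_free hs hsf x u⟩
    convert hZ₂m using 1
    refine ext_beta (D := D) (i := l) fun p q => ?_
    rw [hb₂, al, map_sub, sub_mul, beta_sub, beta_rk_mul_free hfree1, beta_rk_mul_free hfree1,
      eq_neg_of_add_eq_zero_right hsum, hD.skew q u, hD.skew q x]
    module
  obtain ⟨hx0, hx'⟩ := li_pair.1 hli
  obtain ⟨a, ha, hau, hax⟩ := hD.exists_isom_pair hli
    (show LinearIndependent F ![u, x + u] from li_pair.2 ⟨hx0, fun hm => hx' (by
      simpa using Submodule.sub_mem _ hm (Submodule.mem_span_singleton_self u))⟩)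
    (by rw [D.f1_add_right, hD.alt, add_zero])
  refine ⟨rk D u u, γ₁ + γ₂, Or.inl ⟨u, hx0, rfl⟩, ?_, hsum, ?_, fun s hs hsf => ?_⟩
  · intro A
    rw [mul_add, add_mul, hfree1, beta_free Z u x]
  · convert hsub _ hZ₂m _ (hconj a ha _ hZ₂m) using 1
    refine ext_beta (D := D) (i := l) fun p q => ?_
    have hinv : ∀ r, D.f1 (ap a⁻¹ r) u = D.f1 r u ∧
        D.f1 (ap a⁻¹ r) x = D.f1 r x + D.f1 r u := fun r => by
      have h1 := CfsgLib.Geometric.mem_isom_iff.mp ha (ap a⁻¹ r) u
      have h2 := CfsgLib.Geometric.mem_isom_iff.mp ha (ap a⁻¹ r) x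
      rw [ap_ap_inv, hau] at h1
      rw [ap_ap_inv, hax, D.f1_add_right] at h2
      exact ⟨h1.symm, h2.symm⟩
    rw [beta_sub, beta_conj ha, hb₂, hb₂, (hinv p).1, (hinv q).1, (hinv p).2, (hinv q).2,
      beta_rk_mul_free (fun A => by rw [mul_add, add_mul, hfree1, beta_free Z u x]), hD.skew q u]
    module
  · intro A
    rw [mul_add, add_mul, beta_free_of_free hs hsf x u, beta_free_of_free hs hsf u x]

end CfsgLib.Geometric.TensorOrth
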