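import Cfsg.Agent.Lib.Geometric.TensorOrth.Grow
import Cfsg.Agent.Lib.Geometric.TensorOrth.Extract

/-!
# Non-scalar corners give long root elements at pure tensors
-/

set_option autoImplicit false
set_option linter.unusedSectionVars false

namespace CfsgLib.Geometric.TensorOrth

open scoped Matrix MatrixGroups
open Matrix CfsgLib.SmallDim Cfsg.Geo CfsgLib.Geometric.TensorForm
open CfsgLib.Geometric.TensorHerm (rk rk_mulVec rk_mul slotGL slotGL_val)

variable {k t : ℕ} {F : Type*} [Field F]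

local notation "Mk" => Matrix (Fin k) (Fin k) F
local notation "Mt" => Matrix (Fin t → Fin k) (Fin t → Fin k) F

variable {M : Subgroup (GL (Fin t → Fin k) F)} {D : Datum k F}

variable (hD : IsAlt D)
include hD

lemma IsRootFac.exists_ofTy (hk : Even k) {R : Mk} (h : IsRootFac D R) :
    ∃ ty, ty ≠ Ty.one ∧ OfTy D ty R ∧ (ty = .A → 4 ≤ k) := by
  rcases h with h | ⟨x, z, h0, hli, hR⟩
  · exact ⟨.N, by decide, h, fun e => by cases e⟩
  refine ⟨.A, by decide, ⟨x, z, h0, hli, hR⟩, fun _ => ?_⟩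
  by_contra h4
  have h1 := hli.fintype_card_le_finrank
  rw [Fintype.card_fin, Module.finrank_fin_fun] at h1
  obtain ⟨r, hr⟩ := hk
  exact (al_two hD (by omega) hli).1 h0

/-- A set closed under differences and factorwise conjugation with a non-scalar element contains a
product of factor operators. -/
theorem exists_product (hk2 : 2 ≤ k) (hk4 : 4 ≤ k ∨ (2 : F) ≠ 0) (hk : Even k)
    {act : Finset (Fin t)} {B : Set (Matrix (Fin t → Fin k) (Fin t → Fin k) F)}
    (hsub : ∀ X ∈ B, ∀ Y ∈ B, X - Y ∈ B)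
    (hconj : ∀ l ∈ act, ∀ a ∈ CfsgLib.Geometric.isom D.f1, ∀ X ∈ B,
      (slotGL l a : Mt) * X * (((slotGL l a)⁻¹ : GL (Fin t → Fin k) F) : Mt) ∈ B)
    (hfree : ∀ X ∈ B, ∀ l ∉ act, SlotFree l X) {Z₀ : Mt} (hZ₀ : Z₀ ∈ B)
    (hns : ¬ ∃ c : F, Z₀ = c • 1) :
    ∃ (τ : Fin t → Ty) (f : Fin t → Mk) (c : F), c ≠ 0 ∧ (∀ l, OfTy D (τ l) (f l)) ∧
      (∀ l ∉ act, τ l = .one) ∧ (∀ l, τ l = .A → 4 ≤ k) ∧ (∃ l, τ l ≠ .one) ∧
      c • pureMat f ∈ B := by
  classical
  have : NeZero k := ⟨by omega⟩
  suffices key : ∀ n, ∀ (τ : Fin t → Ty) (f : Fin t → Mk) (Z : Mt),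
      (Finset.univ.filter fun l => τ l = .one).card = n → (∀ l, OfTy D (τ l) (f l)) →
      (∀ l ∉ act, τ l = .one) → (∀ l, τ l = .A → 4 ≤ k) → Z ≠ 0 →
      (∀ l, τ l ≠ .one ∨ l ∉ act → SlotFree l Z) →
      ((∃ l, τ l ≠ .one) ∨ ¬ ∃ c : F, Z = c • 1) → pureMat f * Z ∈ B →
      ∃ (τ : Fin t → Ty) (f : Fin t → Mk) (c : F), c ≠ 0 ∧ (∀ l, OfTy D (τ l) (f l)) ∧
        (∀ l ∉ act, τ l = .one) ∧ (∀ l, τ l = .A → 4 ≤ k) ∧ (∃ l, τ l ≠ .one) ∧
        c • pureMat f ∈ B by
    refine key _ (fun _ => .one) 1 Z₀ rfl (fun _ => rfl) (fun _ _ => rfl) (fun _ h => by cases h)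
      (fun h => hns ⟨0, by rw [h, zero_smul]⟩)
      (fun l hl => hfree _ hZ₀ l (hl.resolve_left fun h => h rfl)) (Or.inr hns) ?_
    rwa [pureMat_one, one_mul]
  intro n
  induction n using Nat.strong_induction_on with
  | _ n ih =>
    intro τ f Z hn hf hout hA hZ0 hfreeZ hne hmem
    by_cases hall : ∀ l, SlotFree l Z
    · obtain ⟨c, rfl⟩ := eq_scalar_of_slotFree hall
      refine ⟨τ, f, c, fun h => hZ0 (by rw [h, zero_smul]), hf, hout, hA,
        hne.resolve_right fun h => h ⟨c, rfl⟩, ?_⟩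
      rwa [Matrix.mul_smul, mul_one] at hmem
    push Not at hall
    obtain ⟨l, hl⟩ := hall
    have hτl : τ l = .one := by
      by_contra h
      exact hl (hfreeZ l (Or.inl h))
    have hlact : l ∈ act := by
      by_contra h
      exact hl (hfreeZ l (Or.inr h))
    have hfl : f l = 1 := by have := hf l; rwa [hτl] at this
    have hpl : SlotFree l (pureMat f) := SlotFree.pureMat hfl
    set B' : Set Mt := {Y | pureMat f * Y ∈ B ∧ ∀ m, τ m ≠ .one ∨ m ∉ act → SlotFree m Y} with hB'
    have hB'sub : ∀ X ∈ B', ∀ Y ∈ B', X - Y ∈ B' := fun X hX Y hY =>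
      ⟨by rw [mul_sub]; exact hsub _ hX.1 _ hY.1, fun m hm => (hX.2 m hm).sub (hY.2 m hm)⟩
    have hB'conj : ∀ a ∈ CfsgLib.Geometric.isom D.f1, ∀ X ∈ B',
        (slotGL l a : Mt) * X * (((slotGL l a)⁻¹ : GL (Fin t → Fin k) F) : Mt) ∈ B' := by
      intro a ha X hX
      constructor
      · have := hconj l hlact a ha _ hX.1
        rw [← mul_assoc, slotGL_val, hpl] at this
        rwa [← mul_assoc, ← mul_assoc, slotGL_val]
        
      · intro m hm
        have hml : m ≠ l := fun e => by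
          subst e
          rcases hm with h | h
          exacts [h hτl, h hlact]
        rw [← map_inv, slotGL_val, slotGL_val]
        exact ((SlotFree.slot hml _).mul (hX.2 m hm)).mul (SlotFree.slot hml _)
    obtain ⟨R, Z', hR, hZ'l, hZ'0, hZ'mem, hZ'free⟩ :=
      exists_extract hD hk2 hk4 hB'sub hB'conj (show Z ∈ B' from ⟨hmem, hfreeZ⟩) hl
    obtain ⟨ty, hty, hRty, hR4⟩ := hR.exists_ofTy hD hk
    refine ih _ ?_ (Function.update τ l ty) (Function.update f l R) Z' rfl (fun m => ?_)
      (fun m hm => ?_) (fun m hm => ?_) hZ'0 (fun m hm => ?_) (Or.inl ⟨l, by simp [hty]⟩) ?_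
    · rw [← hn]
      refine Finset.card_lt_card (Finset.ssubset_iff_of_subset (fun m hm => ?_) |>.2
        ⟨l, by simp [hτl], by simp [hty]⟩)
      simp only [Finset.mem_filter, Finset.mem_univ, true_and] at hm ⊢
      by_cases h : m = l
      · subst h; exact hτl
      · rwa [Function.update_of_ne h] at hm
    · by_cases h : m = l
      · subst h; simpa using hRty
      · simpa [Function.update_of_ne h] using hf m
    · rw [Function.update_of_ne (show m ≠ l from fun e => hm (e ▸ hlact))]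
      exact hout m hm
    · by_cases h : m = l
      · subst h; exact hR4 (by simpa using hm)
      · exact hA m (by simpa [Function.update_of_ne h] using hm)
    · by_cases h : m = l
      · subst h; exact hZ'l
      · exact hZ'free m h (hfreeZ m (by simpa [Function.update_of_ne h] using hm))
    · have h1 := hZ'mem.1
      rwa [← mul_assoc, pureMat_mul_slot, hfl, one_mul] at h1

variable (hM : Over D M)
include hM

/-- Either a long root element at pure tensors, or all corners are scalar. -/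
theorem hasPure_or_noCorner [Finite F] (hk2 : 2 ≤ k) (hk : Even k)
    (hch : (2 : F) = 0 ∧ 6 ≤ k ∨ (2 : F) ≠ 0 ∧ Even t) (ht : 2 ≤ t) :
    HasPure D M ∨ NoCorner D M := by
  classical
  refine or_iff_not_imp_right.2 fun h => ?_
  simp only [NoCorner, not_forall] at h
  obtain ⟨i, R, Z, hR, hZf, hG, hne⟩ := h
  obtain ⟨ty, hty, hRty, hR4⟩ := hR.exists_ofTy hD hk
  have hsq : R * R = 0 := OfTy.sq hD hty hRty
  set B : Set Mt := {Y | SlotFree i Y ∧ Good M (slot i R * Y)} with hB
  have hns : ¬ ∃ c : F, Z = c • 1 := fun ⟨c, hc⟩ => hne ⟨c, by rw [hc, Matrix.mul_smul, mul_one]⟩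
  obtain ⟨τ, f, c, hc, hf, hout, hA, ⟨l, hl⟩, -, hgood⟩ :=
    exists_product hD hk2 (hch.imp (fun h => by omega) And.left) hk
      (act := Finset.univ.erase i) (B := B)
      (fun X hX Y hY => ⟨hX.1.sub hY.1, by
        exact good_sub_corner hsq hX.1 hY.1 hX.2 hY.2⟩)
      (fun l hl a ha X hX => by
        have hil : i ≠ l := (Finset.mem_erase.1 hl).1.symm
        refine ⟨?_, ?_⟩
        · rw [← map_inv, slotGL_val, slotGL_val]
          exact ((SlotFree.slot hil _).mul hX.1).mul (SlotFree.slot hil _)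
        · have := Good.slot_conj hM hX.2 l ha
          rwa [← mul_assoc, slotGL_val, slot_commute hil.symm, mul_assoc (slot i R), ← slotGL_val,
            mul_assoc (slot i R)] at this)
      (fun X hX m hm => by
        simp only [Finset.mem_erase, Finset.mem_univ, and_true, not_not] at hm
        exact hm ▸ hX.1)
      (show Z ∈ B from ⟨hZf, hG⟩) hns
  have hfi : f i = 1 := by have := hf i; rwa [hout i (by simp)] at this
  rw [Matrix.mul_smul, slot_mul_pureMat, hfi, mul_one] at hgood
  have hτi : τ i = .one := hout i (by simp)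
  have hli : l ≠ i := fun e => hl (e ▸ hτi)
  refine hasPure_of_has hD hM hk2 hk hch ht (τ := Function.update τ i ty)
    (has_of_good hD hM (fun m => ?_) (i := i) (by simpa using hty) hc hgood) (fun m hm => ?_)
    (a := i) (b := l) hli.symm (by simpa using hty) (by simpa [Function.update_of_ne hli] using hl)
  · by_cases h : m = i
    · subst h; simpa using hRty
    · simpa [Function.update_of_ne h] using hf m
  · by_cases h : m = i
    · subst h; exact hR4 (by simpa using hm)
    · exact hA m (by simpa [Function.update_of_ne h] using hm)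

end CfsgLib.Geometric.TensorOrth
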