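import Cfsg.Agent.Lib.Geometric.TensorOrth.Closed
import Cfsg.Agent.Lib.Geometric.TensorHerm.Extract
import Cfsg.Agent.Lib.Geometric.SympAlgebra

/-!
# Root elements of slices

An isometry carrying a slice to a slice carries the root operators of the first to operators in the
corner of the root operator of the second; without proper corners, elements fixing a totally
isotropic plane slice carry slices in it to slices.
-/

set_option autoImplicit false
set_option linter.unusedSectionVars false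
set_option linter.unusedSimpArgs false

namespace CfsgLib.Geometric.TensorOrth

open scoped Matrix MatrixGroups
open Matrix CfsgLib.SmallDim Cfsg.Geo CfsgLib.Geometric.TensorForm
open CfsgLib.Geometric.TensorHerm (rk rk_mulVec rk_mul slotGL slotGL_val beta beta_free
  rk_add_left rk_add_right rk_smul_left)

variable {k t : ℕ} {F : Type*} [Field F]

local notation "Mk" => Matrix (Fin k) (Fin k) F
local notation "Mt" => Matrix (Fin t → Fin k) (Fin t → Fin k) F

namespace Rad

/-- Conjugation of an operator by a unit. -/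
def cj (g : GL (Fin t → Fin k) F) (X : Matrix (Fin t → Fin k) (Fin t → Fin k) F) :
    Matrix (Fin t → Fin k) (Fin t → Fin k) F :=
  (g : Mt) * X * ((g⁻¹ : GL (Fin t → Fin k) F) : Mt)

lemma cj_add (g : GL (Fin t → Fin k) F) (X Y : Mt) : cj g (X + Y) = cj g X + cj g Y := by
  simp [cj, mul_add, add_mul]

lemma cj_sub (g : GL (Fin t → Fin k) F) (X Y : Mt) : cj g (X - Y) = cj g X - cj g Y := by
  simp [cj, mul_sub, sub_mul]

lemma cj_mul (g : GL (Fin t → Fin k) F) (X Y : Mt) : cj g (X * Y) = cj g X * cj g Y := by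
  simp only [cj, mul_assoc]
  rw [← mul_assoc ((g⁻¹ : GL (Fin t → Fin k) F) : Mt) (g : Mt), Units.inv_mul, one_mul]

lemma cj_smul (g : GL (Fin t → Fin k) F) (c : F) (X : Mt) : cj g (c • X) = c • cj g X := by
  simp [cj, Matrix.mul_smul, Matrix.smul_mul]

lemma cj_one (g : GL (Fin t → Fin k) F) : cj g (1 : Mt) = 1 := by simp [cj]

lemma cj_cj (g g' : GL (Fin t → Fin k) F) (X : Mt) : cj g (cj g' X) = cj (g * g') X := by
  simp [cj, _root_.mul_inv_rev, mul_assoc]

lemma cj_free {l : Fin t} {a : GL (Fin k) F} {Z : Mt} (hZ : SlotFree l Z) :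
    cj (slotGL l a) Z = Z := by
  rw [cj, slotGL_val, hZ, ← slotGL_val, mul_assoc, Units.mul_inv, mul_one]

lemma cj_slot (l : Fin t) (a : GL (Fin k) F) (R : Mk) :
    cj (slotGL l a) (slot l R) = slot l ((a : Mk) * R * ((a⁻¹ : GL (Fin k) F) : Mk)) := by
  rw [cj, ← map_inv, slotGL_val, slotGL_val, map_mul, map_mul]

lemma cj_slot_ne {i l : Fin t} (h : i ≠ l) (a : GL (Fin k) F) (R : Mk) :
    cj (slotGL l a) (slot i R) = slot i R :=
  cj_free fun A => slot_commute (Ne.symm h) A R

lemma free_cj {i l : Fin t} (h : i ≠ l) (a : GL (Fin k) F) {Z : Mt} (hZ : SlotFree i Z) :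
    SlotFree i (cj (slotGL l a) Z) := by
  have h1 : SlotFree i (slotGL l a : Mt) := by rw [slotGL_val]; exact SlotFree.slot h _
  have h2 : SlotFree i (((slotGL l a)⁻¹ : GL (Fin t → Fin k) F) : Mt) := by
    rw [← map_inv, slotGL_val]; exact SlotFree.slot h _
  exact (h1.mul hZ).mul h2

lemma corner_mul {i : Fin t} (R R' : Mk) {C : Mt} (C' : Mt) (hC : SlotFree i C) :
    slot i R * C * (slot i R' * C') = slot i (R * R') * (C * C') := by
  rw [map_mul, mul_assoc (slot i R) C, ← mul_assoc C, ← hC]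
  simp only [mul_assoc]

lemma slot_mulVec_ten (i : Fin t) (A : Mk) (v : Fin k → F) (y : TPow.Rest i k → F) :
    slot i A *ᵥ TPow.ten i v y = TPow.ten i (A *ᵥ v) y := by
  have h : (Matrix.mulVecLin (slot i A)).comp (TPow.ten i v) = TPow.ten i (A *ᵥ v) := by
    refine LinearMap.pi_ext' fun r => LinearMap.ext_ring ?_
    simp only [LinearMap.comp_apply, LinearMap.single_apply, Matrix.mulVecLin_apply]
    rw [TPow.ten_single, TPow.ten_single]
    show slot i A *ᵥ pureTensorVec _ = pureTensorVec _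
    rw [slot_mulVec]
    congr 1
    funext l
    by_cases hl : l = i
    · subst hl; simp
    · simp [Function.update_of_ne hl, hl]
  exact LinearMap.congr_fun h y

lemma mulVec_mem_of_range {i : Fin t} {A : Mk} {v : Fin k → F}
    (h : ∀ a, ∃ c : F, A *ᵥ a = c • v) (z : (Fin t → Fin k) → F) :
    slot i A *ᵥ z ∈ TPow.slice i v := by
  rw [TPow.eq_sum_ten i z, Matrix.mulVec_sum]
  refine Submodule.sum_mem _ fun a _ => ?_
  obtain ⟨c, hc⟩ := h (Pi.single a 1)
  rw [slot_mulVec_ten, hc, TPow.ten_smul_left, ← map_smul]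
  exact TPow.ten_mem_slice _ _ _

lemma slot_fix {i : Fin t} {A : Mk} {u : Fin k → F} (h : A *ᵥ u = u)
    {z : (Fin t → Fin k) → F} (hz : z ∈ TPow.slice i u) : slot i A *ᵥ z = z := by
  obtain ⟨y, rfl⟩ := hz
  rw [slot_mulVec_ten, h]

variable {D : Datum k F}

lemma gram_cancel {X Y : Mt} (h : D.gram t * X = D.gram t * Y) : X = Y := by
  have hu := isUnit_iff_ne_zero.mpr (D.gram_det (t := t))
  calc X = ((D.gram t)⁻¹ * D.gram t) * X := by rw [Matrix.nonsing_inv_mul _ hu, one_mul]
    _ = ((D.gram t)⁻¹ * D.gram t) * Y := by rw [mul_assoc, h, ← mul_assoc]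
    _ = Y := by rw [Matrix.nonsing_inv_mul _ hu, one_mul]

lemma slot_adj {i : Fin t} {A A' : Mk} (h : Aᵀ * D.J = D.J * A') :
    (slot i A)ᵀ * D.gram t = D.gram t * slot i A' := by
  rw [slot_transpose, slot_apply, slot_apply, Datum.gram, ← pureMat_mul, ← pureMat_mul]
  congr 1
  funext j
  by_cases hj : j = i
  · subst hj; simpa using h
  · simp [Pi.mulSingle_eq_of_ne hj]

section
variable (hD : IsAlt D)
include hD

lemma map_id (A : Mt) : A.map D.σ = A := by
  rw [hD.id]; ext; rfl

lemma rk_adj (u w : Fin k → F) : (rk D u w)ᵀ * D.J = D.J * (-rk D w u) := by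
  have hc : ∀ v : Fin k → F, D.σ ∘ v = v := fun v => by rw [hD.id]; rfl
  have hJ : D.Jᵀ = -D.J := by
    rw [D.skew, hD.id]; rfl
  rw [mul_neg, rk, rk, hc, hc, Matrix.transpose_vecMulVec, Matrix.vecMulVec_mul,
    Matrix.mul_vecMulVec, ← Matrix.mulVec_transpose, hJ, Matrix.neg_mulVec, Matrix.vecMulVec_neg]

/-- A skew-adjoint operator fixed by a rank two projection on the left is fixed by its adjoint on
the right. -/
lemma eq_sandwich {X P P' : Mt} (hX : Xᵀ * D.gram t = -(D.gram t * X))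
    (hP : P * X = X) (hP' : Pᵀ * D.gram t = D.gram t * P') : P * X * P' = X := by
  have h1 : D.gram t * (X * P') = D.gram t * X := by
    have e : Xᵀ * Pᵀ * D.gram t = Xᵀ * D.gram t := by rw [← Matrix.transpose_mul, hP]
    rw [mul_assoc, hP', ← mul_assoc, hX, neg_mul, mul_assoc] at e
    exact neg_injective e
  rw [hP, gram_cancel h1]

lemma skew_cj {g : GL (Fin t → Fin k) F} (hg : g ∈ D.isom t) {Y : Mt}
    (hY : Yᵀ * D.gram t = -(D.gram t * Y)) : (cj g Y)ᵀ * D.gram t = -(D.gram t * cj g Y) := by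
  have hgg : (g : Mt)ᵀ * D.gram t * (g : Mt) = D.gram t := by
    have := D.mem_isom.mp hg
    rwa [map_id hD] at this
  have h1 : (g : Mt)ᵀ * D.gram t = D.gram t * ((g⁻¹ : GL (Fin t → Fin k) F) : Mt) := by
    calc (g : Mt)ᵀ * D.gram t
        = (g : Mt)ᵀ * D.gram t * ((g : Mt) * ((g⁻¹ : GL (Fin t → Fin k) F) : Mt)) := by
          rw [Units.mul_inv, mul_one]
      _ = _ := by rw [← mul_assoc, hgg]
  have hgi : ((g⁻¹ : GL (Fin t → Fin k) F) : Mt)ᵀ * D.gram t *
      ((g⁻¹ : GL (Fin t → Fin k) F) : Mt) = D.gram t := by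
    have := D.mem_isom.mp (inv_mem hg)
    rwa [map_id hD] at this
  have h2 : ((g⁻¹ : GL (Fin t → Fin k) F) : Mt)ᵀ * D.gram t = D.gram t * (g : Mt) := by
    calc ((g⁻¹ : GL (Fin t → Fin k) F) : Mt)ᵀ * D.gram t
        = ((g⁻¹ : GL (Fin t → Fin k) F) : Mt)ᵀ * D.gram t *
            (((g⁻¹ : GL (Fin t → Fin k) F) : Mt) * (g : Mt)) := by rw [Units.inv_mul, mul_one]
      _ = _ := by rw [← mul_assoc, hgi]
  rw [cj, Matrix.transpose_mul, Matrix.transpose_mul, mul_assoc, mul_assoc, h1, ← mul_assoc Yᵀ,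
    hY, neg_mul, mul_neg, ← mul_assoc, ← mul_assoc, h2]
  simp only [mul_assoc]

lemma skew_root (i : Fin t) (c : F) (u : Fin k → F) :
    (slot i (c • rk D u u))ᵀ * D.gram t = -(D.gram t * slot i (c • rk D u u)) := by
  have h := D.nilSlot_skew i u
  rw [Datum.IsSkew, map_id hD] at h
  rw [map_smul, Matrix.transpose_smul, Matrix.smul_mul, Matrix.mul_smul, ← smul_neg]
  exact congrArg _ h

lemma exists_dual {x : Fin k → F} {U : Submodule F (Fin k → F)} (hx : x ∉ U) :
    ∃ w, D.f1 x w = 1 ∧ ∀ u ∈ U, D.f1 u w = 0 := by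
  obtain ⟨p, hp, h1⟩ := Symp.exists_perp_one hD.symp hx
  exact ⟨p, h1, fun u hu => (Symp.eq_zero_comm hD.symp).mp ((Symp.mem_perp hD.symp).mp hp u hu)⟩

/-- Room outside a plane in the orthogonal of two vectors. -/
lemma exists_outside (hk : 6 ≤ k) (x z : Fin k → F) :
    ∃ y, D.f1 y x = 0 ∧ D.f1 y z = 0 ∧
      y ∉ Submodule.span F {x} ⊔ Submodule.span F {z} := by
  by_contra hc
  push Not at hc
  let φ : (Fin k → F) →ₗ[F] F × F :=
    { toFun := fun y => (D.f1 y x, D.f1 y z)
      map_add' := fun a b => by simp [D.f1_add_left]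
      map_smul' := fun c a => by simp [D.f1_smul_left] }
  have h1 : LinearMap.ker φ ≤ Submodule.span F {x} ⊔ Submodule.span F {z} := fun y hy => by
    have hy' := LinearMap.mem_ker.mp hy
    exact hc y (congrArg Prod.fst hy') (congrArg Prod.snd hy')
  have h2 := Submodule.finrank_mono h1
  have h3 : Module.finrank F ↥(Submodule.span F {x} ⊔ Submodule.span F {z}) ≤ 2 := by
    refine (Submodule.finrank_add_le_finrank_add_finrank _ _).trans ?_
    have : ∀ w : Fin k → F, Module.finrank F ↥(Submodule.span F {w}) ≤ 1 := fun w => by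
      by_cases hw : w = 0
      · subst hw; rw [Submodule.span_singleton_eq_bot.mpr rfl, finrank_bot]; exact Nat.zero_le 1
      · rw [finrank_span_singleton hw]
    exact add_le_add (this x) (this z)
  have h4 := φ.finrank_range_add_finrank_ker
  have h5 := Submodule.finrank_le (LinearMap.range φ)
  rw [Module.finrank_fintype_fun_eq_card, Fintype.card_fin] at h4
  rw [Module.finrank_prod, Module.finrank_self] at h5
  omega

omit hD in
lemma pair_of_notMem {x y : Fin k → F} (hx : x ≠ 0) (hy : y ∉ Submodule.span F {x}) :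
    LinearIndependent F ![x, y] := by
  refine (LinearIndependent.pair_iff' hx).mpr fun a e => hy ?_
  rw [← e]
  exact Submodule.smul_mem _ _ (Submodule.mem_span_singleton_self x)

lemma al_ne_zero {x y : Fin k → F} (h : LinearIndependent F ![x, y]) : al D x y ≠ 0 := by
  have hx : x ≠ 0 := h.ne_zero 0
  have hy : y ∉ Submodule.span F {x} := fun hm => by
    obtain ⟨a, ha⟩ := Submodule.mem_span_singleton.mp hm
    exact (LinearIndependent.pair_iff' hx).mp h a ha
  obtain ⟨w, hw, hw0⟩ := exists_dual hD hy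
  intro e
  have := congrArg (· *ᵥ w) e
  simp only [hD.al_mulVec, Matrix.zero_mulVec, hD.skew y w, hw,
    hD.skew x w, hw0 x (Submodule.mem_span_singleton_self x)] at this
  simp [hx] at this

end

/-! ## The elements of one factor in the group -/

variable {act : Finset (Fin t)} {M : Subgroup (GL (Fin t → Fin k) F)}

lemma good_cj (hM : OverOn D act M) {l : Fin t} (hl : l ∈ act) {a : GL (Fin k) F}
    (ha : a ∈ CfsgLib.Geometric.isom D.f1) {X : Mt} (h : Good M X) :
    Good M (cj (slotGL l a) X) :=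
  Good.conj h (hM.slot_mem l hl a ha)

lemma good_diff {X Y : Mt} (hX : Good M X) (hY : Good M Y) (h1 : X * Y = 0) (h2 : Y * X = 0) :
    Good M (Y - X) := by
  rw [sub_eq_add_neg]
  exact hY.add hX.neg (by rw [mul_neg, h2, neg_zero]) (by rw [neg_mul, h1, neg_zero])

lemma good_rk_on (hD : IsAlt D) (hM : OverOn D act M) {l : Fin t} (hl : l ∈ act)
    (u : Fin k → F) (c : F) : Good M (c • slot l (rk D u u)) := by
  refine ⟨Datum.smul_sq (by rw [← map_mul, hD.rk_self_mul, map_zero]) c,
    slotGL l (Symp.T hD.symp u c), hM.slot_mem l hl _ (Symp.T_mem_isom hD.symp u c), ?_⟩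
  rw [slotGL_val, hD.T_val, map_add, map_one, map_smul]

lemma exists_al (hD : IsAlt D) (h2 : (2 : F) = 0) {u w : Fin k → F} (h : D.f1 u w = 0) :
    ∃ a ∈ CfsgLib.Geometric.isom D.f1, (a : Mk) = 1 + al D u w ∧
      ∀ p, ap a p = p + (D.f1 p w • u - D.f1 p u • w) := by
  obtain ⟨a, ha, hav⟩ := hD.exists_isom_one_add (hD.al_sq h) fun x y => by
    simp only [hD.al_mulVec, D.f1_add_left, D.f1_add_right, D.f1_smul_left,
      hD.smul_right, sub_eq_add_neg, ← neg_one_smul F (D.f1 _ _ • (_ : Fin k → F)), hD.alt, h,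
      hD.skew u w, neg_zero, mul_zero, add_zero]
    rw [hD.skew y u, hD.skew y w]
    linear_combination (D.f1 y w * D.f1 x u - D.f1 x w * D.f1 y u) * h2
  exact ⟨a, ha, hav, fun p => by rw [ap_def, hav, Matrix.add_mulVec, Matrix.one_mulVec, hD.al_mulVec]⟩

lemma add_self_eq_zero (h2 : (2 : F) = 0) {V : Type*} [AddCommGroup V] [Module F V] (v : V) :
    v + v = 0 := by
  rw [← two_smul F, h2, zero_smul]

lemma al_eq_add (h2 : (2 : F) = 0) (u w : Fin k → F) : al D u w = rk D u w + rk D w u := by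
  rw [al, sub_eq_add_neg, neg_eq_of_add_eq_zero_right (add_self_eq_zero h2 _)]

lemma cj_rk (hD : IsAlt D) {i : Fin t} {a : GL (Fin k) F}
    (ha : a ∈ CfsgLib.Geometric.isom D.f1) (p q : Fin k → F) {C : Mt} (hC : SlotFree i C) :
    cj (slotGL i a) (slot i (rk D p q) * C) = slot i (rk D (ap a p) (ap a q)) * C := by
  rw [cj_mul, cj_slot, hD.conj_rk ha, cj_free hC]

lemma corner_scalar (hN : NoCorner D M) {i : Fin t} {R : Mk} (hR : IsRootFac D R) (hR0 : R ≠ 0)
    {Z : Mt} (hZ : SlotFree i Z) (h : Good M (slot i R * Z)) : ∃ c : F, Z = c • 1 := by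
  obtain ⟨c, hc⟩ := hN i R Z hR hZ h
  refine ⟨c, sub_eq_zero.mp (SlotFree.eq_zero (j := i) ?_ hR0 ?_)⟩
  · intro A
    rw [mul_sub, sub_mul, hZ, Matrix.mul_smul, Matrix.smul_mul, mul_one, one_mul]
  · rw [mul_sub, hc, Matrix.mul_smul, mul_one, sub_self]

/-- The operators of a plane `x, z` in the position `i`. -/
def planeOp (D : Datum k F) (i : Fin t) (x z : Fin k → F)
    (C₁ C₁₂ C₂₁ C₂ : Matrix (Fin t → Fin k) (Fin t → Fin k) F) :
    Matrix (Fin t → Fin k) (Fin t → Fin k) F :=
  slot i (rk D x x) * C₁ + slot i (rk D x z) * C₁₂ + slot i (rk D z x) * C₂₁ +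
    slot i (rk D z z) * C₂

/-- Two of the coefficients of a good operator of a plane are scalars. -/
lemma plane_step (hD : IsAlt D) (h2 : (2 : F) = 0) (hM : OverOn D act M) (hN : NoCorner D M)
    {i : Fin t} (hi : i ∈ act) {x z y wx wz : Fin k → F} (hxz : D.f1 x z = 0)
    (hyx : D.f1 y x = 0) (hyz : D.f1 y z = 0) (hind : LinearIndependent F ![x, z])
    (hzy : LinearIndependent F ![z, y])
    (hx1 : D.f1 x wx = 1) (hzx : D.f1 z wx = 0) (hyx' : D.f1 y wx = 0)
    (hz1 : D.f1 z wz = 1) (hxz' : D.f1 x wz = 0) (hyz' : D.f1 y wz = 0)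
    {C₁ C₁₂ C₂₁ C₂ : Mt} (f₁ : SlotFree i C₁) (f₁₂ : SlotFree i C₁₂) (f₂₁ : SlotFree i C₂₁)
    (f₂ : SlotFree i C₂) (h : Good M (planeOp D i x z C₁ C₁₂ C₂₁ C₂)) :
    (∃ c : F, C₂ = c • 1) ∧ ∃ d : F, C₁₂ + C₂₁ + C₂ = d • 1 := by
  have hzx0 : D.f1 z x = 0 := by rw [hD.skew x z, hxz, neg_zero]
  have hxy : D.f1 x y = 0 := by rw [hD.skew y x, hyx, neg_zero]
  have hzy0 : D.f1 z y = 0 := by rw [hD.skew y z, hyz, neg_zero]
  obtain ⟨a, ha, -, hap⟩ := exists_al hD h2 hxz'
  obtain ⟨b, hb, -, hbp⟩ := exists_al hD h2 hzx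
  obtain ⟨c, hc, -, hcp⟩ := exists_al hD h2 hyz'
  have ax : ap a x = x := by rw [hap, hxz', hD.alt]; simp
  have az : ap a z = z + x := by rw [hap, hz1, hzx0]; simp
  have bx : ap b x = x + z := by rw [hbp, hx1, hxz]; simp
  have bz : ap b z = z := by rw [hbp, hzx, hD.alt]; simp
  have bY : ap b y = y := by rw [hbp, hyx', hyz]; simp
  have cx : ap c x = x := by rw [hcp, hxz', hxy]; simp
  have cz : ap c z = z + y := by rw [hcp, hz1, hzy0]; simp
  have hf := fun A B : Mk => fun (C C' : Mt) (hC : SlotFree i C) => corner_mul A B C' hC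
  set E := C₁₂ + C₂₁ + C₂ with hE
  have fE : SlotFree i E := fun A => by
    simp only [hE, mul_add, add_mul, f₁₂ A, f₂₁ A, f₂ A]
  -- first difference
  have h₁ : Good M (slot i (rk D x x) * E + slot i (rk D x z) * C₂ + slot i (rk D z x) * C₂) := by
    have := good_diff h (good_cj hM hi ha h) ?_ ?_
    · convert this using 1
      simp only [planeOp, cj_add, cj_rk hD ha _ _ f₁, cj_rk hD ha _ _ f₁₂, cj_rk hD ha _ _ f₂₁,
        cj_rk hD ha _ _ f₂, ax, az, rk_add_left, rk_add_right, map_add, add_mul, hE, mul_add]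
      module
    all_goals simp only [planeOp, cj_add, cj_rk hD ha _ _ f₁, cj_rk hD ha _ _ f₁₂,
        cj_rk hD ha _ _ f₂₁, cj_rk hD ha _ _ f₂, ax, az, rk_add_left, rk_add_right, map_add,
        add_mul, mul_add, hf _ _ _ _ f₁, hf _ _ _ _ f₁₂, hf _ _ _ _ f₂₁, hf _ _ _ _ f₂, rk_mul,
        hD.alt, hxz, hzx0, map_zero, zero_smul, zero_mul, add_zero]
  -- second difference
  have h₂ : Good M (slot i (rk D x z) * E + slot i (rk D z x) * E + slot i (rk D z z) * E) := by
    have := good_diff h₁ (good_cj hM hi hb h₁) ?_ ?_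
    · convert this using 1
      simp only [cj_add, cj_rk hD hb _ _ fE, cj_rk hD hb _ _ f₂, bx, bz, rk_add_left,
        rk_add_right, map_add, add_mul]
      rw [← sub_eq_zero]
      abel_nf
      rw [neg_smul, two_zsmul, add_self_eq_zero h2, neg_zero]
    all_goals simp only [cj_add, cj_rk hD hb _ _ fE, cj_rk hD hb _ _ f₂, bx, bz, rk_add_left,
        rk_add_right, map_add, add_mul, mul_add, hf _ _ _ _ fE, hf _ _ _ _ f₂, rk_mul, hD.alt,
        hxz, hzx0, map_zero, zero_smul, zero_mul, add_zero]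
  -- third difference
  have h₃ : Good M (slot i (rk D x y) * E + slot i (rk D y x) * E + slot i (rk D z y) * E +
      slot i (rk D y z) * E + slot i (rk D y y) * E) := by
    have := good_diff h₂ (good_cj hM hi hc h₂) ?_ ?_
    · convert this using 1
      simp only [cj_add, cj_rk hD hc _ _ fE, cx, cz, rk_add_left, rk_add_right, map_add, add_mul]
      module
    all_goals simp only [cj_add, cj_rk hD hc _ _ fE, cx, cz, rk_add_left, rk_add_right, map_add,
        add_mul, mul_add, hf _ _ _ _ fE, rk_mul, hD.alt, hxz, hzx0, hyx, hyz, hxy, hzy0,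
        map_zero, zero_smul, zero_mul, add_zero]
  -- fourth difference
  have h₄ : Good M (slot i (al D z y) * E) := by
    have := good_diff h₃ (good_cj hM hi hb h₃) ?_ ?_
    · convert this using 1
      simp only [al_eq_add h2, cj_add, cj_rk hD hb _ _ fE, bx, bz, bY, rk_add_left, rk_add_right,
        map_add, add_mul]
      module
    all_goals simp only [cj_add, cj_rk hD hb _ _ fE, bx, bz, bY, rk_add_left, rk_add_right,
        map_add, add_mul, mul_add, hf _ _ _ _ fE, rk_mul, hD.alt, hxz, hzx0, hyx, hyz, hxy, hzy0,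
        map_zero, zero_smul, zero_mul, add_zero]
  obtain ⟨d, hd⟩ :=
    corner_scalar hN (Or.inr ⟨z, y, hzy0, hzy, rfl⟩) (al_ne_zero hD hzy) fE h₄
  refine ⟨?_, d, hd⟩
  have h₅ : Good M (slot i (al D x z) * C₂) := by
    have hsm : ∀ R : Mk, slot i R * (d • (1 : Mt)) = d • slot i R := fun R => by
      rw [Matrix.mul_smul, mul_one]
    have := good_diff (good_rk_on hD hM hi x d) h₁ ?_ ?_
    · convert this using 1
      rw [hd, hsm, al_eq_add h2, map_add, add_mul]
      abel
    · rw [hd, hsm, mul_add, mul_add]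
      simp only [Matrix.smul_mul, Matrix.mul_smul, ← mul_assoc, ← map_mul, rk_mul, hD.alt, hxz,
        hzx0, zero_smul, map_zero, zero_mul, smul_zero, add_zero]
    · rw [← hsm (rk D x x), hd]
      simp only [add_mul, hf _ _ _ _ (hd ▸ fE), hf _ _ _ _ f₂, rk_mul, hD.alt, hxz, hzx0,
        zero_smul, map_zero, zero_mul, add_zero]
  exact corner_scalar hN (Or.inr ⟨x, z, hxz, hind, rfl⟩) (al_ne_zero hD hind) f₂ h₅

/-- An operator commuting with all `al v z` of a factor is free of it. -/
lemma slotFree_of_al (hD : IsAlt D) (hk : 6 ≤ k) {l : Fin t} {C : Mt}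
    (h : ∀ v z, D.f1 v z = 0 → LinearIndependent F ![v, z] →
      slot l (al D v z) * C = C * slot l (al D v z)) : SlotFree l C := by
  have h1 : ∀ z, slot l (rk D z z) * C = C * slot l (rk D z z) := by
    intro z
    by_cases hz : z = 0
    · subst hz; simp [TensorHerm.rk_zero_left]
    obtain ⟨v, hvz, -, hv⟩ := exists_outside hD hk z z
    have hv' : v ∉ Submodule.span F {z} := fun e => hv (Submodule.mem_sup_left e)
    obtain ⟨p, hp, hp0⟩ := exists_dual hD hv'
    have hzp : D.f1 z p = 0 := hp0 z (Submodule.mem_span_singleton_self z)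
    have hzv : D.f1 z v = 0 := by rw [hD.skew v z, hvz, neg_zero]
    have hpz : D.f1 p z = 0 := by rw [hD.skew z p, hzp, neg_zero]
    have hpv : D.f1 p v = -1 := by rw [hD.skew v p, hp]
    have e : slot l (rk D z z) = -(slot l (al D v z) * slot l (al D z p)) := by
      rw [← map_mul, ← map_neg]
      simp only [al, sub_mul, mul_sub, rk_mul, hD.alt, hpz, hzv, hpv, zero_smul]
      simp
    have hvi : LinearIndependent F ![v, z] :=
      LinearIndependent.pair_symm_iff.mp (pair_of_notMem hz hv')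
    have hpi : LinearIndependent F ![z, p] := pair_of_notMem hz fun hm => by
      obtain ⟨s, rfl⟩ := Submodule.mem_span_singleton.mp hm
      rw [D.f1_smul_left, hzv, mul_zero] at hpv
      exact one_ne_zero (neg_eq_zero.mp hpv.symm)
    rw [e, neg_mul, mul_neg, mul_assoc, h z p hzp hpi, ← mul_assoc, h v z hvz hvi, mul_assoc]
  have h2 : ∀ a b, D.f1 b a ≠ 0 → slot l (rk D a b) * C = C * slot l (rk D a b) := by
    intro a b hab
    have e : slot l (rk D a b) = (D.f1 b a)⁻¹ • (slot l (rk D a a) * slot l (rk D b b)) := by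
      rw [← map_mul, rk_mul, map_smul, smul_smul, inv_mul_cancel₀ hab, one_smul]
    rw [e, Matrix.smul_mul, Matrix.mul_smul, mul_assoc, h1, ← mul_assoc, h1, mul_assoc]
  have h3 : ∀ a b, slot l (rk D a b) * C = C * slot l (rk D a b) := by
    intro a b
    by_cases hab : D.f1 b a = 0
    · by_cases ha : a = 0
      · subst ha; simp [TensorHerm.rk_zero_left]
      obtain ⟨p, hp⟩ := (hD.symp.nondegenerate a ha).1
      have h4 := h2 a (b + p) (by rw [D.f1_add_left, hab, zero_add]; exact hp)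
      rw [rk_add_right, map_add, add_mul, mul_add, h2 a p hp] at h4
      exact add_right_cancel h4
    · exact h2 a b hab
  intro A
  have e : A = ∑ p, vecMulVec (fun r => A r p) (Pi.single p 1 : Fin k → F) := by
    ext r q
    simp [Matrix.sum_apply, Matrix.vecMulVec_apply, Pi.single_apply]
  rw [e, map_sum, Finset.sum_mul, Finset.mul_sum]
  refine Finset.sum_congr rfl fun p _ => ?_
  obtain ⟨b, hb⟩ := TensorHerm.exists_pairing (D := D) (Pi.single p 1 : Fin k → F)
  rw [← hb]
  exact h3 _ b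

/-- An operator moved by scalars only is free of the factor. -/
lemma slotFree_of_shift (hD : IsAlt D) (h2 : (2 : F) = 0) (hk : 6 ≤ k) {l : Fin t} {C : Mt}
    (h : ∀ a ∈ CfsgLib.Geometric.isom D.f1, ∃ c : F, cj (slotGL l a) C = C + c • 1) :
    SlotFree l C := by
  refine slotFree_of_al hD hk fun v z hvz hind => ?_
  obtain ⟨w, hwv, hwz, hw⟩ := exists_outside hD hk v z
  obtain ⟨u, huw, hu0⟩ := exists_dual hD hw
  have hvu : D.f1 v u = 0 := hu0 v (Submodule.mem_sup_left (Submodule.mem_span_singleton_self v))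
  have hzu : D.f1 z u = 0 := hu0 z (Submodule.mem_sup_right (Submodule.mem_span_singleton_self z))
  have huv : D.f1 u v = 0 := by rw [hD.skew v u, hvu, neg_zero]
  have huz : D.f1 u z = 0 := by rw [hD.skew z u, hzu, neg_zero]
  have hzv : D.f1 z v = 0 := by rw [hD.skew v z, hvz, neg_zero]
  have hvw : D.f1 v w = 0 := by rw [hD.skew w v, hwv, neg_zero]
  have hzw : D.f1 z w = 0 := by rw [hD.skew w z, hwz, neg_zero]
  have huw' : D.f1 u w = 1 := by
    rw [hD.skew w u, huw]; linear_combination (-1 : F) * h2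
  obtain ⟨g, hg, hgv, -⟩ := exists_al hD h2 huz
  obtain ⟨b, hb, -, hbp⟩ := exists_al hD h2 hvw
  obtain ⟨m, hm, hmv, -⟩ := exists_al hD h2 hvz
  have bu : ap b u = u + v := by rw [hbp, huw', huv]; simp
  have bz : ap b z = z := by rw [hbp, hzw, hzv]; simp
  have hrel : b * g * b⁻¹ = g * m := by
    refine Units.ext ?_
    rw [Units.val_mul, Units.val_mul, Units.val_mul, hgv, mul_add, add_mul, mul_one,
      Units.mul_inv, hD.conj_al hb, bu, bz, hmv]
    simp only [al, rk_add_left, rk_add_right, mul_add, add_mul, mul_sub, sub_mul, mul_one,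
      one_mul, rk_mul, hD.alt, hvz, hzu, hvu, zero_smul]
    abel
  obtain ⟨c, hc⟩ := h g hg
  obtain ⟨c', hc'⟩ := h b hb
  have hci : cj (slotGL l b⁻¹) C = C - c' • 1 := by
    have := congrArg (cj (slotGL l b⁻¹)) hc'
    rw [cj_cj, ← map_mul, inv_mul_cancel, map_one, cj_add, cj_smul, cj_one] at this
    rw [eq_sub_iff_add_eq, ← this]
    simp [cj]
  have h5 : cj (slotGL l g) (cj (slotGL l m) C) = cj (slotGL l g) C := by
    rw [cj_cj, ← map_mul, ← hrel, map_mul, map_mul, ← cj_cj, ← cj_cj, hci, cj_sub, cj_smul, cj_one,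
      cj_sub, cj_smul, cj_one, hc, cj_add, cj_smul, cj_one, hc']
    abel
  have h6 := congrArg (cj (slotGL l g)⁻¹) h5
  have h7 : cj (slotGL l m) C = C := by
    simp only [cj_cj, inv_mul_cancel, inv_mul_cancel_left] at h6
    simpa [cj] using h6
  have h8 : (slotGL l m : Mt) * C = C * (slotGL l m : Mt) := by
    have := congrArg (· * (slotGL l m : Mt)) h7
    rwa [cj, mul_assoc _ _ (slotGL l m : Mt), Units.inv_mul, mul_one] at this
  rw [slotGL_val, hmv, map_add, map_one, add_mul, mul_add, one_mul, mul_one] at h8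
  exact add_left_cancel h8

lemma slice_le_of_mulVec {i : Fin t} {A : Mk} {a : Fin k → F} {S : Submodule F ((Fin t → Fin k) → F)}
    (h : ∀ z, slot i A *ᵥ z ∈ S) : TPow.slice i (A *ᵥ a) ≤ S := by
  rintro _ ⟨y, rfl⟩
  rw [← slot_mulVec_ten]
  exact h _

end Rad

open Rad

variable {D : Datum k F} {act : Finset (Fin t)} {M : Subgroup (GL (Fin t → Fin k) F)}

/-- An isometry carrying a slice to a slice carries a root operator of the first into the corner of
the root operator of the second. -/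
theorem exists_slot_mul_of_slices (hD : IsAlt D) {g : GL (Fin t → Fin k) F} (hg : g ∈ D.isom t)
    {i j : Fin t} {u v : Fin k → F} (hu : u ≠ 0)
    (h : (TPow.slice j v).map (apEquiv g).toLinearMap = TPow.slice i u) (c : F) :
    ∃ Z, SlotFree i Z ∧ (g : Mt) * slot j (c • rk D v v) *
      ((g⁻¹ : GL (Fin t → Fin k) F) : Mt) = slot i (rk D u u) * Z := by
  obtain ⟨w, hw, -⟩ := exists_dual hD (show u ∉ (⊥ : Submodule F (Fin k → F)) by simpa using hu)
  set X := cj g (slot j (c • rk D v v)) with hX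
  have hP : slot i (rk D u w) * X = X := by
    refine Matrix.ext_of_mulVec_single fun p => ?_
    rw [← Matrix.mulVec_mulVec]
    refine slot_fix (u := u) (by rw [rk_mulVec, hw, one_smul]) ?_
    rw [hX, cj, ← Matrix.mulVec_mulVec, ← Matrix.mulVec_mulVec, ← h]
    exact Submodule.mem_map_of_mem (mulVec_mem_of_range (fun a => ⟨c * D.f1 a v, by
      rw [Matrix.smul_mulVec, rk_mulVec, smul_smul]⟩) _)
  have hS := eq_sandwich hD (skew_cj hD hg (skew_root hD j c v)) hP (slot_adj (rk_adj hD u w))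
  refine ⟨-(beta D i X w w), fun A => by rw [mul_neg, neg_mul, beta_free X w w A], ?_⟩
  show X = _
  rw [← hX] at hS
  conv_lhs => rw [← hS]
  rw [map_neg, mul_neg, mul_neg, rk, rk, rk, sandwich_ptrace]
  rfl

/-- Without proper corners such an element carries the root group of `(j, v)` onto that of
`(i, u)`. -/
theorem exists_smul_of_slices (hD : IsAlt D) (hM : OverOn D act M) (hN : NoCorner D M)
    {g : GL (Fin t → Fin k) F} (hg : g ∈ M) {i j : Fin t} (hj : j ∈ act) {u v : Fin k → F}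
    (hu : u ≠ 0) (hv : v ≠ 0)
    (h : (TPow.slice j v).map (apEquiv g).toLinearMap = TPow.slice i u) :
    ∃ γ : F, γ ≠ 0 ∧ ∀ c : F, (g : Mt) * slot j (c • rk D v v) *
      ((g⁻¹ : GL (Fin t → Fin k) F) : Mt) = slot i ((c * γ) • rk D u u) := by
  obtain ⟨Z, hZ, e⟩ := exists_slot_mul_of_slices hD (hM.le hg) hu h 1
  have hgood : Good M (slot i (rk D u u) * Z) := by
    rw [← e, map_smul]
    exact Good.conj (good_rk_on hD hM hj v 1) hg
  obtain ⟨γ, hγ⟩ := hN i _ Z (Or.inl ⟨u, hu, rfl⟩) hZ hgood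
  rw [one_smul] at e
  refine ⟨γ, ?_, fun c => ?_⟩
  · rintro rfl
    rw [hγ, zero_smul] at e
    have h0 : slot j (rk D v v) = 0 := by
      calc slot j (rk D v v) = ((g⁻¹ : GL (Fin t → Fin k) F) : Mt) * ((g : Mt) *
          slot j (rk D v v) * ((g⁻¹ : GL (Fin t → Fin k) F) : Mt)) * (g : Mt) := by
            simp [mul_assoc]
        _ = 0 := by rw [e, mul_zero, zero_mul]
    obtain ⟨p, hp⟩ := (hD.symp.nondegenerate v hv).1
    have h1 := congrArg (· *ᵥ TPow.ten j p fun _ => (1 : F)) h0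
    simp only [slot_mulVec_ten, rk_mulVec, Matrix.zero_mulVec] at h1
    have h2 := TPow.ten_injective j (smul_ne_zero hp hv) (h1.trans (map_zero _).symm)
    have : NeZero k := ⟨fun hk => hv (funext fun x => absurd x.2 (by omega))⟩
    exact one_ne_zero (congrFun h2 fun _ => 0)
  · rw [map_smul, Matrix.mul_smul, Matrix.smul_mul, e, hγ, map_smul, smul_smul]

/-- Elements fixing a totally isotropic plane slice act factorwise. -/
theorem planeClosed [Finite F] (hD : IsAlt D) (h2 : (2 : F) = 0) (hk : 6 ≤ k)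
    (hM : OverOn D act M) (hN : NoCorner D M) (hS : SliceClosed act M) :
    PlaneClosed D act M := by
  intro g hg i hi x z hxz hind hfix
  have : NeZero k := ⟨by omega⟩
  have hx : x ≠ 0 := hind.ne_zero 0
  have hz : z ≠ 0 := hind.ne_zero 1
  obtain ⟨y, hyx, hyz, hy⟩ := exists_outside hD hk x z
  have hxs : x ∉ Submodule.span F {z} ⊔ Submodule.span F {y} := by
    intro hm
    obtain ⟨p, hp, q, hq, e⟩ := Submodule.mem_sup.mp hm
    obtain ⟨a, rfl⟩ := Submodule.mem_span_singleton.mp hp
    obtain ⟨b, rfl⟩ := Submodule.mem_span_singleton.mp hq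
    by_cases hb : b = 0
    · subst hb
      rw [zero_smul, add_zero] at e
      exact (LinearIndependent.pair_iff' hz).mp (LinearIndependent.pair_symm_iff.mp hind) a e
    · refine hy ?_
      have : y = b⁻¹ • x + (-(b⁻¹ * a)) • z := by
        rw [← e, smul_add, smul_smul b⁻¹ b, inv_mul_cancel₀ hb]; module
      rw [this]
      exact Submodule.add_mem_sup (Submodule.smul_mem _ _ (Submodule.mem_span_singleton_self x))
        (Submodule.smul_mem _ _ (Submodule.mem_span_singleton_self z))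
  have hzs : z ∉ Submodule.span F {x} ⊔ Submodule.span F {y} := by
    intro hm
    obtain ⟨p, hp, q, hq, e⟩ := Submodule.mem_sup.mp hm
    obtain ⟨a, rfl⟩ := Submodule.mem_span_singleton.mp hp
    obtain ⟨b, rfl⟩ := Submodule.mem_span_singleton.mp hq
    by_cases hb : b = 0
    · subst hb
      rw [zero_smul, add_zero] at e
      exact (LinearIndependent.pair_iff' hx).mp hind a e
    · refine hy ?_
      have : y = (-(b⁻¹ * a)) • x + b⁻¹ • z := by
        rw [← e, smul_add, smul_smul b⁻¹ b, inv_mul_cancel₀ hb]; module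
      rw [this]
      exact Submodule.add_mem_sup (Submodule.smul_mem _ _ (Submodule.mem_span_singleton_self x))
        (Submodule.smul_mem _ _ (Submodule.mem_span_singleton_self z))
  obtain ⟨wx, hwx, hwx0⟩ := exists_dual hD hxs
  obtain ⟨wz, hwz, hwz0⟩ := exists_dual hD hzs
  have hzwx : D.f1 z wx = 0 :=
    hwx0 z (Submodule.mem_sup_left (Submodule.mem_span_singleton_self z))
  have hywx : D.f1 y wx = 0 :=
    hwx0 y (Submodule.mem_sup_right (Submodule.mem_span_singleton_self y))
  have hxwz : D.f1 x wz = 0 :=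
    hwz0 x (Submodule.mem_sup_left (Submodule.mem_span_singleton_self x))
  have hywz : D.f1 y wz = 0 :=
    hwz0 y (Submodule.mem_sup_right (Submodule.mem_span_singleton_self y))
  set X := cj g (slot i (rk D x x)) with hX
  have himg : ∀ p, X *ᵥ p ∈ (TPow.slice i x).map (apEquiv g).toLinearMap := fun p => by
    rw [hX, cj, ← Matrix.mulVec_mulVec, ← Matrix.mulVec_mulVec]
    exact Submodule.mem_map_of_mem (mulVec_mem_of_range (fun a => ⟨_, rk_mulVec x x a⟩) _)
  have hP : slot i (rk D x wx + rk D z wz) * X = X := by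
    refine Matrix.ext_of_mulVec_single fun p => ?_
    rw [← Matrix.mulVec_mulVec]
    have hm : X *ᵥ Pi.single p 1 ∈ TPow.slice i x ⊔ TPow.slice i z :=
      hfix ▸ Submodule.map_mono le_sup_left (himg _)
    obtain ⟨p1, hp1, p2, hp2, e⟩ := Submodule.mem_sup.mp hm
    rw [← e, Matrix.mulVec_add,
      slot_fix (u := x) (by rw [Matrix.add_mulVec, rk_mulVec, rk_mulVec, hwx, hxwz]; simp) hp1,
      slot_fix (u := z) (by rw [Matrix.add_mulVec, rk_mulVec, rk_mulVec, hwz, hzwx]; simp) hp2]
  have hskew : (slot i (rk D x x))ᵀ * D.gram t = -(D.gram t * slot i (rk D x x)) := by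
    simpa using skew_root hD i 1 x
  have hadj : (rk D x wx + rk D z wz)ᵀ * D.J = D.J * (-(rk D wx x + rk D wz z)) := by
    rw [Matrix.transpose_add, add_mul, rk_adj hD, rk_adj hD, neg_add, mul_add]
  have hsand := eq_sandwich hD (skew_cj hD (hM.le hg) hskew) hP (slot_adj hadj)
  rw [← hX] at hsand
  set C₁ := beta D i X wx wx with hC₁
  set C₁₂ := beta D i X wz wx with hC₁₂
  set C₂₁ := beta D i X wx wz with hC₂₁
  set C₂ := beta D i X wz wz with hC₂
  have f₁ : SlotFree i C₁ := beta_free _ _ _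
  have f₁₂ : SlotFree i C₁₂ := beta_free _ _ _
  have f₂₁ : SlotFree i C₂₁ := beta_free _ _ _
  have f₂ : SlotFree i C₂ := beta_free _ _ _
  have hneg : ∀ Y : Mt, -Y = Y := fun Y =>
    neg_eq_of_add_eq_zero_right (add_self_eq_zero h2 Y)
  have hrep : X = planeOp D i x z C₁ C₁₂ C₂₁ C₂ := by
    conv_lhs => rw [← hsand]
    rw [map_neg, mul_neg, hneg]
    simp only [map_add, add_mul, mul_add, rk, sandwich_ptrace]
    simp only [planeOp, hC₁, hC₁₂, hC₂₁, hC₂, TensorHerm.beta, rk]
    abel
  have hgood : Good M (planeOp D i x z C₁ C₁₂ C₂₁ C₂) := by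
    rw [← hrep, hX, cj]
    simpa using Good.conj (good_rk_on hD hM hi x 1) hg
  obtain ⟨⟨c₂, e₂⟩, d, ed⟩ := plane_step hD h2 hM hN hi hxz hyx hyz hind
    (pair_of_notMem hz fun hm => hy (Submodule.mem_sup_right hm))
    hwx hzwx hywx hwz hxwz hywz f₁ f₁₂ f₂₁ f₂ hgood
  obtain ⟨⟨c₁, e₁⟩, -⟩ := plane_step (x := z) (z := x) (y := y) (wx := wz) (wz := wx) hD h2 hM hN
    hi (by rw [hD.skew x z, hxz, neg_zero]) hyz hyx (LinearIndependent.pair_symm_iff.mp hind)
    (pair_of_notMem hx fun hm => hy (Submodule.mem_sup_left hm))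
    hwz hxwz hywz hwx hzwx hywx f₂ f₂₁ f₁₂ f₁ (by
      convert hgood using 1; simp only [planeOp]; abel)
  have hsum : C₂₁ = C₁₂ + (d - c₂) • 1 := by
    rw [sub_smul, ← ed, ← e₂, add_sub_cancel_right, ← add_assoc, add_self_eq_zero h2, zero_add]
  have hfree : ∀ l, SlotFree l C₁₂ := by
    intro l
    by_cases hli : l = i
    · subst hli; exact f₁₂
    by_cases hl : l ∈ act
    · refine slotFree_of_shift hD h2 hk fun a ha => ?_
      have fC : SlotFree i (cj (slotGL l a) C₁₂) := free_cj (Ne.symm hli) a f₁₂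
      have hexp : cj (slotGL l a) (planeOp D i x z C₁ C₁₂ C₂₁ C₂) =
          planeOp D i x z C₁ (cj (slotGL l a) C₁₂) (cj (slotGL l a) C₁₂ + (d - c₂) • 1) C₂ := by
        simp only [planeOp, cj_add, cj_mul, cj_slot_ne (Ne.symm hli), hsum, e₁, e₂, cj_smul,
          cj_one]
      have hzx0 : D.f1 z x = 0 := by rw [hD.skew x z, hxz, neg_zero]
      have hzero : ∀ (A B A' B' A'' B'' A₃ B₃ : Mt), SlotFree i A → SlotFree i A' →
          SlotFree i A'' → SlotFree i A₃ →
          planeOp D i x z A A' A'' A₃ * planeOp D i x z B B' B'' B₃ = 0 := by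
        intro A B A' B' A'' B'' A₃ B₃ hA hA' hA'' hA₃
        simp only [planeOp, add_mul, mul_add, corner_mul _ _ _ hA, corner_mul _ _ _ hA',
          corner_mul _ _ _ hA'', corner_mul _ _ _ hA₃, rk_mul, hD.alt, hxz, hzx0, zero_smul,
          map_zero, zero_mul, add_zero]
      have fC' : SlotFree i (cj (slotGL l a) C₁₂ + (d - c₂) • 1) := fun A => by
        rw [mul_add, add_mul, fC A, Matrix.mul_smul, Matrix.smul_mul, mul_one, one_mul]
      have hgd := good_diff hgood (good_cj hM hl ha hgood)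
        (by rw [hexp]; exact hzero _ _ _ _ _ _ _ _ f₁ f₁₂ f₂₁ f₂)
        (by rw [hexp]; exact hzero _ _ _ _ _ _ _ _ f₁ fC fC' f₂)
      have hE : Good M (slot i (al D x z) * (cj (slotGL l a) C₁₂ - C₁₂)) := by
        convert hgd using 1
        rw [hexp, al_eq_add h2, hsum]
        simp only [planeOp, map_add, mul_add, add_mul, mul_sub]
        abel
      have fsub : SlotFree i (cj (slotGL l a) C₁₂ - C₁₂) := fun A => by
        rw [mul_sub, sub_mul, fC A, f₁₂ A]
      obtain ⟨s, hs⟩ :=
        corner_scalar hN (Or.inr ⟨x, z, hxz, hind, rfl⟩) (al_ne_zero hD hind) fsub hE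
      exact ⟨s, by rw [← hs, add_sub_cancel]⟩
    · refine TensorHerm.beta_free_of_free hli ?_ _ _
      exact ((hM.free g hg l hl).mul (SlotFree.slot hli _)).mul (hM.free _ (inv_mem hg) l hl)
  obtain ⟨s, hs⟩ := eq_scalar_of_slotFree hfree
  set A : Mk := c₁ • rk D x x + s • rk D x z + (s + (d - c₂)) • rk D z x + c₂ • rk D z z with hA
  have hXA : X = slot i A := by
    rw [hrep, hA, planeOp, hsum, hs, e₁, e₂]
    simp only [map_add, map_smul, mul_add, Matrix.mul_smul, mul_one, add_smul]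
  have hX0 : X ≠ 0 := by
    intro h0
    have h1 : slot i (rk D x x) = 0 := by
      calc slot i (rk D x x) = ((g⁻¹ : GL (Fin t → Fin k) F) : Mt) * X * (g : Mt) := by
            simp [hX, cj, mul_assoc]
        _ = 0 := by rw [h0, mul_zero, zero_mul]
    obtain ⟨p, hp⟩ := (hD.symp.nondegenerate x hx).1
    have h2' := congrArg (· *ᵥ TPow.ten i p fun _ => (1 : F)) h1
    simp only [slot_mulVec_ten, rk_mulVec, Matrix.zero_mulVec] at h2'
    have h3 := TPow.ten_injective i (smul_ne_zero hp hx) (h2'.trans (map_zero _).symm)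
    exact one_ne_zero (congrFun h3 fun _ => 0)
  obtain ⟨a, ha⟩ : ∃ a, A *ᵥ a ≠ 0 := by
    by_contra hc
    push Not at hc
    refine hX0 ?_
    rw [hXA, show A = 0 from Matrix.ext_of_mulVec_single fun p => by rw [hc, Matrix.zero_mulVec],
      map_zero]
  have hle : TPow.slice i (A *ᵥ a) ≤ (TPow.slice i x).map (apEquiv g).toLinearMap :=
    slice_le_of_mulVec fun p => hXA ▸ himg p
  have heq := Submodule.eq_of_le_of_finrank_eq hle
    (by rw [LinearEquiv.finrank_map_eq, TPow.finrank_slice i ha, TPow.finrank_slice i hx])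
  exact hS g hg i hi i hi (A *ᵥ a) x ha hx heq.symm

end CfsgLib.Geometric.TensorOrth
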