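import Cfsg.Agent.Lib.Geometric.TensorOrth.Dihedral
import Cfsg.Agent.Lib.Geometric.TensorOrth.Centre
import Cfsg.Agent.Lib.Geometric.TensorOrth.Rad

/-!
In characteristic two an overgroup with only scalar corners lies in the wreath product: induction on
the set of active positions.
-/

set_option autoImplicit false
set_option linter.unusedSectionVars false

namespace CfsgLib.Geometric.TensorOrth

open scoped Matrix MatrixGroups
open Matrix CfsgLib.SmallDim Cfsg.Geo CfsgLib.Geometric.TensorForm

variable {k t : ℕ} {F : Type*} [Field F]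

local notation "Mt" => Matrix (Fin t → Fin k) (Fin t → Fin k) F

/-- The elements commuting with one factor. -/
def freeAt (i : Fin t) : Subgroup (GL (Fin t → Fin k) F) where
  carrier := {g | SlotFree i (g : Mt)}
  one_mem' A := by rw [Units.val_one, mul_one, one_mul]
  mul_mem' {a b} ha hb := by
    show SlotFree i ((a * b : GL _ F) : Mt)
    rw [Units.val_mul]
    exact ha.mul hb
  inv_mem' {a} ha A := by
    calc slot i A * ((a⁻¹ : GL _ F) : Mt)
        = ((a⁻¹ : GL _ F) : Mt) * ((a : Mt) * slot i A) * ((a⁻¹ : GL _ F) : Mt) := by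
          rw [← mul_assoc, Units.inv_mul, one_mul]
      _ = ((a⁻¹ : GL _ F) : Mt) * slot i A := by
          rw [← ha A, mul_assoc, mul_assoc, Units.mul_inv, mul_one]

variable {D : Datum k F}

lemma NoCorner.mono {M M' : Subgroup (GL (Fin t → Fin k) F)} (h : NoCorner D M) (hle : M' ≤ M) :
    NoCorner D M' := fun i R Z hR hZ hG =>
  h i R Z hR hZ ⟨hG.1, hG.2.imp fun _ hg => ⟨hle hg.1, hg.2⟩⟩

variable (hD : IsAlt D)
include hD

/-- The even case, relative to the active positions. -/
theorem le_wreath_of_even [Finite F] (h2 : (2 : F) = 0) (hk : 6 ≤ k) :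
    ∀ n, ∀ (act : Finset (Fin t)) (M : Subgroup (GL (Fin t → Fin k) F)), act.card = n →
      OverOn D act M → NoCorner D M → M ≤ Cfsg.Geo.tensorWreathStandard k t F := by
  intro n
  induction n using Nat.strong_induction_on with
  | _ n ih =>
    intro act M hn hM hN
    have IH : ∀ i ∈ act, ∀ g ∈ M, SlotFree i (g : Mt) →
        g ∈ Cfsg.Geo.tensorWreathStandard k t F := by
      intro i hi g hg hfree
      have hO : OverOn D (act.erase i) (M ⊓ freeAt i) :=
        { le := inf_le_left.trans hM.le
          slot_mem := fun l hl a ha => by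
            obtain ⟨hli, hl'⟩ := Finset.mem_erase.1 hl
            refine Subgroup.mem_inf.2 ⟨hM.slot_mem l hl' a ha, ?_⟩
            show SlotFree i ((TensorHerm.slotGL l a : GL _ F) : Mt)
            rw [TensorHerm.slotGL_val]
            exact SlotFree.slot hli.symm _
          free := fun x hx l hl => by
            by_cases h : l = i
            · exact h ▸ hx.2
            · exact hM.free x hx.1 l fun hl' => hl (Finset.mem_erase.2 ⟨h, hl'⟩) }
      exact ih _ (by rw [← hn]; exact Finset.card_erase_lt_of_mem hi) _ _ rfl hO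
        (hN.mono inf_le_left) (Subgroup.mem_inf.2 ⟨hg, hfree⟩)
    have hS := sliceClosed hD h2 hk hM hN IH
    exact le_wreath_of_closed hD h2 hk hM hS (planeClosed hD h2 hk hM hN hS)

end CfsgLib.Geometric.TensorOrth
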