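import Cfsg.Agent.Lib.Geometric.TensorOrth.Basic
import Cfsg.Agent.Lib.Geometric.TensorOrth.Fac
import Cfsg.Agent.Lib.Geometric.TensorForm.Compress
import Cfsg.Agent.Lib.Geometric.TensorForm.Descent

/-!
In odd characteristic an overgroup with only scalar corners lies in the wreath product.
-/

set_option autoImplicit false
set_option linter.unusedSectionVars false

namespace CfsgLib.Geometric.TensorOrth

open scoped Matrix MatrixGroups
open Matrix CfsgLib.SmallDim Cfsg.Geo CfsgLib.Geometric.TensorForm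
open CfsgLib.Geometric.TensorHerm (rk rk_mulVec rk_mul slotGL slotGL_val)

variable {k t : ℕ} {F : Type*} [Field F]

local notation "Mk" => Matrix (Fin k) (Fin k) F
local notation "Mt" => Matrix (Fin t → Fin k) (Fin t → Fin k) F

variable {M : Subgroup (GL (Fin t → Fin k) F)} {D : Datum k F}
variable (hD : IsAlt D) (hM : Over D M)
include hD hM

/-- A factorwise transvection is a root. -/
lemma root_slot_rk (i : Fin t) (u : Fin k → F) : Root F M (slot i (rk D u u)) := by
  refine ⟨by rw [← map_mul, hD.rk_self_mul, map_zero], fun a => ?_⟩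
  obtain ⟨-, g, hg, he⟩ := hM.good_rk hD i u a
  exact ⟨g, hg, he⟩

/-- Two shears at a vector multiplying to its transvection. -/
lemma exists_shear_mem (hk : 4 ≤ k) (i : Fin t) {u : Fin k → F} (hu : u ≠ 0) :
    ∃ (S S' : Mt) (κ : F), κ ≠ 0 ∧ Root F M S ∧ Root F M S' ∧
      slot i (rk D u u) * S = 0 ∧ S * slot i (rk D u u) = 0 ∧
      slot i (rk D u u) * S' = 0 ∧ S' * slot i (rk D u u) = 0 ∧
      S * S' = κ • slot i (rk D u u) ∧ S' * S = (-κ) • slot i (rk D u u) := by
  obtain ⟨e, g, he, -, heg, hee, -⟩ := hD.exists_frame (r := 2) (by omega)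
  obtain ⟨a, ha, hau⟩ := Symp.exists_isom_map hD.symp ((hee 0 1 (by decide)).ne_zero 0) hu
  have hau' : ap a (e 0) = u := hau
  set w := ap a (e 1)
  set w' := ap a (g 1)
  have hiso := CfsgLib.Geometric.mem_isom_iff.mp ha
  have huw : D.f1 u w = 0 := by rw [← hau', hiso, he]
  have huw' : D.f1 u w' = 0 := by rw [← hau', hiso, heg]; simp
  have hww' : D.f1 w w' = 1 := by rw [hiso, heg]; simp
  have hP : ∀ z, D.f1 u z = 0 → Root F M (slot i (rk D u z + rk D z u)) ∧
      slot (t := t) i (rk D u u) * slot i (rk D u z + rk D z u) = 0 ∧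
      slot (t := t) i (rk D u z + rk D z u) * slot i (rk D u u) = 0 := by
    intro z hz
    have hz' : D.f1 z u = 0 := by rw [hD.skew u z, hz, neg_zero]
    have hsq : (rk D u z + rk D z u) * (rk D u z + rk D z u) = 0 := by
      simp only [mul_add, add_mul, rk_mul, hD.alt, hz, hz', zero_smul, add_zero]
    refine ⟨⟨by rw [← map_mul, hsq, map_zero], fun c => ?_⟩, ?_, ?_⟩
    · obtain ⟨-, x, hx, hxe⟩ := hM.one_add_mem hD i (A := c • (rk D u z + rk D z u))
        (by rw [Matrix.smul_mul, Matrix.mul_smul, hsq, smul_zero, smul_zero]) fun x y => by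
          simp only [Matrix.smul_mulVec, Matrix.add_mulVec, rk_mulVec, D.f1_add_left,
            D.f1_add_right, D.f1_smul_left, hD.smul_right, hD.alt, hz, hz', hD.skew y u,
            hD.skew y z]
          ring
      exact ⟨x, hx, by rw [hxe, map_smul]⟩
    all_goals
      rw [← map_mul]
      simp only [mul_add, add_mul, rk_mul, hD.alt, hz, hz', zero_smul, add_zero, map_zero]
  obtain ⟨r1, a1, a2⟩ := hP w huw
  obtain ⟨r2, a3, a4⟩ := hP w' huw'
  refine ⟨_, _, -1, neg_ne_zero.2 one_ne_zero, r1, r2, a1, a2, a3, a4, ?_, ?_⟩ <;>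
    rw [← map_mul, ← map_smul] <;> congr 1 <;>
    simp [mul_add, add_mul, rk_mul, hD.alt, huw, huw', hww', hD.skew u w, hD.skew u w', hD.skew w w']

/-- Conjugates of factorwise transvections are roots. -/
lemma root_conj_val {g : GL (Fin t → Fin k) F} (hg : g ∈ M) (j : Fin t) (v : Fin k → F) :
    Root F M ((g : Mt) * D.nilSlot j v * ((g⁻¹ : GL (Fin t → Fin k) F) : Mt)) := by
  have hr := root_slot_rk hD hM j v
  refine ⟨?_, fun a => ?_⟩
  · calc _ = (g : Mt) * (D.nilSlot j v * (((g⁻¹ : GL (Fin t → Fin k) F) : Mt) * (g : Mt)) *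
          D.nilSlot j v) * ((g⁻¹ : GL (Fin t → Fin k) F) : Mt) := by simp only [mul_assoc]
      _ = 0 := by
        rw [Units.inv_mul, mul_one, show D.nilSlot j v * D.nilSlot j v = 0 from hr.sq, mul_zero,
          zero_mul]
  · obtain ⟨x, hx, hxe⟩ := hr.mem a
    refine ⟨g * x * g⁻¹, mul_mem (mul_mem hg hx) (inv_mem hg), ?_⟩
    rw [Units.val_mul, Units.val_mul, hxe, mul_add, mul_one, add_mul, Units.mul_inv,
      mul_smul_comm, smul_mul_assoc]
    rfl

/-- The odd case. -/
theorem le_wreath_of_odd [Finite F] (h2 : (2 : F) ≠ 0) (hk : 2 ≤ k) (ht : 0 < t)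
    (h4 : Nat.card F = 3 → 4 ≤ k) (hN : NoCorner D M) :
    M ≤ Cfsg.Geo.tensorWreathStandard k t F := by
  intro g hg
  refine Datum.mem_wreath_of_compress D hD.id h2 hk ht (hM.le hg) fun i j u v => ?_
  by_cases hu : u = 0
  · exact ⟨0, by simp [hu, Datum.nilSlot, Datum.nil]⟩
  by_contra hns
  have hR := root_slot_rk hD hM i u
  obtain ⟨A₀, hin, hne⟩ := exists_big_of_not_isScal (N := D.nilSlot i u) h2 hR
    (fun h3 => exists_shear_mem hD hM (h4 h3) i hu)
    (root_conj_val hD hM hg j v) hns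
  obtain ⟨x, hx, hxe⟩ := hin
  set N := D.nilSlot (t := t) i u with hN'
  have hsq : N * N = 0 := hR.sq
  obtain ⟨Z, hZ, hform⟩ : ∃ Z, SlotFree i Z ∧ N * A₀ * N = slot i (rk D u u) * Z :=
    ⟨ptrace i (D.J *ᵥ (D.σ ∘ u)) u A₀, slotFree_ptrace _ _ _ _,
      sandwich_ptrace i u (D.J *ᵥ (D.σ ∘ u)) u (D.J *ᵥ (D.σ ∘ u)) A₀⟩
  have hG : Good M (slot i (rk D u u) * Z) := by
    rw [← hform]
    exact ⟨by rw [show N * A₀ * N * (N * A₀ * N) = N * A₀ * (N * N) * A₀ * N by
      simp only [mul_assoc], hsq, mul_zero, zero_mul, zero_mul], x, hx, hxe⟩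
  obtain ⟨c, hc⟩ := hN i _ Z (Or.inl ⟨u, hu, rfl⟩) hZ hG
  exact hne ⟨c, hform.trans hc⟩

end CfsgLib.Geometric.TensorOrth
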