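import Cfsg.Agent.Lib.Geometric.TensorOrth.Corner
import Cfsg.Agent.Lib.Geometric.TensorOrth.Odd
import Cfsg.Agent.Lib.Geometric.TensorOrth.Even

/-!
An overgroup of the factorwise isometries holds a long root element at pure tensors or lies in the
wreath product.
-/

set_option autoImplicit false

namespace CfsgLib.Geometric.TensorOrth

open CfsgLib.Geometric.TensorForm

/-- The dichotomy for overgroups. -/
theorem dichotomy {k t : ℕ} {F : Type*} [Field F] [Finite F] (ht : 2 ≤ t) (hk : Even k)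
    (hk2 : 2 ≤ k) (hch : (2 : F) = 0 ∧ 6 ≤ k ∨ (2 : F) ≠ 0 ∧ Even t)
    (h4 : Nat.card F = 3 → 4 ≤ k) {D : Datum k F} (hD : IsAlt D)
    {M : Subgroup (GL (Fin t → Fin k) F)} (hM : Over D M) :
    HasPure D M ∨ M ≤ Cfsg.Geo.tensorWreathStandard k t F := by
  classical
  rcases hasPure_or_noCorner hD hM hk2 hk hch ht with h | h
  · exact Or.inl h
  refine Or.inr ?_
  rcases hch with ⟨h2, h6⟩ | ⟨h2, -⟩
  · exact le_wreath_of_even hD h2 h6 _ Finset.univ M rfl
      ⟨hM.le, fun l _ a ha => hM.slot_mem l a ha, fun g _ l hl => absurd (Finset.mem_univ l) hl⟩ h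
  · exact le_wreath_of_odd hD hM h2 hk2 (by omega) h4 h

end CfsgLib.Geometric.TensorOrth
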