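import Cfsg.Agent.Lib.Geometric.TensorOrth.Basic
import Cfsg.Agent.Lib.Geometric.Orth.Full
import Cfsg.Agent.Lib.Geometric.Orth.Values

/-!
# A long root element at pure tensors generates the commutator subgroup

In an overgroup of the factorwise isometries, one Siegel element of two pure tensors spreads to all
Siegel elements centred at pure tensors, hence to all of `omegaGL`.
-/

set_option autoImplicit false
set_option linter.unusedSectionVars false

namespace CfsgLib.Geometric.TensorOrth

open scoped Matrix MatrixGroups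
open Matrix CfsgLib.SmallDim Cfsg.Geo CfsgLib.Geometric.TensorForm QuadraticMap
open CfsgLib.Geometric.Orth (sg ap_sg)
open CfsgLib.Geometric.TensorHerm (rk rk_mulVec slotGL slotGL_val)

variable {k t : ℕ} {F : Type*} [Field F]

/-- `q` is a quadratic form on the tensor power, polarising to a multiple of the tensor power of an
alternating form and vanishing on pure tensors. -/
structure PForm (D : Datum k F) (q : QuadraticForm F ((Fin t → Fin k) → F)) (c : F) : Prop where
  alt : IsAlt D
  c_ne : c ≠ 0
  polar_eq : ∀ x y, polar q x y = c * (x ⬝ᵥ (D.gram t *ᵥ y))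
  pure : ∀ v : Fin t → Fin k → F, q (pureTensorVec v) = 0
  nondeg : CfsgLib.ClassicalForms.Nondeg q
  t_two : 2 ≤ t

lemma pureVec_smul_all (a : Fin t → F) (v : Fin t → Fin k → F) :
    pureTensorVec (fun l => a l • v l) = (∏ l, a l) • pureTensorVec v := by
  funext x
  simp [pureTensorVec, Finset.prod_mul_distrib]

lemma pureVec_eq_zero {v : Fin t → Fin k → F} {l : Fin t} (h : v l = 0) : pureTensorVec v = 0 := by
  funext x
  exact Finset.prod_eq_zero (Finset.mem_univ l) (by rw [h]; rfl)

lemma update_ne_zero {v : Fin t → Fin k → F} (hv : ∀ l, v l ≠ 0) (i : Fin t) {a : Fin k → F}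
    (ha : a ≠ 0) (l : Fin t) : Function.update v i a l ≠ 0 := by
  by_cases h : l = i
  · subst h; simpa using ha
  · simpa [Function.update_of_ne h] using hv l

namespace PForm

variable {D : Datum k F} {q : QuadraticForm F ((Fin t → Fin k) → F)} {c : F} (hP : PForm D q c)
include hP

lemma polar_pure (u v : Fin t → Fin k → F) :
    polar q (pureTensorVec u) (pureTensorVec v) = c * ∏ l, D.f1 (u l) (v l) := by
  rw [hP.polar_eq, Datum.gram, pureMat_mulVec, pureVec_dot]
  simp only [hP.alt.f1_eq]

lemma polar_pure_zero {u v : Fin t → Fin k → F} {l : Fin t} (h : D.f1 (u l) (v l) = 0) :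
    polar q (pureTensorVec u) (pureTensorVec v) = 0 := by
  rw [hP.polar_pure, Finset.prod_eq_zero (Finset.mem_univ l) h, mul_zero]

lemma polar_pure_ne {u v : Fin t → Fin k → F} (h : ∀ l, D.f1 (u l) (v l) ≠ 0) :
    polar q (pureTensorVec u) (pureTensorVec v) ≠ 0 := by
  rw [hP.polar_pure]
  exact mul_ne_zero hP.c_ne (Finset.prod_ne_zero_iff.mpr fun l _ => h l)

lemma f1_comm_zero {x y : Fin k → F} (h : D.f1 x y = 0) : D.f1 y x = 0 := by
  rw [hP.alt.skew x y, h, neg_zero]

lemma exists_ne {x : Fin k → F} (hx : x ≠ 0) : ∃ y, D.f1 x y ≠ 0 :=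
  (hP.alt.symp.nondegenerate x hx).2

end PForm

variable {M : Subgroup (GL (Fin t → Fin k) F)} {q : QuadraticForm F ((Fin t → Fin k) → F)}

/-- The Siegel element of `u` and `w` is defined and lies in `M`. -/
def SgIn (q : QuadraticForm F ((Fin t → Fin k) → F)) (M : Subgroup (GL (Fin t → Fin k) F))
    (u w : (Fin t → Fin k) → F) : Prop :=
  ∃ (hu : q u = 0) (hw : polar q u w = 0), sg q u w hu hw ∈ M

namespace SgIn

variable {u w w' : (Fin t → Fin k) → F}

lemma zero (hu : q u = 0) : SgIn q M u 0 := by
  refine ⟨hu, polar_zero_right q u, ?_⟩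
  have : sg q u 0 hu (polar_zero_right q u) = 1 := gl_ext fun x => by simp [ap_sg]
  rw [this]
  exact one_mem M

lemma polar_self_zero (hu : q u = 0) : polar q u u = 0 := by
  rw [polar_self, hu, smul_zero]

lemma add (h : SgIn q M u w) (h' : SgIn q M u w') : SgIn q M u (w + w') := by
  obtain ⟨hu, hw, hm⟩ := h
  obtain ⟨_, hw', hm'⟩ := h'
  have hww : polar q u (w + w') = 0 := by rw [polar_add_right, hw, hw', add_zero]
  refine ⟨hu, hww, ?_⟩
  have : sg q u (w + w') hu hww = sg q u w hu hw * sg q u w' hu hw' := gl_ext fun x => by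
    have e0 := polar_self_zero hu
    have e1 : polar q w' u = 0 := by rw [polar_comm, hw']
    have e2 : polar q w' w = polar q w w' := polar_comm _ _ _
    have e3 : q (w + w') = q w + q w' + polar q w w' := by rw [polar]; ring
    simp only [ap_mul, ap_sg, sub_eq_add_neg, ← neg_smul, polar_add_left, polar_smul_left,
      polar_add_right, smul_eq_mul, e0, e1, e2, e3, hw, mul_zero, add_zero]
    module
  rw [this]
  exact M.mul_mem hm hm'

lemma neg (h : SgIn q M u w) : SgIn q M u (-w) := by
  obtain ⟨hu, hw, hm⟩ := h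
  have hw' : polar q u (-w) = 0 := by rw [polar_neg_right, hw, neg_zero]
  refine ⟨hu, hw', ?_⟩
  have : sg q u w hu hw * sg q u (-w) hu hw' = 1 := gl_ext fun x => by
    have e0 := polar_self_zero hu
    have e1 : polar q w u = 0 := by rw [polar_comm, hw]
    have e2 : polar q w w = 2 * q w := by rw [polar_self]; simp
    simp only [ap_mul, ap_one, ap_sg, sub_eq_add_neg, ← neg_smul, polar_add_left, polar_smul_left,
      polar_neg_right, QuadraticMap.map_neg, smul_eq_mul, smul_neg, e0, e1, e2, hw]
    module
  rw [eq_inv_of_mul_eq_one_right this]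
  exact M.inv_mem hm

lemma sub (h : SgIn q M u w) (h' : SgIn q M u w') : SgIn q M u (w - w') := by
  rw [sub_eq_add_neg]; exact h.add h'.neg

lemma shift (h : SgIn q M u w) (a : F) : SgIn q M u (w + a • u) := by
  obtain ⟨hu, hw, hm⟩ := h
  have e0 := polar_self_zero hu
  have hw' : polar q u (w + a • u) = 0 := by
    rw [polar_add_right, polar_smul_right, hw, e0, smul_zero, add_zero]
  refine ⟨hu, hw', ?_⟩
  have e1 : q (w + a • u) = q w := by
    have : q (w + a • u) = q w + q (a • u) + polar q w (a • u) := by rw [polar]; ring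
    rw [this, QuadraticMap.map_smul, hu, polar_smul_right, polar_comm, hw, smul_zero, smul_zero,
      add_zero, add_zero]
  have : sg q u (w + a • u) hu hw' = sg q u w hu hw := gl_ext fun x => by
    simp only [ap_sg, e1, polar_add_right, polar_smul_right, smul_eq_mul]
    module
  rwa [this]

lemma symm (h : SgIn q M u w) (hw0 : q w = 0) : SgIn q M w u := by
  suffices h' : SgIn q M w (-u) by simpa using h'.neg
  obtain ⟨hu, hw, hm⟩ := h
  have hw' : polar q w (-u) = 0 := by rw [polar_neg_right, polar_comm, hw, neg_zero]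
  refine ⟨hw0, hw', ?_⟩
  have : sg q w (-u) hw0 hw' = sg q u w hu hw := gl_ext fun x => by
    simp only [ap_sg, polar_neg_right, QuadraticMap.map_neg, hu, hw0, zero_mul, add_zero]
    module
  rwa [this]

lemma unsmul {a : F} (ha : a ≠ 0) (h : SgIn q M (a • u) w) : SgIn q M u (a • w) := by
  obtain ⟨hu, hw, hm⟩ := h
  have hu0 : q u = 0 := by simpa [QuadraticMap.map_smul, ha] using hu
  have hw0 : polar q u (a • w) = 0 := by
    simpa [polar_smul_left, polar_smul_right, ha] using hw
  refine ⟨hu0, hw0, ?_⟩
  have : sg q u (a • w) hu0 hw0 = sg q (a • u) w hu hw := gl_ext fun x => by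
    simp only [ap_sg, QuadraticMap.map_smul, polar_smul_right, smul_eq_mul]
    module
  rwa [this]

lemma move (hM : M ≤ Cfsg.isometryGroup F (⇑q)) {g : GL (Fin t → Fin k) F} (hg : g ∈ M)
    (h : SgIn q M u w) : SgIn q M (ap g u) (ap g w) := by
  obtain ⟨hu, hw, hm⟩ := h
  refine ⟨by rw [Orth.mem_isometryGroup_iff.mp (hM hg), hu],
    by rw [Orth.polar_ap (hM hg), hw], ?_⟩
  rw [← Orth.conj_sg (hM hg) hu hw]
  exact M.mul_mem (M.mul_mem hg hm) (M.inv_mem hg)

/-- A Siegel element fixing `p` moves a Siegel element centred at `p`. -/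
lemma hit (hM : M ≤ Cfsg.isometryGroup F (⇑q)) {p r s : (Fin t → Fin k) → F}
    (hp : SgIn q M p w) (hrs : SgIn q M r s) (hrp : polar q r p = 0) (hsp : polar q s p = 0)
    (hws : polar q w s = 0) (hs : q s = 0) : SgIn q M p (polar q w r • s) := by
  obtain ⟨hr, hs', hm⟩ := hrs
  have h2 := hp.move hM hm
  have e1 : ap (sg q r s hr hs') p = p :=
    Orth.ap_sg_fix hr hs' (by rw [polar_comm, hrp]) (by rw [polar_comm, hsp])
  have e2 : ap (sg q r s hr hs') w = w + polar q w r • s := by
    rw [ap_sg, hws, hs, zero_mul, add_zero, zero_smul, sub_zero]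
  rw [e1, e2] at h2
  have := h2.sub hp
  rwa [add_sub_cancel_left] at this

end SgIn

/-- `M` holds all Siegel elements of the pure tensor `p` and the multiples of the pure tensor `T`. -/
def Has (q : QuadraticForm F ((Fin t → Fin k) → F)) (M : Subgroup (GL (Fin t → Fin k) F))
    (p T : Fin t → Fin k → F) : Prop :=
  ∀ a : F, SgIn q M (pureTensorVec p) (a • pureTensorVec T)

namespace Has

variable {D : Datum k F} {c : F} {p T : Fin t → Fin k → F}

lemma one (h : Has q M p T) : SgIn q M (pureTensorVec p) (pureTensorVec T) := by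
  simpa using h 1

lemma of_zero (hP : PForm D q c) {l : Fin t} (h : T l = 0) : Has q M p T := fun a => by
  rw [pureVec_eq_zero h, smul_zero]
  exact SgIn.zero (hP.pure p)

lemma update_sub {l : Fin t} {x y : Fin k → F} (h : Has q M p (Function.update T l (x + y)))
    (h' : Has q M p (Function.update T l y)) : Has q M p (Function.update T l x) := fun a => by
  have := (h a).sub (h' a)
  rwa [pureVec_update_add, smul_add, add_sub_cancel_right] at this

/-- From the vectors pairing non-trivially with `p` at some positions to all vectors there. -/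
lemma extend (hP : PForm D q c) (hp : ∀ l, p l ≠ 0) (S : Finset (Fin t))
    (h : ∀ T', (∀ l ∉ S, T' l = T l) → (∀ l ∈ S, D.f1 (p l) (T' l) ≠ 0) → Has q M p T') :
    Has q M p T := by
  classical
  induction S using Finset.induction generalizing T with
  | empty => exact h T (fun l _ => rfl) (fun l hl => absurd hl (Finset.notMem_empty l))
  | insert a S ha ih =>
    refine ih fun T' hT' hS => ?_
    have hgood : ∀ x, D.f1 (p a) x ≠ 0 → Has q M p (Function.update T' a x) := fun x hx =>
      h _ (fun l hl => by
        rw [Finset.mem_insert, not_or] at hl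
        rw [Function.update_of_ne hl.1, hT' l hl.2]) fun l hl => by
        by_cases hla : l = a
        · subst hla; simpa using hx
        · rw [Function.update_of_ne hla]
          exact hS l ((Finset.mem_insert.mp hl).resolve_left hla)
    by_cases h0 : D.f1 (p a) (T' a) = 0
    · obtain ⟨y, hy⟩ := hP.exists_ne (hp a)
      have h1 := hgood (T' a + y) (by rw [D.f1_add_right, h0, zero_add]; exact hy)
      have h2 := update_sub h1 (hgood y hy)
      rwa [Function.update_eq_self] at h2
    · have h1 := hgood _ h0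
      rwa [Function.update_eq_self] at h1

/-- A pair sharing enough with `p` carries `Has` from `w` to `T`. -/
lemma of_pair (hP : PForm D q c) (hM : M ≤ Cfsg.isometryGroup F (⇑q))
    {w r : Fin t → Fin k → F} (hw : Has q M p w)
    (hrT : SgIn q M (pureTensorVec r) (pureTensorVec T))
    (hrp : ∃ l, D.f1 (p l) (r l) = 0) (hTp : ∃ l, D.f1 (p l) (T l) = 0)
    (hwT : ∃ l, D.f1 (w l) (T l) = 0) (hwr : ∀ l, D.f1 (w l) (r l) ≠ 0) : Has q M p T := by
  intro a
  obtain ⟨l, hl⟩ := hrp
  obtain ⟨l', hl'⟩ := hTp
  obtain ⟨l'', hl''⟩ := hwT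
  have hπ := hP.polar_pure_ne hwr
  have := (hw (a / polar q (pureTensorVec w) (pureTensorVec r))).hit hM hrT
    (hP.polar_pure_zero (hP.f1_comm_zero hl)) (hP.polar_pure_zero (hP.f1_comm_zero hl'))
    (by rw [polar_smul_left, hP.polar_pure_zero hl'', smul_zero]) (hP.pure _)
  rwa [polar_smul_left, smul_eq_mul, div_mul_cancel₀ _ hπ] at this

end Has

section Spread

variable {D : Datum k F} {c : F} (hP : PForm D q c) (hM : Over D M)
  (hMi : M ≤ Cfsg.isometryGroup F (⇑q))
include hP hM hMi

lemma pureGL_mem {a : Fin t → GL (Fin k) F} (ha : ∀ l, a l ∈ CfsgLib.Geometric.isom D.f1) :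
    pureGL a ∈ M := by
  classical
  suffices h : ∀ S : Finset (Fin t), pureGL (fun l => if l ∈ S then a l else 1) ∈ M by
    simpa using h Finset.univ
  intro S
  induction S using Finset.induction with
  | empty =>
    have : pureGL (fun l : Fin t => if l ∈ (∅ : Finset (Fin t)) then a l else 1) = 1 :=
      Units.ext (by simp [pureGL, pureMat_one, ← Pi.one_def])
    rw [this]; exact one_mem M
  | insert x S hx ih =>
    have : pureGL (fun l => if l ∈ insert x S then a l else 1) =
        slotGL x (a x) * pureGL (fun l => if l ∈ S then a l else 1) := Units.ext (by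
      rw [Units.val_mul, slotGL_val, slot_apply]
      show pureMat _ = _ * pureMat _
      rw [← pureMat_mul]
      congr 1
      funext l
      by_cases hl : l = x
      · subst hl; simp [hx]
      · simp [hl])
    rw [this]
    exact M.mul_mem (hM.slot_mem x _ (ha x)) ih

omit hP hM hMi in
lemma ap_pureGL (a : Fin t → GL (Fin k) F) (v : Fin t → Fin k → F) :
    ap (pureGL a) (pureTensorVec v) = pureTensorVec fun l => ap (a l) (v l) :=
  pureMat_mulVec _ v

/-- The Siegel elements in `M` given by a long root element at pure tensors. -/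
lemma exists_base (hpure : HasPure D M) : ∃ (i : Fin t) (κ : F) (x z : Fin k → F), κ ≠ 0 ∧
    LinearIndependent F ![x, z] ∧ ∀ (p : Fin t → Fin k → F) (a : GL (Fin k) F),
      (∀ l, p l ≠ 0) → a ∈ CfsgLib.Geometric.isom D.f1 → ap a z = p i →
        SgIn q M (pureTensorVec p) (pureTensorVec (Function.update p i (κ • ap a x))) := by
  classical
  obtain ⟨i, u, x, z, κ, hκ, hu, hxz, -, g, hg, hgv⟩ := hpure
  refine ⟨i, κ / c, x, z, div_ne_zero hκ hP.c_ne, hxz, fun p a hp ha haz => ?_⟩
  have hz : z ≠ 0 := hxz.ne_zero 1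
  have ht : ∃ l, l ≠ i :=
    Fintype.exists_ne_of_one_lt_card (by rw [Fintype.card_fin]; exact hP.t_two) i
  obtain ⟨l₀, hl₀⟩ := ht
  have hq0 : q (pureTensorVec (Function.update u i z)) = 0 := hP.pure _
  have horth : polar q (pureTensorVec (Function.update u i z))
      ((κ / c) • pureTensorVec (Function.update u i x)) = 0 := by
    rw [polar_smul_right, hP.polar_pure_zero (l := l₀)
      (by rw [Function.update_of_ne hl₀, Function.update_of_ne hl₀, hP.alt.alt]), smul_zero]
  have hgs : g = sg q _ _ hq0 horth := by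
    refine Units.ext (ext_pure fun v => ?_)
    show (g : Matrix (Fin t → Fin k) (Fin t → Fin k) F) *ᵥ pureTensorVec v =
      ap (sg q _ _ hq0 horth) (pureTensorVec v)
    rw [hgv, Matrix.add_mulVec, Matrix.one_mulVec, Matrix.smul_mulVec, pureMat_mulVec, ap_sg,
      QuadraticMap.map_smul, hP.pure, smul_zero, zero_mul, add_zero, polar_smul_right,
      hP.polar_pure, hP.polar_pure]
    have hprod : ∀ y, ∏ l, D.f1 (v l) (Function.update u i y l) =
        D.f1 (v i) y * ∏ l ∈ Finset.univ.erase i, D.f1 (v l) (u l) := fun y => by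
      rw [← Finset.mul_prod_erase _ _ (Finset.mem_univ i), Function.update_self]
      congr 1
      exact Finset.prod_congr rfl fun l hl => by
        rw [Function.update_of_ne (Finset.ne_of_mem_erase hl)]
    have hvec : (fun l => Function.update (fun l => rk D (u l) (u l)) i (al D x z) l *ᵥ v l) =
        fun l => Function.update (fun l => D.f1 (v l) (u l)) i 1 l •
          Function.update u i (D.f1 (v i) z • x + (-D.f1 (v i) x) • z) l := funext fun l => by
      by_cases hl : l = i
      · subst hl
        simp [hP.alt.al_mulVec, sub_eq_add_neg]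
      · simp [Function.update_of_ne hl, rk_mulVec]
    rw [hvec, pureVec_smul_all, pureVec_update_add, pureVec_update_smul, pureVec_update_smul,
      Finset.prod_update_of_mem (Finset.mem_univ i), one_mul, Finset.sdiff_singleton_eq_erase,
      hprod, hprod, sub_eq_add_neg, smul_eq_mul]
    have := hP.c_ne
    match_scalars <;> field_simp
  choose b hb hbp using fun l : Fin t => show ∃ b ∈ CfsgLib.Geometric.isom D.f1,
      l ≠ i → ap b (u l) = p l by
    by_cases hl : l = i
    · exact ⟨1, one_mem _, fun h => absurd hl h⟩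
    · obtain ⟨b, hb, hbu⟩ := Symp.exists_isom_map hP.alt.symp (hu l hl) (hp l)
      exact ⟨b, hb, fun _ => hbu⟩
  have h0 : SgIn q M (pureTensorVec (Function.update u i z))
      ((κ / c) • pureTensorVec (Function.update u i x)) := ⟨hq0, horth, hgs ▸ hg⟩
  have h1 := h0.move hMi (pureGL_mem hP hM hMi (a := Function.update b i a) fun l => by
    by_cases hl : l = i
    · subst hl; simpa using ha
    · simpa [Function.update_of_ne hl] using hb l)
  rw [ap_smul, ap_pureGL, ap_pureGL] at h1
  rw [pureVec_update_smul]
  convert h1 using 4 with l l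
  · by_cases hl : l = i
    · subst hl; simp [haz]
    · simp [Function.update_of_ne hl, hbp l hl]
  · by_cases hl : l = i
    · subst hl; simp
    · simp [Function.update_of_ne hl, hbp l hl]

/-- Stage A: one position changed inside the perpendicular space. -/
lemma exists_has_perp (hpure : HasPure D M) : ∃ i : Fin t, ∀ (p : Fin t → Fin k → F) (y : Fin k → F),
    (∀ l, p l ≠ 0) → D.f1 (p i) y = 0 → Has q M p (Function.update p i y) := by
  obtain ⟨i, κ, x, z, hκ, hxz, hbase⟩ := exists_base hP hM hMi hpure
  refine ⟨i, fun p y hp hy a => ?_⟩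
  have hf := hP.alt.symp
  rw [← pureVec_update_smul]
  have hy' : D.f1 (p i) (a • y) = 0 := by rw [hP.alt.smul_right, hy, mul_zero]
  generalize a • y = y' at hy'
  have hz : z ≠ 0 := hxz.ne_zero 1
  obtain ⟨b, hb, hbz⟩ := Symp.exists_isom_map hf hz (hp i)
  set y₀ := κ • ap b x with hy₀
  have hy₀p : y₀ ∉ Submodule.span F {p i} := by
    intro hmem
    obtain ⟨s, hs⟩ := Submodule.mem_span_singleton.mp hmem
    have h1 : κ • x = s • z := ap_injective b (by rw [ap_smul, ap_smul, hbz]; exact hs.symm)
    have := (LinearIndependent.pair_iff.mp hxz κ (-s) (by rw [h1, neg_smul, add_neg_cancel])).1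
    exact hκ this
  -- multiples of the vectors seen by `y₀`
  have hseen : ∀ v, D.f1 (p i) v = 0 → D.f1 y₀ v ≠ 0 →
      SgIn q M (pureTensorVec p) (pureTensorVec (Function.update p i v)) := by
    intro v hv hne
    set s := (D.f1 y₀ v)⁻¹ with hs
    have hT := Symp.T_mem_isom hf v s
    have h1 := hbase p (Symp.T hf v s * b) hp (mul_mem hT hb) (by
      rw [ap_mul, hbz, Symp.ap_T_fix hf s hv])
    have h2 := h1.sub (hbase p b hp hb hbz)
    rw [ap_mul, ← ap_smul, ← hy₀, Symp.ap_T, hs, inv_mul_cancel₀ hne, one_smul,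
      pureVec_update_add, add_sub_cancel_left] at h2
    exact h2
  by_cases h0 : D.f1 y₀ y' = 0
  · obtain ⟨v₀, hv₀, hv₀1⟩ := Symp.exists_perp_one hf hy₀p
    have hv₀' : D.f1 (p i) v₀ = 0 :=
      hP.f1_comm_zero (hv₀ _ (Submodule.mem_span_singleton_self _))
    have h1 := (hseen (y' + v₀) (by rw [D.f1_add_right, hy', hv₀', add_zero])
      (by rw [D.f1_add_right, h0, hv₀1, zero_add]; exact one_ne_zero)).sub
        (hseen v₀ hv₀' (by rw [hv₀1]; exact one_ne_zero))
    rwa [pureVec_update_add, add_sub_cancel_right] at h1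
  · exact hseen y' hy' h0

omit hM hMi in
/-- A nonzero vector orthogonal to two given ones. -/
lemma exists_perp_two (hk : 3 ≤ k) (a b : Fin k → F) :
    ∃ u : Fin k → F, u ≠ 0 ∧ D.f1 a u = 0 ∧ D.f1 b u = 0 := by
  have hker : LinearMap.ker ((Symp.fl hP.alt.symp a).prod (Symp.fl hP.alt.symp b)) ≠ ⊥ :=
    LinearMap.ker_ne_bot_of_finrank_lt (by simp; omega)
  obtain ⟨u, hu, hu0⟩ := Submodule.exists_mem_ne_zero_of_ne_bot hker
  have hu' := LinearMap.mem_ker.mp hu
  have h1 : D.f1 u a = 0 := congrArg Prod.fst hu'
  have h2 : D.f1 u b = 0 := congrArg Prod.snd hu'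
  exact ⟨u, hu0, hP.f1_comm_zero h1, hP.f1_comm_zero h2⟩

/-- Stages B to E: every pure tensor orthogonal to `p`, in at least four dimensions of a factor. -/
lemma has_of_perp (hk : 3 ≤ k) (hpure : HasPure D M) {p T : Fin t → Fin k → F}
    (hp : ∀ l, p l ≠ 0) (hT : ∃ l, D.f1 (p l) (T l) = 0) : Has q M p T := by
  classical
  obtain ⟨i, hA⟩ := exists_has_perp hP hM hMi hpure
  have hf := hP.alt.symp
  -- one factor on the line of `p`
  have hB : ∀ p T : Fin t → Fin k → F, (∀ l, p l ≠ 0) → T i ∈ Submodule.span F {p i} →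
      Has q M p T := by
    intro p T hp hline
    refine Has.extend hP hp (Finset.univ.erase i) fun T' hT' hS => ?_
    obtain ⟨s, hs⟩ : ∃ s : F, s • p i = T' i := by
      rw [hT' i (Finset.notMem_erase i _)]; exact Submodule.mem_span_singleton.mp hline
    obtain ⟨v, hv⟩ := hP.exists_ne (hp i)
    obtain ⟨u, hu0, hu1, hu2⟩ := exists_perp_two hP hk (p i) v
    have hup : u ∉ Submodule.span F {p i} := fun h => by
      obtain ⟨a, rfl⟩ := Submodule.mem_span_singleton.mp h
      rw [hP.alt.smul_right, hP.alt.skew (p i) v, mul_eq_zero, neg_eq_zero] at hu2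
      exact hu0 (by rw [hu2.resolve_right hv, zero_smul])
    obtain ⟨y, hy, huy⟩ := Symp.exists_perp_one hf hup
    have hyp : D.f1 y (p i) = 0 := hy _ (Submodule.mem_span_singleton_self _)
    have hne : ∀ l, l ≠ i → D.f1 (p l) (T' l) ≠ 0 := fun l hl => hS l (by simp [hl])
    have hr : ∀ l, Function.update T' i u l ≠ 0 := fun l => by
      by_cases hl : l = i
      · subst hl; simpa using hu0
      · rw [Function.update_of_ne hl]
        intro h0
        exact hne l hl (by rw [h0, TensorHerm.f1_zero_right])
    have hrT := (hA (Function.update T' i u) (T' i) hr (by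
      rw [Function.update_self, ← hs, hP.alt.smul_right, hP.f1_comm_zero hu1, mul_zero])).one
    rw [Function.update_idem, Function.update_eq_self] at hrT
    refine Has.of_pair hP hMi (hA p y hp (hP.f1_comm_zero hyp)) hrT ⟨i, by simpa using hu1⟩
      ⟨i, by rw [← hs, hP.alt.smul_right, hP.alt.alt, mul_zero]⟩
      ⟨i, by rw [Function.update_self, ← hs, hP.alt.smul_right, hyp, mul_zero]⟩ fun l => ?_
    by_cases hl : l = i
    · subst hl
      rw [Function.update_self, Function.update_self, hP.alt.skew u y, huy]
      exact neg_ne_zero.mpr one_ne_zero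
    · rw [Function.update_of_ne hl, Function.update_of_ne hl]; exact hne l hl
  -- two orthogonal factors
  have hC : ∀ p T : Fin t → Fin k → F, (∀ l, p l ≠ 0) → D.f1 (p i) (T i) = 0 →
      (∃ j, j ≠ i ∧ D.f1 (p j) (T j) = 0) → Has q M p T := by
    rintro p T hp hi ⟨j, hji, hj⟩
    by_cases hline : T i ∈ Submodule.span F {p i}
    · exact hB p T hp hline
    by_cases hj0 : T j = 0
    · exact Has.of_zero hP hj0
    refine Has.extend hP hp ((Finset.univ.erase i).erase j) fun T' hT' hS => ?_
    have hTi : T' i = T i := hT' i (by simp)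
    have hTj : T' j = T j := hT' j (by simp)
    obtain ⟨y, hy, hTy⟩ := Symp.exists_perp_one hf hline
    have hyp : D.f1 y (p i) = 0 := hy _ (Submodule.mem_span_singleton_self _)
    obtain ⟨qj, hqj⟩ := hP.exists_ne (hp j)
    have hne : ∀ l, l ≠ i → l ≠ j → D.f1 (p l) (T' l) ≠ 0 := fun l h1 h2 => hS l (by simp [h1, h2])
    have hT0 : ∀ l, T' l ≠ 0 := fun l h0 => by
      by_cases h1 : l = i
      · subst h1; exact hline (by rw [← hTi, h0]; exact zero_mem _)
      by_cases h2 : l = j
      · subst h2; exact hj0 (hTj ▸ h0)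
      exact hne l h1 h2 (by rw [h0, TensorHerm.f1_zero_right])
    have hsT := (hB T' (Function.update T' j qj) hT0 (by
      rw [Function.update_of_ne hji.symm]; exact Submodule.mem_span_singleton_self _)).one.symm
        (hP.pure _)
    refine Has.of_pair hP hMi (hA p y hp (hP.f1_comm_zero hyp)) hsT
      ⟨i, by rw [Function.update_of_ne hji.symm, hTi, hi]⟩ ⟨i, by rw [hTi, hi]⟩
      ⟨j, by rw [Function.update_of_ne hji, hTj, hj]⟩ fun l => ?_
    by_cases h1 : l = i
    · subst h1
      rw [Function.update_self, Function.update_of_ne hji.symm, hTi, hP.alt.skew (T l) y, hTy]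
      exact neg_ne_zero.mpr one_ne_zero
    rw [Function.update_of_ne h1]
    by_cases h2 : l = j
    · subst h2; simpa using hqj
    · rw [Function.update_of_ne h2]; exact hne l h1 h2
  -- one orthogonal factor
  have hD : ∀ p T : Fin t → Fin k → F, (∀ l, p l ≠ 0) → D.f1 (p i) (T i) = 0 → Has q M p T := by
    intro p T hp hi
    by_cases hline : T i ∈ Submodule.span F {p i}
    · exact hB p T hp hline
    refine Has.extend hP hp (Finset.univ.erase i) fun T' hT' hS => ?_
    obtain ⟨j, hji⟩ : ∃ j, j ≠ i :=
      Fintype.exists_ne_of_one_lt_card (by rw [Fintype.card_fin]; exact hP.t_two) i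
    have hTi : T' i = T i := hT' i (by simp)
    obtain ⟨y, hy, hTy⟩ := Symp.exists_perp_one hf hline
    have hyp : D.f1 y (p i) = 0 := hy _ (Submodule.mem_span_singleton_self _)
    obtain ⟨wj, hwj0, hwjp, hwjT⟩ := exists_perp_two hP hk (p j) (T' j)
    obtain ⟨rj, hrj⟩ := hP.exists_ne hwj0
    have hne : ∀ l, l ≠ i → D.f1 (p l) (T' l) ≠ 0 := fun l h1 => hS l (by simp [h1])
    have hr : ∀ l, Function.update T' j rj l ≠ 0 := fun l => by
      by_cases h2 : l = j
      · subst h2
        rw [Function.update_self]
        intro h0; exact hrj (by rw [h0, TensorHerm.f1_zero_right])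
      rw [Function.update_of_ne h2]
      intro h0
      by_cases h1 : l = i
      · subst h1; exact hline (by rw [← hTi, h0]; exact zero_mem _)
      exact hne l h1 (by rw [h0, TensorHerm.f1_zero_right])
    have hrT := (hB (Function.update T' j rj) T' hr (by
      rw [Function.update_of_ne hji.symm]; exact Submodule.mem_span_singleton_self _)).one
    have hw := hC p (Function.update (Function.update p i y) j wj) hp
      (by rw [Function.update_of_ne hji.symm, Function.update_self]; exact hP.f1_comm_zero hyp)
      ⟨j, hji, by rw [Function.update_self]; exact hwjp⟩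
    refine Has.of_pair hP hMi hw hrT ⟨i, by rw [Function.update_of_ne hji.symm, hTi, hi]⟩
      ⟨i, by rw [hTi, hi]⟩ ⟨j, by rw [Function.update_self]; exact hP.f1_comm_zero hwjT⟩
      fun l => ?_
    by_cases h2 : l = j
    · subst h2; simpa using hrj
    rw [Function.update_of_ne h2, Function.update_of_ne h2]
    by_cases h1 : l = i
    · subst h1
      rw [Function.update_self, hTi, hP.alt.skew (T l) y, hTy]
      exact neg_ne_zero.mpr one_ne_zero
    · rw [Function.update_of_ne h1]; exact hne l h1
  -- the general case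
  by_cases hi : D.f1 (p i) (T i) = 0
  · exact hD p T hp hi
  by_cases h0 : ∃ l, T l = 0
  · exact Has.of_zero hP h0.choose_spec
  push Not at h0
  obtain ⟨ri, hri0, hrip, hriT⟩ := exists_perp_two hP hk (p i) (T i)
  have hriU : ri ∉ Submodule.span F {p i} ⊔ Submodule.span F {T i} := by
    intro hmem
    obtain ⟨_, ha, _, hb, hab⟩ := Submodule.mem_sup.mp hmem
    obtain ⟨a, rfl⟩ := Submodule.mem_span_singleton.mp ha
    obtain ⟨b, rfl⟩ := Submodule.mem_span_singleton.mp hb
    rw [← hab, D.f1_add_right, hP.alt.smul_right, hP.alt.smul_right, hP.alt.alt, mul_zero,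
      zero_add, mul_eq_zero] at hrip
    rw [← hab, D.f1_add_right, hP.alt.smul_right, hP.alt.smul_right, hP.alt.alt, mul_zero,
      add_zero, mul_eq_zero, hP.alt.skew (p i) (T i), neg_eq_zero] at hriT
    exact hri0 (by rw [← hab, hrip.resolve_right hi, hriT.resolve_right hi]; simp)
  obtain ⟨v, hv, hriv⟩ := Symp.exists_perp_one hf hriU
  have hvp : D.f1 v (p i) = 0 :=
    hv _ (Submodule.mem_sup_left (Submodule.mem_span_singleton_self _))
  have hvT : D.f1 v (T i) = 0 :=
    hv _ (Submodule.mem_sup_right (Submodule.mem_span_singleton_self _))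
  choose qv hqv using fun l => hP.exists_ne (hp l)
  have hr : ∀ l, Function.update qv i ri l ≠ 0 := update_ne_zero
    (fun l h => hqv l (by rw [h, TensorHerm.f1_zero_right])) i hri0
  have hrT := (hD (Function.update qv i ri) T hr (by
    rw [Function.update_self]; exact hP.f1_comm_zero hriT)).one
  refine Has.of_pair hP hMi (hA p v hp (hP.f1_comm_zero hvp)) hrT ⟨i, by simpa using hrip⟩ hT
    ⟨i, by rw [Function.update_self]; exact hvT⟩ fun l => ?_
  by_cases h1 : l = i
  · subst h1
    rw [Function.update_self, Function.update_self, hP.alt.skew ri v, hriv]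
    exact neg_ne_zero.mpr one_ne_zero
  · rw [Function.update_of_ne h1, Function.update_of_ne h1]; exact hqv l

omit hM hMi in
/-- In two dimensions orthogonal vectors are dependent. -/
lemma line_of_perp (hk : k = 2) {a v : Fin k → F} (ha : a ≠ 0) (h : D.f1 a v = 0) :
    v ∈ Submodule.span F {a} := by
  by_contra hv
  have hli : LinearIndependent F ![a, v] :=
    (LinearIndependent.pair_iff' ha).mpr fun s hs => hv (Submodule.mem_span_singleton.mpr ⟨s, hs⟩)
  have htop : Submodule.span F (Set.range ![a, v]) = ⊤ :=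
    hli.span_eq_top_of_card_eq_finrank (by simp [hk])
  obtain ⟨y, hy⟩ := hP.exists_ne ha
  obtain ⟨cf, hcf⟩ := (Submodule.mem_span_range_iff_exists_fun F).mp
    (htop ▸ Submodule.mem_top : y ∈ Submodule.span F (Set.range ![a, v]))
  simp only [Fin.sum_univ_two, Matrix.cons_val_zero, Matrix.cons_val_one] at hcf
  rw [← hcf, D.f1_add_right, hP.alt.smul_right, hP.alt.smul_right, hP.alt.alt, h] at hy
  exact hy (by ring)

/-- Every pure tensor orthogonal to `p`, for planes as factors. -/
lemma has_of_perp_two [Finite F] (hk : k = 2) (h2 : (2 : F) ≠ 0) (ht : 4 ≤ t)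
    (hpure : HasPure D M) {p T : Fin t → Fin k → F}
    (hp : ∀ l, p l ≠ 0) (hT : ∃ l, D.f1 (p l) (T l) = 0) : Has q M p T := by
  classical
  obtain ⟨i, κ, x, z, hκ, hxz, hbase⟩ := exists_base hP hM hMi hpure
  obtain ⟨i', hA⟩ := exists_has_perp hP hM hMi hpure
  have hf := hP.alt.symp
  have hcyc : ∀ (a b : Fin t), a ≠ b → ∃ g ∈ M, ∀ v : Fin t → Fin k → F,
      ∃ σ : Equiv.Perm (Fin t), σ a = b ∧ ap g (pureTensorVec (v ∘ σ)) = pureTensorVec v ∧
        ∀ w, ap g (pureTensorVec w) = pureTensorVec fun l => w (σ.symm l) := by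
    intro a b hab
    obtain ⟨d, -, hd⟩ : ∃ d ∈ (Finset.univ : Finset (Fin t)), d ∉ ({a, b} : Finset (Fin t)) :=
      Finset.exists_mem_notMem_of_card_lt_card (by
        rw [Finset.card_univ, Fintype.card_fin, Finset.card_pair hab]; omega)
    simp only [Finset.mem_insert, Finset.mem_singleton, not_or] at hd
    refine ⟨_, hM.cyc_mem a b d hab (Ne.symm hd.2) (Ne.symm hd.1), fun v => ?_⟩
    refine ⟨Equiv.swap a d * Equiv.swap a b, ?_, ?_, fun w =>
      factorPerm_mulVec (σ := Equiv.swap a d * Equiv.swap a b) (fun x y => rfl) w⟩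
    · simp [Equiv.swap_apply_of_ne_of_ne hab.symm (Ne.symm hd.2)]
    · rw [ap_def, factorPerm_mulVec (σ := Equiv.swap a d * Equiv.swap a b) (fun x y => rfl)]
      congr 1
      funext l
      simp only [Function.comp_apply, Equiv.apply_symm_apply]
  -- one position changed
  have hA2i : ∀ (p : Fin t → Fin k → F) (y : Fin k → F), (∀ l, p l ≠ 0) →
      Has q M p (Function.update p i y) := by
    intro p y hp a
    rw [← pureVec_update_smul]
    generalize a • y = y'
    obtain ⟨b, hb, hbz⟩ := Symp.exists_isom_map hf (show z ≠ 0 from hxz.ne_zero 1) (hp i)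
    set y₀ := κ • ap b x with hy₀
    have hδ : D.f1 (p i) y₀ ≠ 0 := by
      rw [hy₀, hP.alt.smul_right, ← hbz, CfsgLib.Geometric.mem_isom_iff.mp hb]
      refine mul_ne_zero hκ fun h => ?_
      obtain ⟨s, hs⟩ := Submodule.mem_span_singleton.mp
        (line_of_perp hP hk (show z ≠ 0 from hxz.ne_zero 1) h)
      have := (LinearIndependent.pair_iff.mp hxz 1 (-s) (by rw [← hs, one_smul, neg_smul, add_neg_cancel])).1
      exact one_ne_zero this
    obtain ⟨j, hji⟩ : ∃ j, j ≠ i :=
      Fintype.exists_ne_of_one_lt_card (by rw [Fintype.card_fin]; exact hP.t_two) i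
    have hsq : ∀ a : F, SgIn q M (pureTensorVec p)
        ((a ^ 2) • pureTensorVec (Function.update p i y₀)) := by
      intro a
      by_cases ha : a = 0
      · rw [ha, zero_pow two_ne_zero, zero_smul]; exact SgIn.zero (hP.pure p)
      have h1 := hbase (Function.update p j (a • p j)) b
        (update_ne_zero hp j (smul_ne_zero ha (hp j))) hb
        (by rw [Function.update_of_ne hji.symm, hbz])
      rw [Function.update_comm hji, ← hy₀, pureVec_update_smul, pureVec_update_smul,
        Function.update_eq_self, show Function.update (Function.update p i y₀) j (p j) =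
          Function.update p i y₀ by rw [Function.update_comm hji.symm, Function.update_eq_self]] at h1
      have h2 := h1.unsmul ha
      rwa [smul_smul, ← _root_.sq] at h2
    obtain ⟨a, a', haa⟩ := Orth.exists_combination (F := F) one_ne_zero one_ne_zero h2
      (D.f1 (p i) y' / D.f1 (p i) y₀)
    rw [one_mul, one_mul] at haa
    have hperp : D.f1 (p i) (y' + (-(D.f1 (p i) y' / D.f1 (p i) y₀)) • y₀) = 0 := by
      rw [D.f1_add_right, hP.alt.smul_right, neg_mul, div_mul_cancel₀ _ hδ, add_neg_cancel]
    obtain ⟨s, hs⟩ := Submodule.mem_span_singleton.mp (line_of_perp hP hk (hp i) hperp)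
    have h3 := (((hsq a).add (hsq a')).shift s)
    rw [← add_smul, haa, ← pureVec_update_smul,
      show s • pureTensorVec p = pureTensorVec (Function.update p i (s • p i)) by
        rw [pureVec_update_smul, Function.update_eq_self],
      ← pureVec_update_add, hs] at h3
    convert h3 using 4
    module
  have hA2 : ∀ (l : Fin t) (p : Fin t → Fin k → F) (y : Fin k → F), (∀ l, p l ≠ 0) →
      Has q M p (Function.update p l y) := by
    intro l p y hp
    by_cases hl : l = i
    · subst hl; exact hA2i p y hp
    intro a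
    obtain ⟨g, hg, hgv⟩ := hcyc i l (Ne.symm hl)
    obtain ⟨σ, hσ, hp', hw⟩ := hgv p
    have h1 := (hA2i (p ∘ σ) y (fun l => hp (σ l)) a).move hMi hg
    rw [hp', ap_smul, hw] at h1
    convert h1 using 4 with m
    by_cases hm : m = l
    · subst hm
      rw [Function.update_self, show σ.symm m = i by rw [Equiv.symm_apply_eq, hσ],
        Function.update_self]
    · rw [Function.update_of_ne hm, Function.update_of_ne (fun h => hm (by
        rw [(Equiv.symm_apply_eq σ).mp h, hσ]))]
      simp
  -- two parallel factors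
  have hB : ∀ (p T : Fin t → Fin k → F) (l j : Fin t), (∀ l, p l ≠ 0) → l ≠ j →
      T l ∈ Submodule.span F {p l} → T j ∈ Submodule.span F {p j} → Has q M p T := by
    intro p T l j hp hlj hl hj
    by_cases h0 : T l = 0
    · exact Has.of_zero hP h0
    refine Has.extend hP hp ((Finset.univ.erase l).erase j) fun T' hT' hS => ?_
    have hTl : T' l = T l := hT' l (by simp)
    have hTj : T' j = T j := hT' j (by simp)
    obtain ⟨a, ha⟩ := Submodule.mem_span_singleton.mp hl
    obtain ⟨b, hb⟩ := Submodule.mem_span_singleton.mp hj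
    have ha0 : a ≠ 0 := fun h => h0 (by rw [← ha, h, zero_smul])
    have hne : ∀ m, m ≠ l → m ≠ j → D.f1 (p m) (T' m) ≠ 0 := fun m h1 h2 => hS m (by simp [h1, h2])
    obtain ⟨qj, hqj⟩ := hP.exists_ne (hp j)
    obtain ⟨y, hy⟩ := hP.exists_ne (hp l)
    have hr : ∀ m, Function.update T' j qj m ≠ 0 := fun m hm0 => by
      by_cases h2 : m = j
      · subst h2
        rw [Function.update_self] at hm0
        exact hqj (by rw [hm0, TensorHerm.f1_zero_right])
      rw [Function.update_of_ne h2] at hm0
      by_cases h1 : m = l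
      · subst h1; exact h0 (hTl ▸ hm0)
      exact hne m h1 h2 (by rw [hm0, TensorHerm.f1_zero_right])
    have hrT := (hA2 j (Function.update T' j qj) (T' j) hr).one
    rw [Function.update_idem, Function.update_eq_self] at hrT
    refine Has.of_pair hP hMi (hA2 l p y hp) hrT
      ⟨l, by rw [Function.update_of_ne hlj, hTl, ← ha, hP.alt.smul_right, hP.alt.alt, mul_zero]⟩
      ⟨l, by rw [hTl, ← ha, hP.alt.smul_right, hP.alt.alt, mul_zero]⟩
      ⟨j, by rw [Function.update_of_ne hlj.symm, hTj, ← hb, hP.alt.smul_right, hP.alt.alt, mul_zero]⟩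
      fun m => ?_
    by_cases h1 : m = l
    · subst h1
      rw [Function.update_self, Function.update_of_ne hlj, hTl, ← ha, hP.alt.smul_right,
        hP.alt.skew (p m) y]
      exact mul_ne_zero ha0 (neg_ne_zero.mpr hy)
    rw [Function.update_of_ne h1]
    by_cases h2 : m = j
    · subst h2; simpa using hqj
    · rw [Function.update_of_ne h2]; exact hne m h1 h2
  -- one parallel factor
  obtain ⟨l, hl⟩ := hT
  have hline := line_of_perp hP hk (hp l) hl
  by_cases h0 : T l = 0
  · exact Has.of_zero hP h0
  refine Has.extend hP hp (Finset.univ.erase l) fun T' hT' hS => ?_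
  have hTl : T' l = T l := hT' l (by simp)
  obtain ⟨a, b, d, ha, hb, hd, hab, had, hbd⟩ := Finset.two_lt_card_iff.mp
    (show 2 < (Finset.univ.erase l).card by
      rw [Finset.card_erase_of_mem (Finset.mem_univ l), Finset.card_univ, Fintype.card_fin]; omega)
  rw [Finset.mem_erase] at ha hb hd
  obtain ⟨y, hy⟩ := hP.exists_ne (hp d)
  obtain ⟨ql, hql⟩ := hP.exists_ne (hp l)
  have hne : ∀ m, m ≠ l → D.f1 (p m) (T' m) ≠ 0 := fun m h1 => hS m (by simp [h1])
  have hr : ∀ m, Function.update (Function.update T' l ql) d (p d) m ≠ 0 := by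
    refine update_ne_zero (fun m hm0 => ?_) d (hp d)
    by_cases h1 : m = l
    · subst h1
      rw [Function.update_self] at hm0
      exact hql (by rw [hm0, TensorHerm.f1_zero_right])
    rw [Function.update_of_ne h1] at hm0
    exact hne m h1 (by rw [hm0, TensorHerm.f1_zero_right])
  have hrT := (hB (Function.update (Function.update T' l ql) d (p d)) T' a b hr hab
    (by rw [Function.update_of_ne had, Function.update_of_ne ha.1]
        exact Submodule.mem_span_singleton_self _)
    (by rw [Function.update_of_ne hbd, Function.update_of_ne hb.1]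
        exact Submodule.mem_span_singleton_self _)).one
  refine Has.of_pair hP hMi (hA2 d p y hp) hrT
    ⟨d, by rw [Function.update_self]; exact hP.alt.alt _⟩ ⟨l, by rw [hTl, hl]⟩
    ⟨l, by rw [Function.update_of_ne (Ne.symm hd.1), hTl, hl]⟩ fun m => ?_
  by_cases h2 : m = d
  · subst h2
    rw [Function.update_self, Function.update_self, hP.alt.skew (p m) y]
    exact neg_ne_zero.mpr hy
  rw [Function.update_of_ne h2, Function.update_of_ne h2]
  by_cases h1 : m = l
  · subst h1; simpa using hql
  · rw [Function.update_of_ne h1]; exact hne m h1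

/-- All Siegel elements centred at a pure tensor. -/
theorem full_pure [Finite F] (hdim : 3 ≤ k ∨ (k = 2 ∧ (2 : F) ≠ 0 ∧ 4 ≤ t))
    (hpure : HasPure D M) {p : Fin t → Fin k → F} (hp : ∀ l, p l ≠ 0) :
    Orth.Full q M (pureTensorVec p) := by
  classical
  have hall : ∀ T : Fin t → Fin k → F, (∃ l, D.f1 (p l) (T l) = 0) → Has q M p T := by
    intro T hT
    rcases hdim with hk | ⟨hk, h2, ht⟩
    · exact has_of_perp hP hM hMi hk hpure hp hT
    · exact has_of_perp_two hP hM hMi hk h2 ht hpure hp hT
  choose d hd using fun l => hP.exists_ne (hp l)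
  set π := polar q (pureTensorVec p) (pureTensorVec d) with hπ
  have hπ0 : π ≠ 0 := hP.polar_pure_ne hd
  let φ : ((Fin t → Fin k) → F) → ((Fin t → Fin k) → F) := fun w =>
    w + (-(polar q (pureTensorVec p) w / π)) • pureTensorVec d
  have φadd : ∀ w w', φ (w + w') = φ w + φ w' := fun w w' => by
    simp only [φ, polar_add_right, add_div, neg_add, add_smul]; abel
  have φsmul : ∀ (a : F) w, φ (a • w) = a • φ w := fun a w => by
    simp only [φ, polar_smul_right, smul_eq_mul, smul_add, smul_smul]
    congr 2; ring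
  have hgood : ∀ (S : Finset (Fin t)) (T : Fin t → Fin k → F),
      (∀ l ∉ S, ∃ s : F, T l = s • d l) → ∀ a : F,
        SgIn q M (pureTensorVec p) (φ (a • pureTensorVec T)) := by
    intro S
    induction S using Finset.induction with
    | empty =>
      intro T hT a
      choose s hs using fun l => hT l (Finset.notMem_empty l)
      have : φ (a • pureTensorVec T) = 0 := by
        rw [show T = fun l => s l • d l from funext hs, pureVec_smul_all, smul_smul, φsmul]
        simp only [φ, ← hπ, div_self hπ0]
        simp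
      rw [this]; exact SgIn.zero (hP.pure p)
    | insert m S hm ih =>
      intro T hT a
      set s := D.f1 (p m) (T m) / D.f1 (p m) (d m) with hs
      have hperp : D.f1 (p m) (T m + (-s) • d m) = 0 := by
        rw [D.f1_add_right, hP.alt.smul_right, hs, neg_mul, div_mul_cancel₀ _ (hd m), add_neg_cancel]
      have h1 : SgIn q M (pureTensorVec p)
          (φ (a • pureTensorVec (Function.update T m (s • d m)))) := by
        refine ih _ (fun l hl => ?_) a
        by_cases hlm : l = m
        · subst hlm; exact ⟨s, by simp⟩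
        · rw [Function.update_of_ne hlm]; exact hT l (by simp [hlm, hl])
      have h2 : SgIn q M (pureTensorVec p)
          (φ (a • pureTensorVec (Function.update T m (T m + (-s) • d m)))) := by
        have h0 : polar q (pureTensorVec p)
            (a • pureTensorVec (Function.update T m (T m + (-s) • d m))) = 0 := by
          rw [polar_smul_right, hP.polar_pure_zero (l := m) (by simpa using hperp), smul_zero]
        simp only [φ, h0, zero_div, neg_zero, zero_smul, add_zero]
        exact hall _ ⟨m, by simpa using hperp⟩ a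
      have h3 := h2.add h1
      rw [← φadd, ← smul_add, ← pureVec_update_add, neg_smul, neg_add_cancel_right,
        Function.update_eq_self] at h3
      exact h3
  have hlin : ∀ w, SgIn q M (pureTensorVec p) (φ w) := by
    intro w
    rw [pi_eq_sum_univ' w]
    refine Finset.sum_induction _ (fun y => SgIn q M (pureTensorVec p) (φ y))
      (fun y y' hy hy' => ?_) ?_ fun a _ => ?_
    · rw [φadd]; exact hy.add hy'
    · simp only [φ, polar_zero_right]
      simpa using SgIn.zero (hP.pure p)
    · rw [← pureVec_single]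
      exact hgood Finset.univ _ (fun l hl => absurd (Finset.mem_univ l) hl) (w a)
  intro hu w hw
  have h := hlin w
  simp only [φ, hw, zero_div, neg_zero, zero_smul, add_zero] at h
  obtain ⟨_, _, hm⟩ := h
  exact hm

/-- A long root element at pure tensors gives all of `omegaGL`. -/
theorem omega_le_of_hasPure [Finite F] (hdim : 3 ≤ k ∨ (k = 2 ∧ (2 : F) ≠ 0 ∧ 4 ≤ t))
    (hn : 5 ≤ k ^ t) (hpure : HasPure D M) : Cfsg.Geo.omegaGL (⇑q) ≤ M := by
  have hk : 0 < k := by omega
  obtain ⟨v, hv⟩ : ∃ v : Fin k → F, v ≠ 0 :=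
    ⟨Pi.single ⟨0, hk⟩ 1, fun h => by simpa using congrFun h ⟨0, hk⟩⟩
  obtain ⟨w, hw⟩ := hP.exists_ne hv
  have hw0 : w ≠ 0 := fun h => hw (by rw [h, TensorHerm.f1_zero_right])
  exact Orth.Full.le_of_pair hP.nondeg (by simpa using hn) hMi
    (full_pure hP hM hMi hdim hpure (p := fun _ => v) fun _ => hv)
    (full_pure hP hM hMi hdim hpure (p := fun _ => w) fun _ => hw0) (hP.pure _) (hP.pure _)
    (hP.polar_pure_ne fun _ => hw)

end Spread

end CfsgLib.Geometric.TensorOrth
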