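import Cfsg.Agent.Lib.Geometric.TensorOrth.Bracket

/-!
# From a product of two factor operators to a long root element at pure tensors
-/

set_option autoImplicit false
set_option linter.unusedSectionVars false

namespace CfsgLib.Geometric.TensorOrth

open scoped Matrix MatrixGroups
open Matrix CfsgLib.SmallDim Cfsg.Geo CfsgLib.Geometric.TensorForm
open CfsgLib.Geometric.TensorHerm (rk rk_mulVec rk_mul slotGL slotGL_val)

variable {k t : ℕ} {F : Type*} [Field F]

local notation "Mk" => Matrix (Fin k) (Fin k) F
local notation "Mt" => Matrix (Fin t → Fin k) (Fin t → Fin k) F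

variable {M : Subgroup (GL (Fin t → Fin k) F)} {D : Datum k F}

variable (hD : IsAlt D)
include hD

/-- In dimension two `al p q` is a scalar. -/
lemma al_two (hk : k = 2) {p q : Fin k → F} (h : LinearIndependent F ![p, q]) :
    D.f1 p q ≠ 0 ∧ al D p q = D.f1 p q • 1 := by
  have htop : Submodule.span F (Set.range ![p, q]) = ⊤ :=
    h.span_eq_top_of_card_eq_finrank' (by simp [Module.finrank_fin_fun, hk])
  have hmem : ∀ x : Fin k → F, ∃ a b : F, x = a • p + b • q := fun x => by
    have hx : x ∈ Submodule.span F (Set.range ![p, q]) := htop ▸ Submodule.mem_top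
    obtain ⟨c, hc⟩ := (Submodule.mem_span_range_iff_exists_fun F).1 hx
    exact ⟨c 0, c 1, by simpa [Fin.sum_univ_two] using hc.symm⟩
  have hpq : D.f1 p q ≠ 0 := fun h0 => by
    obtain ⟨x, hx⟩ := (hD.symp.nondegenerate p (h.ne_zero 0)).2
    obtain ⟨a, b, rfl⟩ := hmem x
    exact hx (by rw [D.f1_add_right, hD.smul_right, hD.smul_right, hD.alt, h0]; ring)
  refine ⟨hpq, Matrix.ext_of_mulVec_single fun j => ?_⟩
  obtain ⟨a, b, hab⟩ := hmem (Pi.single j 1)
  rw [hab, hD.al_mulVec, Matrix.smul_mulVec, Matrix.one_mulVec]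
  simp only [D.f1_add_left, D.f1_smul_left, hD.alt, hD.skew p q]
  module

variable (hM : Over D M)
include hM

/-- The operator left at the chosen position may be replaced by one of type `A`. -/
lemma has_A_of_left [Finite F] (hk : 4 ≤ k) {υ : Fin t → Ty} {i j : Fin t} (hji : j ≠ i)
    (hj : υ j ≠ .one) {G : Fin t → Mk} {p q : Fin k → F} (hpq : LinearIndependent F ![p, q])
    (hG : ∀ l, l ≠ i → OfTy D (υ l) (G l)) (hGi : G i = al D p q)
    (hr : Root F M (pureMat G)) : HasTy D M (Function.update υ i .A) := by
  by_cases h0 : D.f1 p q = 0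
  · refine has_of_root hD hM (fun l => ?_) hr
    by_cases hl : l = i
    · subst hl; simpa using ⟨p, q, h0, hpq, hGi⟩
    · simpa [Function.update_of_ne hl] using hG l hl
  obtain ⟨e, g, he, -, -, hee, -⟩ := hD.exists_frame (r := 2) (by omega)
  obtain ⟨a, ha, hap⟩ := Symp.exists_isom_map hD.symp ((hee 0 1 (by decide)).ne_zero 0)
    (hpq.ne_zero 0)
  set y := ap a (e 1)
  have hap' : ap a (e 0) = p := hap
  have hy0 : D.f1 p y = 0 := by
    rw [← hap', CfsgLib.Geometric.mem_isom_iff.mp ha, he]
  have hy : LinearIndependent F ![p, y] := by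
    obtain ⟨-, h1⟩ := li_pair.1 (hee 0 1 (by decide))
    refine li_pair.2 ⟨hpq.ne_zero 0, fun hm => h1 ?_⟩
    obtain ⟨c, hc⟩ := Submodule.mem_span_singleton.1 hm
    exact Submodule.mem_span_singleton.2 ⟨c, ap_injective a (by rw [ap_smul, hap']; exact hc)⟩
  have hqy : LinearIndependent F ![p, q + y] := by
    refine li_pair.2 ⟨hpq.ne_zero 0, fun hm => h0 ?_⟩
    obtain ⟨c, hc⟩ := Submodule.mem_span_singleton.1 hm
    have := congrArg (D.f1 p) hc
    rw [hD.smul_right, hD.alt, D.f1_add_right, hy0, mul_zero, add_zero] at this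
    exact this.symm
  obtain ⟨b, hb, hbp, hbq⟩ := hD.exists_isom_pair hpq hqy (by rw [D.f1_add_right, hy0, add_zero])
  have h2 := root_conj hr (hM.slot_mem i b hb)
  rw [← map_inv, slotGL_val, slotGL_val, slot_mul_pureMat, pureMat_mul_slot, Function.update_self,
    Function.update_idem, hGi, hD.conj_al hb, hbp, hbq, IsAlt.al_add_right, ← hGi,
    pureMat_update_add, Function.update_eq_self] at h2
  have hz : ∀ u v, pureMat (Function.update G i u) * pureMat (Function.update G i v) = 0 :=
    fun u v => pureMat_mul_eq_zero j (by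
      simp [Function.update_of_ne hji, OfTy.sq hD hj (hG j hji)])
  have hGz : ∀ v, pureMat G * pureMat (Function.update G i v) = 0 ∧
      pureMat (Function.update G i v) * pureMat G = 0 := fun v => by
    have h1 := hz (G i) v
    have h2 := hz v (G i)
    rw [Function.update_eq_self] at h1 h2
    exact ⟨h1, h2⟩
  have h3 := root_sub h2 hr
    (by rw [add_mul, (hGz _).2, add_zero]; simpa using hz (G i) (G i))
    (by rw [mul_add, (hGz _).1, add_zero]; simpa using hz (G i) (G i))
  rw [add_sub_cancel_left] at h3
  refine has_of_root hD hM (fun l => ?_) h3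
  by_cases hl : l = i
  · subst hl; simpa using ⟨p, y, hy0, hy, rfl⟩
  · simpa [Function.update_of_ne hl] using hG l hl

/-- All other positions of type `N`: a long root element. -/
lemma hasPure_of_left {i : Fin t} {G : Fin t → Mk} {p q : Fin k → F}
    (hpq : LinearIndependent F ![p, q]) (hG : ∀ l, l ≠ i → OfTy D .N (G l))
    (hGi : G i = al D p q) (hr : Root F M (pureMat G)) : HasPure D M := by
  classical
  choose u hu hGu using hG
  let u' : Fin t → Fin k → F := fun l => if h : l = i then p else u l h
  refine ⟨i, u', p, q, 1, one_ne_zero, fun l hl => ?_, hpq, ?_⟩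
  · simpa [u', hl] using hu l hl
  · rw [one_smul]
    convert root_good hr using 2
    funext l
    by_cases hl : l = i
    · subst hl; simp [hGi]
    · simp [Function.update_of_ne hl, u', hl, ← hGu l hl]

/-- Trading all but one factor of type `N`. -/
lemma has_normalised (h2 : (2 : F) = 0) (hk : 4 ≤ k) {τ : Fin t → Ty} (h : HasTy D M τ) {c : Fin t}
    (hc : τ c ≠ .one) : HasTy D M (fun l => if l ≠ c ∧ τ l = .N then .A else τ l) := by
  classical
  have key : ∀ s : Finset (Fin t), c ∉ s →
      HasTy D M (fun l => if l ∈ s ∧ τ l = .N then .A else τ l) := by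
    intro s
    induction s using Finset.induction_on with
    | empty => intro _; simpa using h
    | insert x s hx ih =>
      intro hcs
      rw [Finset.mem_insert, not_or] at hcs
      specialize ih hcs.2
      by_cases hxN : τ x = .N
      · have h3 := ih.trade hD hM h2 hk (l := x) (i := c) (by simp [hx, hxN]) hcs.1
          (by simpa [hcs.2] using hc)
        have e : (fun l => if l ∈ insert x s ∧ τ l = .N then Ty.A else τ l) =
            Function.update (fun l => if l ∈ s ∧ τ l = .N then Ty.A else τ l) x .A := funext fun l => by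
          by_cases hl : l = x
          · subst hl; simp [hxN]
          · simp [hl]
        rw [e]; exact h3
      · have e : (fun l => if l ∈ insert x s ∧ τ l = .N then Ty.A else τ l) =
            fun l => if l ∈ s ∧ τ l = .N then Ty.A else τ l := funext fun l => by
          by_cases hl : l = x
          · subst hl; simp [hxN]
          · simp [hl]
        rw [e]; exact ih
  have := key (Finset.univ.erase c) (by simp)
  simpa using this

/-- The product types of full support with a factor of type `N`. -/
lemma hasPure_of_full [Finite F] (hk : 4 ≤ k) (hch : (2 : F) = 0 ∨ (2 : F) ≠ 0 ∧ Even t)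
    (ht : 2 ≤ t) {τ : Fin t → Ty} (h : HasTy D M τ) {c : Fin t} (hc : τ c = .N)
    (hfull : ∀ l, τ l ≠ .one) : HasPure D M := by
  classical
  have : NeZero k := ⟨by omega⟩
  have : Nontrivial (Fin t) := Fin.nontrivial_iff_two_le.2 ht
  have hallN : (2 : F) ≠ 0 → Even t → ¬ HasTy D M (fun _ : Fin t => Ty.N) := fun h2 hte hN => by
    have hex : ∀ l : Fin t, ∃ f : Mk, OfTy D .N f := fun _ => exists_ofTy hD (by omega) (by simp)
    choose f hf using hex
    have := HasTy.odd_N hD hM h2 hN hf
    simp [hte] at this
    exact absurd hte (Nat.not_even_iff_odd.2 this)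
  rcases hch with h2 | ⟨h2, hte⟩
  · have hn := has_normalised hD hM h2 hk h (by rw [hc]; decide : τ c ≠ .one)
    obtain ⟨j, hj⟩ := exists_ne c
    have htj : (if j ≠ c ∧ τ j = .N then Ty.A else τ j) = Ty.A := by
      rcases hjN : τ j with _ | _ | _
      exacts [absurd hjN (hfull j), by simp [hj, hjN], by simp [hjN]]
    have htr := hn.trade hD hM h2 hk (l := c) (i := j) (by simp [hc]) hj (by rw [htj]; decide)
    have hA : ∀ l, Function.update (fun l => if l ≠ c ∧ τ l = Ty.N then Ty.A else τ l) c .A l =
        Ty.A := fun l => by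
      by_cases hl : l = c
      · subst hl; simp
      rcases hlN : τ l with _ | _ | _
      exacts [absurd hlN (hfull l), by simp [hl, hlN], by simp [hl, hlN]]
    rcases hn.bracket hD hM (by omega) htr (i := c) (j := j) (j' := j) (by simp [hc])
        (by rw [hA]; decide) (fun l _ => hk) (by simp [hc]) hj
        ⟨by rw [htj]; decide, Or.inr ⟨htj, hA j⟩⟩ hj
        ⟨by rw [hA]; decide, Or.inr ⟨htj, hA j⟩⟩
        (Or.inr fun l hl _ _ => ⟨by
          rcases hlN : τ l with _ | _ | _
          exacts [absurd hlN (hfull l), by simp [hl, hlN], by simp [hl, hlN]], hA l⟩) with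
      ⟨G, p, q, hpq, hG, hGi, hr⟩ | ⟨hne, -⟩
    · refine hasPure_of_left hD hM hpq (fun l hl => ?_) hGi hr
      have := hG l hl
      rw [hA] at this
      rcases hlN : τ l with _ | _ | _
      exacts [absurd hlN (hfull l), by simpa [join, hl, hlN] using this,
        by simpa [join, hl, hlN] using this]
    · exact absurd h2 hne
  · obtain ⟨j, hj⟩ : ∃ j, τ j = .A := by
      by_contra hne
      push Not at hne
      refine hallN h2 hte ?_
      convert h using 1
      funext l
      rcases hlN : τ l with _ | _ | _
      exacts [absurd hlN (hfull l), rfl, absurd hlN (hne l)]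
    have hjc : j ≠ c := fun e => by subst e; rw [hj] at hc; cases hc
    have hjoin : ∀ l, join (τ l) (τ l) = .N := fun l => by simp [join, hfull l]
    rcases h.bracket hD hM (by omega) h (i := c) (j := j) (j' := j) (hfull c) (hfull c)
        (fun l _ => hk) (by simp [hc]) hjc ⟨hfull j, Or.inr ⟨hj, hj⟩⟩ hjc
        ⟨hfull j, Or.inr ⟨hj, hj⟩⟩ (Or.inl h2) with
      ⟨G, p, q, hpq, hG, hGi, hr⟩ | ⟨-, hN⟩
    · exact hasPure_of_left hD hM hpq (fun l hl => by simpa [hjoin] using hG l hl) hGi hr
    · refine absurd ?_ (hallN h2 hte)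
      convert hN using 1
      funext l
      by_cases hl : l = c
      · subst hl; simp
      · simp [Function.update_of_ne hl, hjoin]

/-- Growth for `k ≥ 4` from a product having a factor of type `N`. -/
lemma hasPure_of_N [Finite F] (hk : 4 ≤ k) (hch : (2 : F) = 0 ∨ (2 : F) ≠ 0 ∧ Even t)
    (ht : 2 ≤ t) : ∀ n, ∀ τ : Fin t → Ty, (Finset.univ.filter fun l => τ l = .one).card = n →
      HasTy D M τ → ∀ c i, τ c = .N → i ≠ c → τ i ≠ .one → HasPure D M := by
  classical
  intro n
  induction n using Nat.strong_induction_on with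
  | _ n ih =>
    intro τ hn h₀ c i hc hic hi₀
    by_cases hfull : ∀ l, τ l ≠ .one
    · exact hasPure_of_full hD hM hk hch ht h₀ hc hfull
    push Not at hfull
    obtain ⟨b, hb₀⟩ := hfull
    obtain ⟨σ, hσ, hτσ⟩ : ∃ σ : Fin t → Ty, HasTy D M σ ∧
        ((2 : F) ≠ 0 ∧ σ = τ ∨ σ = fun l => if l ≠ c ∧ τ l = .N then .A else τ l) := by
      by_cases h2 : (2 : F) = 0
      · exact ⟨_, has_normalised hD hM h2 hk h₀ (by rw [hc]; decide), Or.inr rfl⟩
      · exact ⟨τ, h₀, Or.inl ⟨h2, rfl⟩⟩
    have hσone : ∀ l, σ l = .one ↔ τ l = .one := fun l => by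
      rcases hτσ with ⟨-, rfl⟩ | rfl
      · rfl
      · show (if l ≠ c ∧ τ l = .N then Ty.A else τ l) = .one ↔ _
        split_ifs with h1 <;> simp [*]
    have hσc : σ c = .N := by rcases hτσ with ⟨-, rfl⟩ | rfl <;> simp [hc]
    have hi : σ i ≠ .one := fun h => hi₀ ((hσone i).1 h)
    have hb : σ b = .one := (hσone b).2 hb₀
    have hbc : b ≠ c := fun e => by subst e; rw [hσc] at hb; cases hb
    have hbi : b ≠ i := fun e => by subst e; exact hi hb
    set π := Equiv.swap c b * Equiv.swap c i with hπ
    have hσ' := hσ.perm hD hM (hM.cyc_mem c i b hic.symm hbi.symm hbc.symm)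
    have e1 : π.symm i = c := by
      rw [Equiv.symm_apply_eq]; simp [hπ, Equiv.swap_apply_of_ne_of_ne hic hbi.symm]
    have e2 : π.symm b = i := by
      rw [Equiv.symm_apply_eq]; simp [hπ]
    have e3 : π.symm c = b := by
      rw [Equiv.symm_apply_eq]; simp [hπ, Equiv.swap_apply_of_ne_of_ne hbc hbi]
    have e4 : ∀ l, l ≠ c → l ≠ i → l ≠ b → π.symm l = l := fun l h1 h2 h3 => by
      rw [Equiv.symm_apply_eq]
      simp [hπ, Equiv.swap_apply_of_ne_of_ne h1 h2, Equiv.swap_apply_of_ne_of_ne h1 h3]
    have hbr := hσ.bracket hD hM (by omega) hσ' (i := i) (j := c) (j' := b) hi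
      (by simp [e1, hσc, ← hπ]) (fun l _ => hk) (fun _ h => by simp [e1, hσc, ← hπ] at h) hic.symm
      ⟨by simp [hσc], Or.inl (by simp [e3, hb, ← hπ])⟩ hbi
      ⟨by simp [e2, hi, ← hπ], Or.inl hb⟩
      (by
        rcases hτσ with ⟨h2, -⟩ | hs
        · exact Or.inl h2
        refine Or.inr fun l hl h1 h1' => ?_
        have hlc : l ≠ c := fun e => by subst e; exact h1' (by simp [e3, hb, ← hπ])
        have hlb : l ≠ b := fun e => by subst e; exact h1 hb
        have hl4 : (σ ∘ π.symm) l = σ l := by simp [e4 l hlc hl hlb]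
        rw [← hπ, hl4]
        have : σ l = .A := by
          rw [hs] at h1 ⊢
          rcases hlN : τ l with _ | _ | _ <;> simp [hlc, hlN] at h1 ⊢
        exact ⟨this, this⟩)
    rw [← hπ] at hbr
    set υ := fun l => join (σ l) ((σ ∘ π.symm) l) with hυ
    have hυc : υ c = .N := by simp [hυ, e3, hb, hσc, join]
    obtain ⟨ty, hty, hnew⟩ : ∃ ty, ty ≠ Ty.one ∧ HasTy D M (Function.update υ i ty) := by
      rcases hbr with ⟨G, p, q, hpq, hG, hGi, hr⟩ | ⟨-, hN⟩
      · exact ⟨.A, by decide, has_A_of_left hD hM hk hic.symm (by rw [hυc]; decide) hpq hG hGi hr⟩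
      · exact ⟨.N, by decide, hN⟩
    refine ih _ ?_ _ rfl hnew c i (by rw [Function.update_of_ne hic.symm]; exact hυc) hic
      (by simp [hty])
    rw [← hn]
    refine Finset.card_lt_card (Finset.ssubset_iff_of_subset (fun l hl => ?_) |>.2
      ⟨b, by simp [hb₀], ?_⟩)
    · simp only [Finset.mem_filter, Finset.mem_univ, true_and] at hl ⊢
      by_cases hli : l = i
      · subst hli; simp [hty] at hl
      rw [Function.update_of_ne hli] at hl
      by_contra hne
      exact (join_ne_one.2 (Or.inl (fun e => hne ((hσone l).1 e)))) hl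
    · simp only [Finset.mem_filter, Finset.mem_univ, true_and, Function.update_of_ne hbi]
      exact join_ne_one.2 (Or.inr (by simp [e2, hi]))

/-- Growth in dimension two. -/
lemma hasPure_two [Finite F] (hk : k = 2) (h2 : (2 : F) ≠ 0) (hte : Even t) :
    ∀ n, ∀ τ : Fin t → Ty, (Finset.univ.filter fun l => τ l = .one).card = n →
      HasTy D M τ → (∀ l, τ l ≠ .A) → (∃ a b, a ≠ b ∧ τ a ≠ .one ∧ τ b ≠ .one) → HasPure D M := by
  classical
  have : NeZero k := ⟨by omega⟩
  have hodd : ∀ τ : Fin t → Ty, HasTy D M τ → (∀ l, τ l ≠ .A) →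
      Odd (Finset.univ.filter fun l => τ l ≠ .one).card := by
    intro τ h hA
    have hex : ∀ l, ∃ f : Mk, OfTy D (τ l) f :=
      fun l => exists_ofTy hD (by omega) fun e => absurd e (hA l)
    choose f hf using hex
    have heq : ∀ l, τ l ≠ .one ↔ τ l = .N := fun l => by
      rcases hl : τ l with _ | _ | _ <;> simp
      exact absurd hl (hA l)
    rw [Finset.filter_congr fun l _ => heq l]
    exact HasTy.odd_N hD hM h2 h hf
  intro n
  induction n using Nat.strong_induction_on with
  | _ n ih =>
    intro τ hn h hA hab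
    set S := Finset.univ.filter fun l => τ l ≠ .one with hS
    have hSN : ∀ l ∈ S, τ l = .N := fun l hl => by
      simp [hS] at hl
      rcases e : τ l with _ | _ | _
      exacts [absurd e hl, rfl, absurd e (hA l)]
    have hSo : Odd S.card := hodd τ h hA
    obtain ⟨b, hb⟩ : ∃ b, τ b = .one := by
      by_contra hne
      push Not at hne
      have : S.card = t := by simp [hS, hne]
      rw [this] at hSo
      exact Nat.not_even_iff_odd.2 hSo hte
    by_cases hone : ∀ l, τ l = .one → l = b
    · -- only one trivial factor: a long root element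
      have hex : ∀ l, ∃ f : Mk, OfTy D (τ l) f :=
        fun l => exists_ofTy hD (by omega) fun e => absurd e (hA l)
      choose f hf using hex
      obtain ⟨e, g, -, -, heg, -, hef⟩ := hD.exists_frame (r := 1) (by omega)
      refine hasPure_of_left hD hM (i := b) (hef 0 0) (fun l hl => ?_) ?_ (h f hf)
      · have : τ l = .N := hSN l (by simpa [hS] using fun e => hl (hone l e))
        exact this ▸ hf l
      · have h1 : f b = 1 := by have := hf b; rwa [hb] at this
        rw [h1, (al_two hD hk (hef 0 0)).2, heg, if_pos rfl, one_smul]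
    push Not at hone
    obtain ⟨b', hb', hbb'⟩ := hone
    obtain ⟨x, y, hxy, hx, hy⟩ := hab
    have h2S : 2 ≤ S.card := Finset.one_lt_card.2 ⟨x, by simp [hS, hx], y, by simp [hS, hy], hxy⟩
    have h3S : 2 < S.card := by obtain ⟨r, hr⟩ := hSo; omega
    obtain ⟨i, c, c', hi, hc, hc', hic, hic', hcc'⟩ := Finset.two_lt_card_iff.1 h3S
    have hne : ∀ {l m}, τ l = .one → m ∈ S → l ≠ m := fun hl hm e => by
      subst e; simp [hS, hl] at hm
    have p1 := hM.cyc_mem b c' c (hne hb hc') hcc'.symm (hne hb hc)
    have p2 := hM.cyc_mem c' b' b (hne hb' hc').symm hbb' (hne hb hc').symm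
    set π := (Equiv.swap b c * Equiv.swap b c') * (Equiv.swap c' b * Equiv.swap c' b') with hπ
    have hπM : (factorPerm π : GL (Fin t → Fin k) F) ∈ M := by
      have e : (factorPerm π : GL (Fin t → Fin k) F) =
          factorPerm (Equiv.swap b c * Equiv.swap b c') *
            factorPerm (Equiv.swap c' b * Equiv.swap c' b') ∨
          (factorPerm π : GL (Fin t → Fin k) F) =
          factorPerm (Equiv.swap c' b * Equiv.swap c' b') *
            factorPerm (Equiv.swap b c * Equiv.swap b c') := by
        left
        refine Units.ext ?_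
        ext u v
        rw [Units.val_mul, Matrix.mul_apply,
          Finset.sum_eq_single (u ∘ ⇑(Equiv.swap b c * Equiv.swap b c'))]
        · simp [hπ, factorPerm, Function.comp_assoc]
          congr
        · intro w _ hw
          simp only [factorPerm, Matrix.of_apply]
          rw [if_neg hw, zero_mul]
        · exact fun h => absurd (Finset.mem_univ _) h
      rcases e with e | e <;> rw [e]
      exacts [mul_mem p1 p2, mul_mem p2 p1]
    have hswap : π = Equiv.swap b c * Equiv.swap c' b' := by
      rw [hπ, Equiv.swap_comm c' b, mul_assoc, Equiv.swap_mul_self_mul]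
    have hsym : π.symm = Equiv.swap c' b' * Equiv.swap b c := by
      rw [hswap]; ext l; simp [Equiv.Perm.mul_def]
    have hbc := hne hb hc
    have hbc' := hne hb hc'
    have hb'c := hne hb' hc
    have hb'c' := hne hb' hc'
    have hbi := hne hb hi
    have hb'i := hne hb' hi
    have e1 : π.symm i = i := by
      simp [hsym, Equiv.swap_apply_of_ne_of_ne hbi.symm hic,
        Equiv.swap_apply_of_ne_of_ne hic' hb'i.symm]
    have e2 : π.symm c = b := by simp [hsym, Equiv.swap_apply_of_ne_of_ne hbc' hbb'.symm]
    have e3 : π.symm b = c := by simp [hsym, Equiv.swap_apply_of_ne_of_ne hcc' hb'c.symm]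
    have hNi : τ i = .N := hSN i hi
    have hNc : τ c = .N := hSN c hc
    rcases h.bracket hD hM (by omega) (h.perm hD hM hπM) (i := i) (j := c) (j' := b)
        (by simp [hNi]) (by simp [e1, hNi]) (fun l hl => by
          rcases hl with hl | hl
          exacts [absurd hl (hA l), absurd hl (hA _)])
        (fun h => by simp [hNi] at h) hic.symm ⟨by simp [hNc], Or.inl (by simp [e2, hb])⟩ hbi
        ⟨by simp [e3, hNc], Or.inl hb⟩ (Or.inl h2) with ⟨G, p, q, hpq, hG, hGi, hr⟩ | ⟨-, hN⟩
    · -- dropping the position `i` gives an even support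
      exfalso
      obtain ⟨hpq0, hal⟩ := al_two hD hk hpq
      set υ := Function.update (fun l => join (τ l) ((τ ∘ π.symm) l)) i .one with hυ
      have hυA : ∀ l, υ l ≠ .A := fun l => by
        have h1 := hA l
        have h2 := hA (π.symm l)
        by_cases hl : l = i
        · subst hl; simp [hυ]
        · simp only [hυ, Function.update_of_ne hl, Function.comp_apply, join]
          split_ifs <;> simp [h1, h2]
      have hrt : Root F M (pureMat (Function.update G i 1)) := by
        have := root_smul hr (D.f1 p q)⁻¹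
        rw [← Function.update_eq_self i G, hGi, hal, pureMat_update_smul, smul_smul,
          inv_mul_cancel₀ hpq0, one_smul] at this
        exact this
      have hh : HasTy D M υ := has_of_root hD hM (fun l => by
        by_cases hl : l = i
        · subst hl; simp only [hυ, Function.update_self]; exact rfl
        · simpa [hυ, Function.update_of_ne hl] using hG l hl) hrt
      have hset : (Finset.univ.filter fun l => υ l ≠ .one) = insert b (insert b' (S.erase i)) := by
        ext l
        simp only [Finset.mem_filter, Finset.mem_univ, true_and, Finset.mem_insert,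
          Finset.mem_erase, hυ]
        by_cases hl : l = i
        · subst hl; simp [hbi.symm, hb'i.symm]
        rw [Function.update_of_ne hl, join_ne_one, Function.comp_apply]
        simp only [hl, ne_eq, not_false_eq_true, true_and, hS, Finset.mem_filter, Finset.mem_univ]
        by_cases h1 : l = b
        · subst h1; simp [e3, hNc]
        by_cases h2 : l = b'
        · subst h2
          have : π.symm l = c' := by
            simp [hsym, Equiv.swap_apply_of_ne_of_ne h1 hb'c]
          simp [this, hSN c' hc']
        simp only [h1, h2, false_or]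
        constructor
        · rintro (h3 | h3)
          · exact h3
          by_cases h4 : l = c
          · subst h4; simp [hNc]
          by_cases h5 : l = c'
          · subst h5; simp [hSN _ hc']
          · rwa [show π.symm l = l by simp [hsym, Equiv.swap_apply_of_ne_of_ne h1 h4,
              Equiv.swap_apply_of_ne_of_ne h5 h2]] at h3
        · exact Or.inl
      have hcard := hodd υ hh hυA
      rw [hset, Finset.card_insert_of_notMem (by simp [hbb'.symm, hS, hb]),
        Finset.card_insert_of_notMem (by simp [hS, hb']), Finset.card_erase_of_mem hi] at hcard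
      obtain ⟨r, hr'⟩ := hcard
      obtain ⟨r', hr''⟩ := hSo
      omega
    · refine ih _ ?_ _ rfl hN (fun l => ?_) ⟨c, i, hic.symm, ?_, by simp⟩
      · rw [← hn]
        refine Finset.card_lt_card (Finset.ssubset_iff_of_subset (fun l hl => ?_) |>.2
          ⟨b, by simp [hb], ?_⟩)
        · simp only [Finset.mem_filter, Finset.mem_univ, true_and] at hl ⊢
          by_cases hli : l = i
          · subst hli; simp at hl
          rw [Function.update_of_ne hli] at hl
          by_contra hne'
          exact (join_ne_one.2 (Or.inl hne')) hl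
        · simp only [Finset.mem_filter, Finset.mem_univ, true_and, Function.update_of_ne hbi]
          exact join_ne_one.2 (Or.inr (by simp [e3, hNc]))
      · by_cases hl : l = i
        · subst hl; simp
        have h1 := hA l
        have h2 := hA (π.symm l)
        simp only [Function.update_of_ne hl, Function.comp_apply, join]
        split_ifs <;> simp [h1, h2]
      · rw [Function.update_of_ne hic.symm]
        exact join_ne_one.2 (Or.inl (by simp [hNc]))

/-- A product with two non-trivial factors gives a long root element at pure tensors. -/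
theorem hasPure_of_has [Finite F] (hk2 : 2 ≤ k) (hk : Even k)
    (hch : (2 : F) = 0 ∧ 6 ≤ k ∨ (2 : F) ≠ 0 ∧ Even t) (ht : 2 ≤ t) {τ : Fin t → Ty}
    (h : HasTy D M τ) (h4 : ∀ l, τ l = .A → 4 ≤ k) {a b : Fin t} (hab : a ≠ b) (ha : τ a ≠ .one)
    (hb : τ b ≠ .one) : HasPure D M := by
  classical
  have : NeZero k := ⟨by omega⟩
  by_cases hk4 : 4 ≤ k
  swap
  · rcases hch with ⟨-, h6⟩ | ⟨h2, hte⟩
    · omega
    exact hasPure_two hD hM (by obtain ⟨r, hr⟩ := hk; omega) h2 hte _ τ rfl h
      (fun l e => hk4 (h4 l e)) ⟨a, b, hab, ha, hb⟩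
  have hch' : (2 : F) = 0 ∨ (2 : F) ≠ 0 ∧ Even t := hch.imp_left And.left
  by_cases hN : ∃ c, τ c = .N
  · obtain ⟨c, hc⟩ := hN
    by_cases hca : a = c
    · exact hasPure_of_N hD hM hk4 hch' ht _ τ rfl h c b hc (fun e => hab (hca.trans e.symm)) hb
    · exact hasPure_of_N hD hM hk4 hch' ht _ τ rfl h c a hc hca ha
  push Not at hN
  rcases hch with ⟨h2, h6⟩ | ⟨h2, -⟩
  · have hA : ∀ l, τ l ≠ .one → τ l = .A := fun l hl => by
      rcases e : τ l with _ | _ | _
      exacts [absurd e hl, absurd e (hN l), rfl]
    rcases h.bracket hD hM hk2 h (i := a) (j := b) (j' := b) ha ha (fun _ _ => hk4)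
        (fun _ _ => h6) hab.symm ⟨hb, Or.inr ⟨hA b hb, hA b hb⟩⟩ hab.symm
        ⟨hb, Or.inr ⟨hA b hb, hA b hb⟩⟩ (Or.inr fun l _ h1 _ => ⟨hA l h1, hA l h1⟩) with
      ⟨G, p, q, hpq, hG, hGi, hr⟩ | ⟨hne, -⟩
    · have hbN : join (τ b) (τ b) = .N := by simp [join, hb]
      exact hasPure_of_N hD hM hk4 hch' ht _ _ rfl
        (has_A_of_left hD hM hk4 (υ := fun l => join (τ l) (τ l)) hab.symm (by rw [hbN]; decide)
          hpq hG hGi hr) b a (by rw [Function.update_of_ne hab.symm]; exact hbN) hab (by simp)
    · exact absurd h2 hne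
  · have hex : ∀ l, ∃ f : Mk, OfTy D (τ l) f := fun l => exists_ofTy hD hk2 (h4 l)
    choose f hf using hex
    have := HasTy.odd_N hD hM h2 h hf
    simp [hN] at this

end CfsgLib.Geometric.TensorOrth
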