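import Cfsg.Agent.Lib.Geometric.TensorOrth.Generation
import Cfsg.Agent.Lib.Geometric.TensorOrth.Perfect
import Cfsg.Agent.Lib.Geometric.TensorForm.Symplectic

/-!
# Tensor powers of symplectic forms in orthogonal groups: transfer and properness

The stabiliser is proper in `omegaGL`, it holds the factorwise symplectic groups and the cyclic
exchanges of factors, and maximality follows from a long root element at pure tensors.
-/

set_option autoImplicit false
set_option linter.unusedSectionVars false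

namespace CfsgLib.Geometric.TensorOrth

open scoped Matrix MatrixGroups commutatorElement
open Matrix CfsgLib.SmallDim Cfsg.Geo CfsgLib.Geometric.TensorForm QuadraticMap
open CfsgLib.Geometric.TensorHerm (slotGL slotGL_val slotGL_mem_wreath)

variable {k t : ℕ} {F : Type*} [Field F]

lemma ap_slotGL (l : Fin t) (a : GL (Fin k) F) (v : Fin t → Fin k → F) :
    ap (slotGL l a) (pureTensorVec v) = pureTensorVec (Function.update v l (ap a (v l))) := by
  rw [ap_def, slotGL_val, slot_mulVec, ← ap_def]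

/-- Factor permutations as a homomorphism. -/
def permHom : Equiv.Perm (Fin t) →* GL (Fin t → Fin k) F :=
  MonoidHom.mk' factorPerm fun σ τ => Units.ext (ext_pure fun v => by
    rw [Units.val_mul, ← Matrix.mulVec_mulVec,
      factorPerm_mulVec (g := factorPerm τ) (σ := τ) (fun _ _ => rfl),
      factorPerm_mulVec (g := factorPerm σ) (σ := σ) (fun _ _ => rfl),
      factorPerm_mulVec (g := factorPerm (σ * τ)) (σ := σ * τ) (fun _ _ => rfl)]
    rfl)

lemma ap_permHom (σ : Equiv.Perm (Fin t)) (v : Fin t → Fin k → F) :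
    ap (permHom σ) (pureTensorVec v) = pureTensorVec fun l => v (σ.symm l) :=
  factorPerm_mulVec (fun _ _ => rfl) v

/-- A three-cycle is a commutator of transpositions. -/
lemma three_cycle_eq {α : Type*} [DecidableEq α] {a b c : α} (hab : a ≠ b) (hbc : b ≠ c)
    (hac : a ≠ c) : ⁅Equiv.swap a b, Equiv.swap a c⁆ = Equiv.swap a c * Equiv.swap a b := by
  refine Equiv.ext fun x => ?_
  simp only [commutatorElement_def, Equiv.swap_inv, Equiv.Perm.mul_apply]
  by_cases h1 : x = a
  · subst h1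
    simp [Equiv.swap_apply_of_ne_of_ne, hbc, hab.symm, hac.symm, hbc.symm]
  by_cases h2 : x = b
  · subst h2
    simp [Equiv.swap_apply_of_ne_of_ne, hbc, hab.symm, hac.symm, hbc.symm]
  by_cases h3 : x = c
  · subst h3
    simp [Equiv.swap_apply_of_ne_of_ne, hbc, hab.symm, hac.symm, hbc.symm]
  simp [Equiv.swap_apply_of_ne_of_ne, h1, h2, h3]

namespace PForm

variable {D : Datum k F} {q : QuadraticForm F ((Fin t → Fin k) → F)} {c : F} (hP : PForm D q c)
include hP

/-- A linear map permuting pure tensors with their pairings is an isometry. -/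
lemma isometry_of_pure {g : GL (Fin t → Fin k) F} (g' : (Fin t → Fin k → F) → Fin t → Fin k → F)
    (hg : ∀ v, ap g (pureTensorVec v) = pureTensorVec (g' v))
    (hp : ∀ u v, ∏ l, D.f1 (g' u l) (g' v l) = ∏ l, D.f1 (u l) (v l)) :
    g ∈ Cfsg.isometryGroup F (⇑q) := by
  classical
  have hB : (polarBilin q).compl₁₂ (apEquiv g).toLinearMap (apEquiv g).toLinearMap = polarBilin q :=
    (Pi.basisFun F _).ext fun a => (Pi.basisFun F _).ext fun b => by
      simp only [Pi.basisFun_apply, LinearMap.compl₁₂_apply, LinearEquiv.coe_coe, apEquiv_apply,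
        polarBilin_apply_apply, ← pureVec_single]
      rw [hg, hg, hP.polar_pure, hP.polar_pure, hp]
  refine Orth.mem_isometryGroup_iff.mpr fun v => ?_
  rw [pi_eq_sum_univ' v]
  induction (Finset.univ : Finset (Fin t → Fin k)) using Finset.induction with
  | empty => simp [ap_zero]
  | insert a s ha ih =>
    have hq : ∀ x y, q (x + y) = q x + q y + polar q x y := fun x y => by rw [polar]; ring
    rw [Finset.sum_insert ha, ap_add, hq, hq, ih]
    congr 1
    · congr 1
      rw [ap_smul, QuadraticMap.map_smul, QuadraticMap.map_smul, ← pureVec_single, hg, hP.pure,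
        hP.pure]
    · exact LinearMap.congr_fun (LinearMap.congr_fun hB _) _

lemma slot_isometry (l : Fin t) {a : GL (Fin k) F} (ha : a ∈ CfsgLib.Geometric.isom D.f1) :
    slotGL l a ∈ Cfsg.isometryGroup F (⇑q) := by
  refine hP.isometry_of_pure (fun v => Function.update v l (ap a (v l)))
    (fun v => ap_slotGL l a v) fun u v => Finset.prod_congr rfl fun m _ => ?_
  by_cases hm : m = l
  · subst hm
    rw [Function.update_self, Function.update_self]
    exact CfsgLib.Geometric.mem_isom_iff.mp ha _ _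
  · rw [Function.update_of_ne hm, Function.update_of_ne hm]

lemma perm_isometry (σ : Equiv.Perm (Fin t)) :
    permHom (k := k) (F := F) σ ∈ Cfsg.isometryGroup F (⇑q) :=
  hP.isometry_of_pure (fun v l => v (σ.symm l)) (fun v => ap_permHom σ v)
    fun u v => Equiv.prod_comp σ.symm fun l => D.f1 (u l) (v l)

/-- Isometries of the quadratic form are isometries of the tensor power. -/
lemma isometryGroup_le_isom : Cfsg.isometryGroup F (⇑q) ≤ D.isom t := by
  intro g hg
  rw [D.mem_isom, hP.alt.id,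
    show (g : Matrix (Fin t → Fin k) (Fin t → Fin k) F).map (RingHom.id F) =
      (g : Matrix (Fin t → Fin k) (Fin t → Fin k) F) from Matrix.ext fun _ _ => rfl]
  ext a b
  have h := Orth.polar_ap hg (Pi.single a 1) (Pi.single b 1)
  rw [hP.polar_eq, hP.polar_eq] at h
  have h' := mul_left_cancel₀ hP.c_ne h
  rw [ap_def, ap_def, Matrix.mulVec_mulVec, ← Matrix.vecMul_transpose, ← Matrix.dotProduct_mulVec,
    Matrix.mulVec_mulVec, ← Matrix.mul_assoc] at h'
  simpa [Matrix.mulVec_single_one, single_dotProduct] using h'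

/-- A subgroup of `omegaGL` above the stabiliser is an overgroup. -/
lemma over_of_le [Finite F]
    (hperf : CfsgLib.Geometric.isom D.f1 ≤
      ⁅CfsgLib.Geometric.isom D.f1, CfsgLib.Geometric.isom D.f1⁆)
    {M : Subgroup (GL (Fin t → Fin k) F)}
    (hH : tensorWreathStandard k t F ⊓ Cfsg.Geo.omegaGL (⇑q) ≤ M)
    (hM : M ≤ Cfsg.Geo.omegaGL (⇑q)) : Over D M := by
  refine ⟨(hM.trans Orth.omegaGL_le).trans hP.isometryGroup_le_isom, fun l a ha => hH
    ⟨slotGL_mem_wreath l a, ?_⟩, fun a b c hab hbc hac => hH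
    ⟨Subgroup.subset_closure (Or.inr ⟨_, fun x y => rfl⟩), ?_⟩⟩
  · rw [Orth.omegaGL_eq]
    have h1 : (CfsgLib.Geometric.isom D.f1).map (slotGL l) ≤ Cfsg.isometryGroup F (⇑q) := by
      rintro _ ⟨b, hb, rfl⟩
      exact hP.slot_isometry l hb
    refine Subgroup.commutator_mono h1 h1 ?_
    rw [← Subgroup.map_commutator]
    exact ⟨a, hperf ha, rfl⟩
  · rw [Orth.omegaGL_eq]
    show permHom (k := k) (F := F) (Equiv.swap a c * Equiv.swap a b) ∈ _
    rw [← three_cycle_eq hab hbc hac, map_commutatorElement]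
    exact Subgroup.commutator_mem_commutator (hP.perm_isometry _) (hP.perm_isometry _)

/-- The stabiliser is proper. -/
theorem not_omega_le [Finite F] (hn : 5 ≤ k ^ t) (h : 3 ≤ t ∨ 3 ≤ k) :
    ¬ Cfsg.Geo.omegaGL (⇑q) ≤ tensorWreathStandard k t F := by
  classical
  intro hle
  have hk : 0 < k := by
    by_contra h0
    rw [show k = 0 by omega, zero_pow (by have := hP.t_two; omega)] at hn
    omega
  have hf := hP.alt.symp
  obtain ⟨e₀, he₀⟩ : ∃ v : Fin k → F, v ≠ 0 :=
    ⟨Pi.single ⟨0, hk⟩ 1, fun h => by simpa using congrFun h ⟨0, hk⟩⟩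
  obtain ⟨f₀, hef⟩ := hP.exists_ne he₀
  have hfe : D.f1 f₀ e₀ ≠ 0 := by rw [hP.alt.skew e₀ f₀, neg_ne_zero]; exact hef
  obtain ⟨g, zy, zg, i₁, i₂, hi, hge, hgf, hy, hg, hg1, hg2⟩ :
      ∃ (g zy zg : Fin t → Fin k → F) (i₁ i₂ : Fin t), i₁ ≠ i₂ ∧
        (∃ l, D.f1 e₀ (g l) = 0) ∧ (∃ l, D.f1 f₀ (g l) = 0) ∧
        (∀ l, D.f1 f₀ (zy l) ≠ 0) ∧ (∀ l, D.f1 (g l) (zg l) ≠ 0) ∧
        D.f1 (g i₁) (zy i₁) = 0 ∧ D.f1 f₀ (zg i₂) = 0 := by
    by_cases ht3 : 3 ≤ t
    · let i₀ : Fin t := ⟨0, by omega⟩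
      let i₁ : Fin t := ⟨1, by omega⟩
      let i₂ : Fin t := ⟨2, by omega⟩
      have h10 : i₁ ≠ i₀ := by simp [i₀, i₁, Fin.ext_iff]
      have h20 : i₂ ≠ i₀ := by simp [i₀, i₂, Fin.ext_iff]
      refine ⟨Function.update (fun _ => e₀) i₀ f₀, fun _ => e₀, Function.update (fun _ => f₀) i₀ e₀,
        i₁, i₂, by simp [i₁, i₂, Fin.ext_iff], ⟨i₁, ?_⟩, ⟨i₀, ?_⟩, fun l => hfe, fun l => ?_, ?_, ?_⟩
      · rw [Function.update_of_ne h10]; exact hP.alt.alt _
      · rw [Function.update_self]; exact hP.alt.alt _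
      · by_cases hl : l = i₀
        · subst hl; simpa using hfe
        · simpa [Function.update_of_ne hl] using hef
      · rw [Function.update_of_ne h10]; exact hP.alt.alt _
      · rw [Function.update_of_ne h20]; exact hP.alt.alt _
    · have hk3 : 3 ≤ k := h.resolve_left ht3
      obtain ⟨e', he', hee', hfe'⟩ := exists_perp_two hP hk3 e₀ f₀
      have hne : e' ∉ Submodule.span F {f₀} := fun hm => by
        obtain ⟨s, rfl⟩ := Submodule.mem_span_singleton.mp hm
        rw [hP.alt.smul_right, mul_eq_zero] at hee'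
        exact he' (by rw [hee'.resolve_right hef, zero_smul])
      obtain ⟨v, hv, hev⟩ := Symp.exists_perp_one hf hne
      let i₁ : Fin t := ⟨0, by have := hP.t_two; omega⟩
      let i₂ : Fin t := ⟨1, by have := hP.t_two; omega⟩
      refine ⟨fun _ => e', fun _ => e₀, fun _ => v, i₁, i₂, by simp [i₁, i₂, Fin.ext_iff],
        ⟨i₁, hee'⟩, ⟨i₁, hfe'⟩, fun _ => hfe, fun _ => by rw [hev]; exact one_ne_zero,
        hP.f1_comm_zero hee', hP.f1_comm_zero (hv _ (Submodule.mem_span_singleton_self _))⟩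
  set p : (Fin t → Fin k) → F := pureTensorVec fun _ => e₀ with hp
  set y : (Fin t → Fin k) → F := pureTensorVec fun _ => f₀ with hy'
  obtain ⟨le, hle'⟩ := hge
  obtain ⟨lf, hlf⟩ := hgf
  have hu : q p = 0 := hP.pure _
  have hw : polar q p (pureTensorVec g) = 0 := hP.polar_pure_zero (l := le) hle'
  obtain ⟨w, hwv⟩ := tensorWreathStandard_pureVec
    (hle (Orth.sg_mem hP.nondeg (by simpa using hn) hu hw)) fun _ : Fin t => f₀
  have hval : pureTensorVec w = y + polar q y p • pureTensorVec g := by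
    rw [← hwv]
    show ap (Orth.sg q p (pureTensorVec g) hu hw) y = _
    rw [Orth.ap_sg, hP.pure g, zero_mul, add_zero,
      show polar q y (pureTensorVec g) = 0 from hP.polar_pure_zero (l := lf) hlf, zero_smul, sub_zero]
  set π := polar q y p with hπ
  have hπ0 : π ≠ 0 := hP.polar_pure_ne fun _ => hfe
  have hpair : ∀ z : Fin t → Fin k → F, polar q (pureTensorVec w) (pureTensorVec z) =
      polar q y (pureTensorVec z) + π * polar q (pureTensorVec g) (pureTensorVec z) := fun z => by
    rw [hval, polar_add_left, polar_smul_left, smul_eq_mul]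
  have hwy : ∀ l, D.f1 (w l) (zy l) ≠ 0 := by
    intro l hl
    have := hpair zy
    rw [hP.polar_pure_zero (l := l) hl, hP.polar_pure_zero (l := i₁) hg1, mul_zero, add_zero] at this
    exact hP.polar_pure_ne hy this.symm
  have hwg : ∀ l, D.f1 (w l) (zg l) ≠ 0 := by
    intro l hl
    have := hpair zg
    rw [hP.polar_pure_zero (l := l) hl,
      show polar q y (pureTensorVec zg) = 0 from hP.polar_pure_zero (l := i₂) hg2, zero_add] at this
    exact mul_ne_zero hπ0 (hP.polar_pure_ne hg) this.symm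
  have hmix := hpair (Function.update zg i₁ (zy i₁))
  rw [show polar q y (pureTensorVec (Function.update zg i₁ (zy i₁))) = 0 from
      hP.polar_pure_zero (l := i₂) (by rw [Function.update_of_ne hi.symm]; exact hg2),
    hP.polar_pure_zero (u := g) (l := i₁) (by rw [Function.update_self]; exact hg1),
    mul_zero, add_zero] at hmix
  refine hP.polar_pure_ne (fun l => ?_) hmix
  by_cases hl : l = i₁
  · subst hl; rw [Function.update_self]; exact hwy _
  · rw [Function.update_of_ne hl]; exact hwg l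

/-- Maximality in standard coordinates from a long root element at pure tensors. -/
theorem isMaximalIn [Finite F] (hn : 5 ≤ k ^ t)
    (hdim : 3 ≤ k ∨ (k = 2 ∧ (2 : F) ≠ 0 ∧ 4 ≤ t))
    (hperf : CfsgLib.Geometric.isom D.f1 ≤
      ⁅CfsgLib.Geometric.isom D.f1, CfsgLib.Geometric.isom D.f1⁆)
    (hdich : ∀ M : Subgroup (GL (Fin t → Fin k) F), Over D M →
      HasPure D M ∨ M ≤ tensorWreathStandard k t F) :
    IsMaximalIn (Cfsg.Geo.omegaGL (⇑q)) (tensorWreathStandard k t F ⊓ Cfsg.Geo.omegaGL (⇑q)) := by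
  refine ⟨lt_of_le_of_ne inf_le_right fun e => hP.not_omega_le hn ?_ (e.ge.trans inf_le_left),
    fun M hHM hMS => ?_⟩
  · rcases hdim with h | ⟨-, -, h⟩
    · exact Or.inr h
    · exact Or.inl (by omega)
  have hM := hP.over_of_le hperf hHM hMS
  rcases hdich M hM with h | h
  · exact Or.inr (le_antisymm hMS
      (omega_le_of_hasPure hP hM (hMS.trans Orth.omegaGL_le) hdim hn h))
  · exact Or.inl (le_antisymm (le_inf h hMS) hHM)

end PForm

/-- A symplectic form is given by its Gram matrix. -/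
lemma symp_eq_gram {f : (Fin k → F) → (Fin k → F) → F} (hf : IsSymplecticForm f) (y z : Fin k → F) :
    f y z = y ⬝ᵥ (gramMatrix f *ᵥ z) := by
  have hsum : ∀ y : Fin k → F, y = ∑ i, y i • (Pi.single i 1 : Fin k → F) := fun y => by
    funext j; simp [Finset.sum_apply, Pi.single_apply]
  let l : (Fin k → F) →ₗ[F] (Fin k → F) →ₗ[F] F :=
    LinearMap.mk₂ F f hf.bilinear.add_left hf.bilinear.smul_left hf.bilinear.add_right
      hf.bilinear.smul_right
  show l y z = _
  conv_lhs => rw [hsum y, hsum z]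
  simp only [map_sum, LinearMap.sum_apply, map_smul, LinearMap.smul_apply, smul_eq_mul,
    dotProduct, Matrix.mulVec, gramMatrix, l, LinearMap.mk₂_apply, Finset.mul_sum]
  rw [Finset.sum_comm]
  exact Finset.sum_congr rfl fun i _ => Finset.sum_congr rfl fun j _ => by ring

/-- Maximality of the stabiliser from the dichotomy for overgroups. -/
theorem isMaximalIn_of_dichotomy {F : Type*} [Field F] [Fintype F] {n : ℕ} (hn : 13 ≤ n)
    (_heven : Even n) (Q : (Fin n → F) → F) (hQ : Cfsg.Geo.IsNondegenerateQuadraticForm Q)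
    (_hplus : Cfsg.Geo.IsPlusTypeOn Q ⊤) (k t : ℕ) (ht : 2 ≤ t)
    (hqt : Odd (Fintype.card F) → Even t) (_hex1 : ¬ (Fintype.card F = 2 ∧ k = 2))
    (hex2 : ¬ (Fintype.card F = 3 ∧ k = 2)) (hex3 : ¬ Odd (Fintype.card F) → 6 ≤ k)
    (e : (Fin n) ≃ (Fin t → Fin k)) (P : Matrix.GeneralLinearGroup (Fin n) F)
    (f₁ : (Fin k → F) → (Fin k → F) → F) (hf₁ : Cfsg.Geo.IsSymplecticForm f₁)
    (hT : Cfsg.Geo.IsTensorPowerFormStructure id (QuadraticMap.polar Q) f₁ e P)
    (hpure : (∀ xs : Fin t → (Fin k → F), Q (Matrix.mulVec (P : Matrix (Fin n) (Fin n) F)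
      ((fun a : Fin t → Fin k => ∏ i, xs i (a i)) ∘ e)) = 0))
    (hdich : ∀ (D : Datum k F), IsAlt D → ∀ M : Subgroup (GL (Fin t → Fin k) F), Over D M →
      HasPure D M ∨ M ≤ Cfsg.Geo.tensorWreathStandard k t F) :
    Cfsg.Geo.IsMaximalIn (Cfsg.Geo.omegaGL Q)
      (Cfsg.Geo.tensorWreathSubgroup k t e P ⊓ Cfsg.Geo.omegaGL Q) := by
  classical
  -- numerical facts
  have hcard : n = k ^ t := by
    have h := Fintype.card_congr e
    simpa [Fintype.card_fun] using h
  have hk2 : 2 ≤ k := by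
    by_contra hlt
    have h1 : k ^ t ≤ 1 := pow_le_one₀ (Nat.zero_le k) (by omega)
    omega
  obtain ⟨m, hm⟩ := Orth.even_of_symp hf₁
  have hkey : (3 ≤ k ∨ (k = 2 ∧ (2 : F) ≠ 0 ∧ 4 ≤ t)) ∧
      ((∃ a : F, a ≠ 0 ∧ a * a ≠ 1) ∨ ((2 : F) ≠ 0 ∧ 4 ≤ k) ∨ 6 ≤ k) := by
    by_cases hodd : Odd (Fintype.card F)
    · have h2 : (2 : F) ≠ 0 := Orth.two_ne_zero_of_odd hodd
      by_cases hk : k = 2
      · refine ⟨Or.inr ⟨hk, h2, ?_⟩, Or.inl ?_⟩
        · obtain ⟨s, hs⟩ := hqt hodd
          by_contra h4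
          have : t = 2 := by omega
          rw [hcard, hk, this] at hn
          norm_num at hn
        · by_contra hno
          push Not at hno
          refine hex2 ⟨?_, hk⟩
          have h11 : (1 : F) ≠ -1 := fun h => h2 (by linear_combination h)
          rw [← Finset.card_univ, show (Finset.univ : Finset F) = {0, 1, -1} by
            ext x
            rcases eq_or_ne x 0 with rfl | hx
            · simp
            · rcases mul_self_eq_one_iff.mp (hno x hx) with h | h <;> simp [h],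
            Finset.card_insert_of_notMem (by simp), Finset.card_insert_of_notMem (by simpa using h11),
            Finset.card_singleton]
      · exact ⟨Or.inl (by omega), Or.inr (Or.inl ⟨h2, by omega⟩)⟩
    · have := hex3 hodd
      exact ⟨Or.inl (by omega), Or.inr (Or.inr this)⟩
  -- the standard coordinates
  have hskew : (gramMatrix f₁)ᵀ = -((gramMatrix f₁).map (RingHom.id F)) := by
    ext a b
    simp only [Matrix.transpose_apply, Matrix.neg_apply, Matrix.map_apply, gramMatrix,
      RingHom.id_apply]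
    exact hf₁.skew _ _
  have hdet : (gramMatrix f₁).det ≠ 0 := by
    intro h0
    obtain ⟨v, hv, hv0⟩ := Matrix.exists_mulVec_eq_zero_iff.mpr h0
    obtain ⟨x, hx⟩ := (hf₁.nondegenerate v hv).1
    exact hx (by rw [symp_eq_gram hf₁, hv0, dotProduct_zero])
  let D : Datum k F := ⟨gramMatrix f₁, RingHom.id F, fun _ => rfl, hskew, hdet⟩
  have hD : IsAlt D := ⟨rfl, fun x => (symp_eq_gram hf₁ x x).symm.trans (hf₁.alternating x)⟩
  let L : ((Fin t → Fin k) → F) →ₗ[F] (Fin n → F) :=
    (Matrix.mulVecLin (P : Matrix (Fin n) (Fin n) F)).comp (LinearMap.funLeft F F e)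
  have hL : ∀ x, L x = (P : Matrix (Fin n) (Fin n) F) *ᵥ (x ∘ e) := fun x => rfl
  let Q₀ := Orth.toQF hQ
  let q : QuadraticForm F ((Fin t → Fin k) → F) := Q₀.comp L
  let φ : GL (Fin n) F ≃* GL (Fin t → Fin k) F := (MulAut.conj P⁻¹).trans (glReindex e)
  have hLsurj : Function.Surjective L := fun v =>
    ⟨(((P⁻¹ : GL (Fin n) F) : Matrix (Fin n) (Fin n) F) *ᵥ v) ∘ e.symm, by
      rw [hL, Function.comp_assoc, Equiv.symm_comp_self, Function.comp_id, Matrix.mulVec_mulVec,
        Units.mul_inv, Matrix.one_mulVec]⟩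
  have hLinj : Function.Injective L := by
    intro x x' h
    rw [hL, hL] at h
    have h' : x ∘ e = x' ∘ e := by
      have := congrArg (((P⁻¹ : GL (Fin n) F) : Matrix (Fin n) (Fin n) F) *ᵥ ·) h
      simpa [Matrix.mulVec_mulVec] using this
    exact e.surjective.injective_comp_right h'
  obtain ⟨c, hc, hT⟩ := hT
  have hpolar : ∀ x y, polar q x y = polar Q (L x) (L y) := fun x y => by
    show Q (L (x + y)) - Q (L x) - Q (L y) = Q (L x + L y) - Q (L x) - Q (L y)
    rw [map_add]
  have hP : PForm D q c :=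
    { alt := hD
      c_ne := hc
      t_two := ht
      polar_eq := fun x y => by
        rw [hpolar, hL, hL, hT]
        congr 1
        simp only [Datum.gram, dotProduct, Matrix.mulVec, pureMat, Matrix.of_apply,
          Finset.mul_sum, id_eq, D]
        exact Finset.sum_congr rfl fun a _ => Finset.sum_congr rfl fun b _ => by ring
      pure := fun v => hpure v
      nondeg := fun x hx => hLinj (by
        rw [map_zero]
        refine Orth.nondeg_toQF hQ (L x) fun z => ?_
        obtain ⟨y, rfl⟩ := hLsurj z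
        exact (hpolar x y).symm.trans (hx y)) }
  have hstd := hP.isMaximalIn (by omega) hkey.1 (isom_le_commutator hD.symp hkey.2)
    (fun M hM => hdich D hD M hM)
  have hφ : ∀ g x, L (ap (φ g) x) = ap g (L x) := by
    intro g x
    have hre : ∀ A : Matrix (Fin n) (Fin n) F,
        (Matrix.reindex e e A *ᵥ x) ∘ e = A *ᵥ (x ∘ e) := fun A => by
      rw [Matrix.reindex_apply, Matrix.submatrix_mulVec_equiv, Function.comp_assoc,
        Equiv.symm_comp_self, Function.comp_id, Equiv.symm_symm]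
    show (P : Matrix (Fin n) (Fin n) F) *ᵥ (((Matrix.reindex e e
      ((P⁻¹ * g * P⁻¹⁻¹ : GL (Fin n) F) : Matrix (Fin n) (Fin n) F)) *ᵥ x) ∘ e) =
        (g : Matrix (Fin n) (Fin n) F) *ᵥ ((P : Matrix (Fin n) (Fin n) F) *ᵥ (x ∘ e))
    rw [hre, inv_inv, Units.val_mul, Units.val_mul, ← Matrix.mulVec_mulVec, ← Matrix.mulVec_mulVec,
      Matrix.mulVec_mulVec _ (P : Matrix (Fin n) (Fin n) F), Units.mul_inv, Matrix.one_mulVec]
  have hmem : ∀ g, φ g ∈ Cfsg.isometryGroup F (⇑q) ↔ g ∈ Cfsg.isometryGroup F (⇑Q₀) := by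
    intro g
    rw [Orth.mem_isometryGroup_iff, Orth.mem_isometryGroup_iff]
    constructor
    · intro h u
      obtain ⟨x, rfl⟩ := hLsurj u
      rw [← hφ]
      exact h x
    · intro h x
      show Q₀ (L (ap (φ g) x)) = Q₀ (L x)
      rw [hφ]
      exact h (L x)
  have hI : (Cfsg.isometryGroup F (⇑Q₀)).map φ.toMonoidHom = Cfsg.isometryGroup F (⇑q) := by
    ext z
    constructor
    · rintro ⟨g, hg, rfl⟩
      exact (hmem g).mpr hg
    · intro hz
      refine ⟨φ.symm z, (hmem _).mp ?_, φ.apply_symm_apply z⟩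
      rwa [φ.apply_symm_apply]
  have hK : (Cfsg.Geo.omegaGL Q).map φ.toMonoidHom = Cfsg.Geo.omegaGL (⇑q) := by
    show (Cfsg.Geo.omegaGL (⇑Q₀)).map φ.toMonoidHom = _
    rw [Orth.omegaGL_eq, Orth.omegaGL_eq, Subgroup.map_commutator, hI]
  have hWW : (tensorWreathSubgroup k t e P).map φ.toMonoidHom = tensorWreathStandard k t F := by
    ext z
    constructor
    · rintro ⟨_, ⟨_, ⟨z', hz', rfl⟩, rfl⟩, rfl⟩
      show glReindex e (P⁻¹ * (P * glReindex e.symm z' * P⁻¹) * P⁻¹⁻¹) ∈ _
      rw [show P⁻¹ * (P * glReindex e.symm z' * P⁻¹) * P⁻¹⁻¹ = glReindex e.symm z' by group,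
        show glReindex e (glReindex (F := F) e.symm z') = z' from
          Units.ext (by ext a b; simp [glReindex])]
      exact hz'
    · intro hz
      refine ⟨_, ⟨_, ⟨z, hz, rfl⟩, rfl⟩, ?_⟩
      show glReindex e (P⁻¹ * (P * glReindex e.symm z * P⁻¹) * P⁻¹⁻¹) = z
      rw [show P⁻¹ * (P * glReindex e.symm z * P⁻¹) * P⁻¹⁻¹ = glReindex e.symm z by group]
      exact Units.ext (by ext a b; simp [glReindex])
  refine isMaximalIn_transport φ hK ?_ hstd
  rw [Subgroup.map_inf _ _ _ φ.injective, hK, hWW]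

end CfsgLib.Geometric.TensorOrth
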