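import Cfsg.Agent.Lib.Geometric.TensorOrth.Fac
import Cfsg.Agent.Lib.Geometric.TensorForm.Pair

/-!
# Operations on products of factor operators

Roots (`1 + c • X` in the group for every `c`) are closed under commuting sums, brackets and
compressions; an overgroup having one product of factor operators of given types has all of them.
-/

set_option autoImplicit false
set_option linter.unusedSectionVars false

namespace CfsgLib.Geometric.TensorOrth

open scoped Matrix MatrixGroups
open Matrix CfsgLib.SmallDim Cfsg.Geo CfsgLib.Geometric.TensorForm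
open CfsgLib.Geometric.TensorHerm (rk rk_mulVec rk_mul slotGL slotGL_val)

variable {k t : ℕ} {F : Type*} [Field F]

local notation "Mk" => Matrix (Fin k) (Fin k) F
local notation "Mt" => Matrix (Fin t → Fin k) (Fin t → Fin k) F

variable {M : Subgroup (GL (Fin t → Fin k) F)} {D : Datum k F}

/-! ## Roots -/

lemma root_iff {X : Mt} : Root F M X ↔ ∀ a : F, Good M (a • X) := by
  constructor
  · intro h a
    obtain ⟨g, hg, hgX⟩ := h.mem a
    exact ⟨Datum.smul_sq h.sq a, g, hg, hgX⟩
  · intro h
    refine ⟨by simpa using (h 1).1, fun a => ?_⟩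
    obtain ⟨-, g, hg, hgX⟩ := h a
    exact ⟨g, hg, hgX⟩

lemma root_good {X : Mt} (h : Root F M X) : Good M X := by simpa using root_iff.1 h 1

lemma root_smul {X : Mt} (h : Root F M X) (c : F) : Root F M (c • X) :=
  root_iff.2 fun a => by rw [smul_smul]; exact root_iff.1 h _

lemma root_add {X Y : Mt} (hX : Root F M X) (hY : Root F M Y) (h1 : X * Y = 0) (h2 : Y * X = 0) :
    Root F M (X + Y) :=
  root_iff.2 fun a => by
    rw [smul_add]
    exact (root_iff.1 hX a).add (root_iff.1 hY a) (by simp [h1]) (by simp [h2])

lemma root_sub {X Y : Mt} (hX : Root F M X) (hY : Root F M Y) (h1 : X * Y = 0) (h2 : Y * X = 0) :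
    Root F M (X - Y) := by
  rw [sub_eq_add_neg, ← neg_one_smul F Y]
  exact root_add hX (root_smul hY _) (by simp [h1]) (by simp [h2])

lemma root_bracket {X Y : Mt} (hX : Root F M X) (hY : Root F M Y) (h1 : X * Y * X = 0)
    (h2 : Y * X * Y = 0) : Root F M (X * Y - Y * X) :=
  root_iff.2 fun a => by
    have := (root_iff.1 hX a).bracket (root_good hY) (by simp [h1]) (by simp [h2])
    simpa [smul_sub] using this

lemma root_conj {X : Mt} (hX : Root F M X) {g : GL (Fin t → Fin k) F} (hg : g ∈ M) :
    Root F M ((g : Mt) * X * ((g⁻¹ : GL (Fin t → Fin k) F) : Mt)) :=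
  root_iff.2 fun a => by
    have := (root_iff.1 hX a).conj hg
    rwa [Matrix.mul_smul, Matrix.smul_mul] at this

/-! ## Products of factors -/

lemma pureMat_mul_eq_zero {f g : Fin t → Mk} (j : Fin t) (h : f j * g j = 0) :
    pureMat f * pureMat g = 0 := by
  rw [← pureMat_mul, pureMat_eq_slot_mul (f * g) j, Pi.mul_apply, h, map_zero, zero_mul]

lemma Over.pureGL_mem (hM : Over D M) {a : Fin t → GL (Fin k) F}
    (ha : ∀ j, a j ∈ CfsgLib.Geometric.isom D.f1) : pureGL a ∈ M := by
  classical
  have key : ∀ s : Finset (Fin t), pureGL (s.piecewise a 1) ∈ M := by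
    intro s
    induction s using Finset.induction_on with
    | empty =>
      have : pureGL (Finset.piecewise ∅ a 1) = (1 : GL (Fin t → Fin k) F) := by
        refine Units.ext ?_
        show pureMat _ = 1
        rw [← pureMat_one]
        simp
        rfl
      rw [this]
      exact one_mem _
    | insert j s hj ih =>
      have : pureGL ((insert j s).piecewise a 1) = slotGL j (a j) * pureGL (s.piecewise a 1) := by
        refine Units.ext ?_
        show pureMat _ = (slotGL j (a j) : Mt) * pureMat _
        rw [slotGL_val, slot_mul_pureMat]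
        congr 1
        funext l
        by_cases h : l = j
        · subst h; simp [hj]
        · simp [h, Finset.piecewise]
      rw [this]
      exact mul_mem (hM.slot_mem j _ (ha j)) ih
  simpa using key Finset.univ

lemma pureGL_conj (a : Fin t → GL (Fin k) F) (f : Fin t → Mk) :
    (pureGL a : Mt) * pureMat f * (((pureGL a)⁻¹ : GL (Fin t → Fin k) F) : Mt) =
      pureMat fun j => (a j : Mk) * f j * (((a j)⁻¹ : GL (Fin k) F) : Mk) := by
  show pureMat (fun j => (a j : Mk)) * pureMat f *
    pureMat (fun j => ((((a j)⁻¹ : GL (Fin k) F)) : Mk)) = _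
  rw [← pureMat_mul, ← pureMat_mul]
  rfl

variable (D) in
/-- Every product of factor operators of the types `τ` is a root of `M`. -/
def HasTy (M : Subgroup (GL (Fin t → Fin k) F)) (τ : Fin t → Ty) : Prop :=
  ∀ f : Fin t → Mk, (∀ l, OfTy D (τ l) (f l)) → Root F M (pureMat f)

variable (hD : IsAlt D) (hM : Over D M)
include hD hM

lemma has_of_root {τ : Fin t → Ty} {f : Fin t → Mk} (hf : ∀ l, OfTy D (τ l) (f l))
    (h : Root F M (pureMat f)) : HasTy D M τ := by
  intro g hg
  choose a ha hag using fun l => OfTy.exists_conj hD (hf l) (hg l)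
  have := root_conj h (hM.pureGL_mem ha)
  rw [pureGL_conj] at this
  simpa only [hag] using this

/-- Exchanging three positions cyclically. -/
lemma HasTy.perm {τ : Fin t → Ty} (h : HasTy D M τ) {π : Equiv.Perm (Fin t)}
    (hπ : (factorPerm π : GL (Fin t → Fin k) F) ∈ M) : HasTy D M (τ ∘ π.symm) := by
  intro f hf
  have := root_conj (h (f ∘ π) fun l => by simpa using hf (π l)) hπ
  rw [factorPerm_mul_pureMat, mul_assoc, Units.mul_inv, mul_one] at this
  simpa [Function.comp_assoc] using this

omit hD hM in
lemma exists_sum_squares [Finite F] (c : F) : ∃ a b : F, a ^ 2 + b ^ 2 = c := by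
  classical
  have := Fintype.ofFinite F
  by_cases h2 : ringChar F = 2
  · obtain ⟨a, ha⟩ := FiniteField.isSquare_of_char_two h2 c
    exact ⟨a, 0, by rw [ha]; ring⟩
  · obtain ⟨a, b, hab⟩ := FiniteField.exists_root_sum_quadratic
      (f := Polynomial.X ^ 2) (g := Polynomial.X ^ 2 - Polynomial.C c)
      (Polynomial.degree_X_pow 2) (Polynomial.degree_X_pow_sub_C two_pos c)
      (FiniteField.odd_card_of_char_ne_two h2)
    exact ⟨a, b, by simpa [sub_eq_zero, add_sub, ← sub_eq_add_neg] using hab⟩

/-- A good multiple of a product with a square-zero factor gives all such products. -/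
lemma has_of_good [Finite F] {τ : Fin t → Ty} {f : Fin t → Mk} (hf : ∀ l, OfTy D (τ l) (f l))
    {i : Fin t} (hi : τ i ≠ .one) {c : F} (hc : c ≠ 0) (h : Good M (c • pureMat f)) :
    HasTy D M τ := by
  refine has_of_root hD hM hf (root_iff.2 fun a => ?_)
  have hsq : ∀ b : F, Good M ((b ^ 2 * c) • pureMat f) := by
    intro b
    by_cases hb : b = 0
    · subst hb
      rw [zero_pow two_ne_zero, zero_mul, zero_smul]
      exact ⟨mul_zero 0, 1, one_mem _, by simp⟩
    obtain ⟨g, hg, hgf⟩ := OfTy.exists_scale hD hi (hf i) (if τ i = .N then b else b ^ 2)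
      (by split_ifs <;> simp [hb])
    obtain ⟨a, ha, hag⟩ := OfTy.exists_conj hD (hf i) hg
    have := h.conj (hM.slot_mem i a ha)
    rw [Matrix.mul_smul, Matrix.smul_mul, ← map_inv, slotGL_val, slotGL_val, slot_mul_pureMat,
      pureMat_mul_slot, Function.update_self, Function.update_idem, hag, ← hgf,
      pureMat_update_smul, Function.update_eq_self, smul_smul] at this
    convert this using 2
    split_ifs <;> ring
  obtain ⟨x, y, hxy⟩ := exists_sum_squares (F := F) (a / c)
  have h0 : pureMat f * pureMat f = 0 := pureMat_mul_eq_zero i (OfTy.sq hD hi (hf i))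
  have := (hsq x).add (hsq y) (by simp [h0]) (by simp [h0])
  rw [← add_smul, ← add_mul, hxy, div_mul_cancel₀ a hc] at this
  exact this

/-- In characteristic two a factor of type `N` may be traded for one of type `A`. -/
lemma HasTy.trade (h2 : (2 : F) = 0) (hk : 4 ≤ k) {τ : Fin t → Ty} (h : HasTy D M τ) {l i : Fin t}
    (hl : τ l = .N) (hil : i ≠ l) (hi : τ i ≠ .one) : HasTy D M (Function.update τ l .A) := by
  intro g hg
  obtain ⟨x, z, hxz, hli, hgl⟩ : OfTy D .A (g l) := by simpa using hg l
  obtain ⟨hx, hz⟩ := li_pair.1 hli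
  have hN : ∀ w, w ≠ 0 → Root F M (pureMat (Function.update g l (rk D w w))) := fun w hw =>
    h _ fun j => by
      by_cases hj : j = l
      · subst hj; rw [hl, Function.update_self]; exact ⟨w, hw, rfl⟩
      · simpa [Function.update_of_ne hj] using hg j
  have hsq : g i * g i = 0 := OfTy.sq hD hi (by simpa [Function.update_of_ne hil] using hg i)
  have hz0 : ∀ u v, pureMat (Function.update g l u) * pureMat (Function.update g l v) = 0 :=
    fun u v => pureMat_mul_eq_zero i (by simp [Function.update_of_ne hil, hsq])
  have e : g l = rk D (x + z) (x + z) - rk D x x - rk D z z := by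
    have h22 : rk D z x + rk D z x = 0 := by
      rw [← two_smul F (rk D z x), h2, zero_smul]
    rw [hgl, al, TensorHerm.rk_add_left, TensorHerm.rk_add_right, TensorHerm.rk_add_right,
      sub_eq_add_neg, ← eq_neg_of_add_eq_zero_left h22]
    abel
  have hxz0 : x + z ≠ 0 := fun h => hz (Submodule.mem_span_singleton.2
    ⟨-1, by rw [neg_one_smul]; exact neg_eq_of_add_eq_zero_right h⟩)
  have hz1 : z ≠ 0 := fun h => hz (h ▸ zero_mem _)
  have key : ∀ u v, pureMat (Function.update g l (u - v)) =
      pureMat (Function.update g l u) - pureMat (Function.update g l v) := by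
    intro u v
    rw [eq_sub_iff_add_eq, ← pureMat_update_add, sub_add_cancel]
  have := root_sub (root_sub (hN _ hxz0) (hN _ hx) (hz0 _ _) (hz0 _ _)) (hN _ hz1)
    (by rw [sub_mul, hz0, hz0, sub_zero]) (by rw [mul_sub, hz0, hz0, sub_zero])
  rwa [← key, ← key, ← e, Function.update_eq_self] at this

/-- Compression by the operator of a transvection at another position. -/
lemma root_compress_one (h2 : (2 : F) ≠ 0) {l j : Fin t} (hjl : j ≠ l) {R : Mk} (hR : R * R = 0)
    {Y : Mt} (hY : SlotFree l Y) (h : Root F M (slot l R * Y)) (z : Fin k → F) :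
    Root F M (slot j (rk D z z) * (slot l R * Y) * slot j (rk D z z)) := by
  set X : Mt := slot l R * Y with hX
  set n : Mt := slot j (rk D z z) with hn
  have hnn : n * n = 0 := by rw [hn, ← map_mul, hD.rk_self_mul, map_zero]
  set e := slotGL (t := t) j (Symp.T hD.symp z 1) with he
  have hev : (e : Mt) = 1 + n := by rw [he, slotGL_val, hD.T_val, one_smul, map_add, map_one]
  have hinv : ((e⁻¹ : GL (Fin t → Fin k) F) : Mt) = 1 - n := inv_val_of hnn hev
  have heM : e ∈ M := hM.slot_mem j _ (Symp.T_mem_isom hD.symp z 1)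
  have hXc : ∀ U V : Mt, SlotFree l U → X * U * X = 0 ∧ (U = V → X * V * X = 0) := by
    intro U V hU
    have : X * U * X = 0 := by
      rw [hX, mul_assoc, mul_assoc, ← mul_assoc U, ← hU, mul_assoc, ← mul_assoc Y, ← hY, mul_assoc,
        ← mul_assoc, ← map_mul, hR, map_zero, zero_mul]
    exact ⟨this, fun h => h ▸ this⟩
  have hnf : SlotFree l n := SlotFree.slot hjl.symm _
  have hone : SlotFree l (1 : Mt) := fun A => by rw [mul_one, one_mul]
  have hadd : ∀ U V : Mt, SlotFree l U → SlotFree l V → SlotFree l (U + V) := fun U V hU hV A => by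
    rw [mul_add, add_mul, hU, hV]
  have hp : Root F M ((1 + n) * X * (1 - n)) := by
    have := root_conj h heM
    rwa [hev, hinv] at this
  have hm : Root F M ((1 - n) * X * (1 + n)) := by
    have := root_conj h (inv_mem heM)
    rwa [inv_inv, hev, hinv] at this
  have hplus : SlotFree l (1 + n) := hadd _ _ hone hnf
  have hminus : SlotFree l (1 - n) := hone.sub hnf
  have prod : ∀ a b c d : Mt, SlotFree l b → SlotFree l c →
      a * X * b * (c * X * d) = 0 := fun a b c d hb hc => by
    calc a * X * b * (c * X * d) = a * (X * (b * c) * X) * d := by simp only [mul_assoc]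
      _ = 0 := by rw [(hXc _ 0 (hb.mul hc)).1, mul_zero, zero_mul]
  have hsum := root_add hp hm (prod _ _ _ _ hminus hminus) (prod _ _ _ _ hplus hplus)
  have h2X : Root F M ((2 : F) • (1 * X * 1)) := by
    rw [one_mul, mul_one]; exact root_smul h 2
  have hd := root_sub hsum h2X (by
      rw [add_mul, Matrix.mul_smul, Matrix.mul_smul, prod _ _ _ _ hminus hone,
        prod _ _ _ _ hplus hone, smul_zero, add_zero])
    (by
      rw [Matrix.smul_mul, mul_add, prod _ _ _ _ hone hplus, prod _ _ _ _ hone hminus, add_zero,
        smul_zero])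
  have e1 : (1 + n) * X * (1 - n) + (1 - n) * X * (1 + n) - (2 : F) • (1 * X * 1) =
      (-2 : F) • (n * X * n) := by
    rw [neg_smul, two_smul, two_smul]
    noncomm_ring
  rw [e1] at hd
  have := root_smul hd (-2 : F)⁻¹
  rwa [smul_smul, inv_mul_cancel₀ (neg_ne_zero.2 h2), one_smul] at this

/-- Compression at several positions. -/
lemma root_compress (h2 : (2 : F) ≠ 0) {l : Fin t} {f : Fin t → Mk} {R : Mk} (hR : R * R = 0)
    {Y : Mt} (hY : SlotFree l Y) (h : Root F M (slot l R * Y))
    (hl : f l = 1) (hf : ∀ j, f j = 1 ∨ ∃ z, f j = rk D z z) :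
    Root F M (pureMat f * (slot l R * Y) * pureMat f) := by
  classical
  have key : ∀ S : Finset (Fin t), Root F M (pureMat (S.piecewise f 1) * (slot l R * Y) *
      pureMat (S.piecewise f 1)) := by
    intro S
    induction S using Finset.induction_on with
    | empty => simpa [pureMat_one] using h
    | insert j S hj ih =>
      rcases hf j with h1 | ⟨z, hz⟩
      · have : (insert j S).piecewise f 1 = S.piecewise f 1 := by
          funext m
          by_cases hm : m = j
          · subst hm; simp [hj, h1]
          · simp [hm, Finset.piecewise]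
        rwa [this]
      by_cases hjl : j = l
      · subst hjl
        have : (insert j S).piecewise f 1 = S.piecewise f 1 := by
          funext m
          by_cases hm : m = j
          · subst hm; simp [hj, hl]
          · simp [hm, Finset.piecewise]
        rwa [this]
      set P : Mt := pureMat (S.piecewise f 1) with hP
      have hPl : SlotFree l P := SlotFree.pureMat (by
        by_cases hm : l ∈ S <;> simp [hm, hl])
      have hre : P * (slot l R * Y) * P = slot l R * (P * Y * P) := by
        rw [← mul_assoc, ← hPl, mul_assoc, mul_assoc, mul_assoc]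
      rw [hre] at ih
      have := root_compress_one hD hM h2 hjl hR ((hPl.mul hY).mul hPl) ih z
      rw [← hre] at this
      have e1 : pureMat ((insert j S).piecewise f 1) = slot j (rk D z z) * P := by
        rw [hP, slot_mul_pureMat]
        congr 1
        funext m
        by_cases hm : m = j
        · subst hm; simp [hj, hz]
        · simp [hm, Finset.piecewise]
      have e2 : pureMat ((insert j S).piecewise f 1) = P * slot j (rk D z z) := by
        rw [e1, (SlotFree.pureMat (i := j) (by simp [hj]) : SlotFree j P)]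
      nth_rewrite 1 [e1]
      rw [e2]
      simpa only [mul_assoc] using this
  simpa using key Finset.univ

omit hM in
/-- Transposition of a factor. -/
lemma ofTy_transpose {ty : Ty} {f : Mk} (h : OfTy D ty f) :
    fᵀ * D.J = (if ty = .N then -1 else 1 : F) • (D.J * f) := by
  have hs : D.Jᵀ = -D.J := by
    rw [D.skew, hD.id, show D.J.map (RingHom.id F) = D.J from Matrix.ext fun _ _ => rfl]
  have hr : ∀ a b : Fin k → F, (rk D a b)ᵀ * D.J = -(D.J * rk D b a) := by
    intro a b
    have hc : ∀ v : Fin k → F, D.σ ∘ v = v := fun v => by rw [hD.id]; rfl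
    rw [rk, rk, hc, hc, Matrix.transpose_vecMulVec, Matrix.vecMulVec_mul, Matrix.mul_vecMulVec,
      ← Matrix.mulVec_transpose, hs, Matrix.neg_mulVec, Matrix.vecMulVec_neg]
  match ty, h with
  | .one, h => simp [show f = 1 from h]
  | .N, ⟨u, _, hf⟩ => simp [hf, hr]
  | .A, ⟨x, z, _, _, hf⟩ =>
    rw [if_neg (by decide), one_smul, hf, al, Matrix.transpose_sub, sub_mul, hr, hr, mul_sub]
    abel

/-- In odd characteristic a root product has an odd number of factors of type `N`. -/
theorem HasTy.odd_N [NeZero k] (h2 : (2 : F) ≠ 0) {τ : Fin t → Ty} (h : HasTy D M τ)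
    {f : Fin t → Mk} (hf : ∀ l, OfTy D (τ l) (f l)) :
    Odd (Finset.univ.filter fun l => τ l = .N).card := by
  by_contra hev
  rw [Nat.not_odd_iff_even] at hev
  set X := pureMat f with hX
  set G := D.gram t with hG
  have hmap : ∀ A : Mt, A.map D.σ = A := fun A => by rw [hD.id]; ext; rfl
  have hr := root_iff.1 (h f hf)
  have hskew : ∀ a : F, a • (Xᵀ * G + G * X) + (a * a) • (Xᵀ * G * X) = 0 := by
    intro a
    obtain ⟨-, g, hg, hgX⟩ := hr a
    have := (D.mem_isom).1 (hM.le hg)
    rw [hmap, hgX, Matrix.transpose_add, Matrix.transpose_one, Matrix.transpose_smul] at this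
    rw [← sub_eq_zero] at this
    rw [← this]
    simp only [add_mul, mul_add, one_mul, mul_one, Matrix.smul_mul, Matrix.mul_smul, smul_add,
      smul_smul]
    abel
  have hXt : Xᵀ * G = G * X := by
    rw [hX, pureMat_transpose, hG, Datum.gram, ← pureMat_mul, ← pureMat_mul,
      show ((fun i => (f i)ᵀ) * fun _ => D.J) = fun i => (if τ i = .N then -1 else 1 : F) •
        (D.J * f i) from funext fun i => ofTy_transpose hD (hf i), pureMat_smul,
      Finset.prod_ite, Finset.prod_const, Finset.prod_const_one, mul_one, hev.neg_one_pow,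
      one_smul]
    rfl
  have h1 := hskew 1
  have h2' := hskew (-1)
  have hzero : (2 : F) • ((2 : F) • (G * X)) = 0 := by
    have h3 := congrArg₂ (· - ·) h1 h2'
    simp only [neg_mul_neg, one_smul, neg_smul, sub_zero] at h3
    rw [hXt] at h3
    rw [← h3, two_smul, two_smul]
    abel
  rw [smul_smul, smul_eq_zero] at hzero
  have hGX := hzero.resolve_left (mul_ne_zero h2 h2)
  have hX0 : X = 0 := by
    calc X = (G⁻¹ * G) * X := by
          rw [Matrix.nonsing_inv_mul _ (isUnit_iff_ne_zero.2 D.gram_det), one_mul]
      _ = 0 := by rw [mul_assoc, hGX, mul_zero]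
  -- a product of non-zero factors is non-zero
  have hne : ∀ l, ∃ a b, f l a b ≠ 0 := fun l => by
    by_contra hc
    push Not at hc
    exact OfTy.ne_zero hD (hf l) (Matrix.ext fun a b => hc a b)
  choose a b hab using hne
  have := congrFun (congrFun hX0 a) b
  rw [hX, pureMat, Matrix.of_apply, Matrix.zero_apply, Finset.prod_eq_zero_iff] at this
  obtain ⟨l, -, hl⟩ := this
  exact hab l hl

end CfsgLib.Geometric.TensorOrth
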