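import Cfsg.Agent.Lib.Geometric.TensorOrth.Adjoint
import Cfsg.Agent.Lib.Geometric.TensorOrth.Extract

/-!
# The radical of the stabiliser of a root operator

In even characteristic an element of an overgroup without proper corners which lies in the
unipotent radical attached to a vector of one factor acts on the other factors by scalars only.
-/

set_option autoImplicit false
set_option linter.unusedSectionVars false

namespace CfsgLib.Geometric.TensorOrth

open scoped Matrix MatrixGroups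
open Matrix CfsgLib.SmallDim Cfsg.Geo CfsgLib.Geometric.TensorForm
open CfsgLib.Geometric.TensorHerm (rk rk_mul slotGL slotGL_val beta beta_free beta_free_of_free
  beta_add beta_sub beta_smul beta_add_left beta_add_right beta_smul_left beta_mul_slot beta_one
  beta_rk_mul_free beta_conj beta_zero beta_of_free ext_beta)
open Rad (cj cj_add cj_sub cj_mul cj_smul cj_free cj_slot cj_slot_ne free_cj corner_mul exists_dual
  exists_outside exists_al corner_scalar al_eq_add good_cj pair_of_notMem)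

variable {k t : ℕ} {F : Type*} [Field F]

local notation "Mk" => Matrix (Fin k) (Fin k) F
local notation "Mt" => Matrix (Fin t → Fin k) (Fin t → Fin k) F

namespace Ctr

variable {D : Datum k F} {act : Finset (Fin t)} {M : Subgroup (GL (Fin t → Fin k) F)}
  {i : Fin t} {u w : Fin k → F}

lemma pureGL_mem_of (S : Submonoid (GL (Fin t → Fin k) F))
    (hS : ∀ l, ∀ a ∈ CfsgLib.Geometric.isom D.f1, slotGL l a ∈ S)
    {a : Fin t → GL (Fin k) F} (ha : ∀ j, a j ∈ CfsgLib.Geometric.isom D.f1) : pureGL a ∈ S := by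
  classical
  have key : ∀ s : Finset (Fin t), pureGL (s.piecewise a 1) ∈ S := by
    intro s
    induction s using Finset.induction_on with
    | empty =>
      have : pureGL (Finset.piecewise ∅ a 1) = (1 : GL (Fin t → Fin k) F) := by
        refine Units.ext ?_
        show pureMat _ = 1
        rw [← pureMat_one]
        simp
        rfl
      rw [this]
      exact one_mem _
    | insert j s hj ih =>
      have : pureGL ((insert j s).piecewise a 1) = slotGL j (a j) * pureGL (s.piecewise a 1) := by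
        refine Units.ext ?_
        show pureMat _ = (slotGL j (a j) : Mt) * pureMat _
        rw [slotGL_val, slot_mul_pureMat]
        congr 1
        funext l
        by_cases h : l = j
        · subst h; simp [hj]
        · simp [h, Finset.piecewise]
      rw [this]
      exact mul_mem (hS j _ (ha j)) ih
  simpa using key Finset.univ

/-- The operators of the unipotent radical attached to the vector `u` of the position `i`. -/
structure IsRad (D : Datum k F) (i : Fin t) (u : Fin k → F)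
    (X : Matrix (Fin t → Fin k) (Fin t → Fin k) F) : Prop where
  left : ∀ b, beta D i X u b = 0
  right : ∀ a, beta D i X a u = 0
  mid : ∀ p q, D.f1 p u = 0 → D.f1 q u = 0 → beta D i X p q = 0

/-- An operator of the radical on the line through `x`. -/
noncomputable def shape (D : Datum k F) (i : Fin t) (u x : Fin k → F)
    (C Z : Matrix (Fin t → Fin k) (Fin t → Fin k) F) :
    Matrix (Fin t → Fin k) (Fin t → Fin k) F :=
  slot i (rk D u x) * C + slot i (rk D x u) * adj D C + slot i (rk D u u) * Z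

variable (hD : IsAlt D) (h2 : (2 : F) = 0)
include hD h2

lemma f1_split (hwu : D.f1 w u = 1) (a : Fin k → F) : D.f1 (a + D.f1 a u • w) u = 0 := by
  rw [D.f1_add_left, D.f1_smul_left, hwu, mul_one]
  exact Rad.add_self_eq_zero h2 _

lemma split_eq (a : Fin k → F) : a = (a + D.f1 a u • w) + D.f1 a u • w := by
  rw [add_assoc, Rad.add_self_eq_zero h2, add_zero]

/-- Operators agreeing on the pieces of the decomposition at `u` agree. -/
lemma ext_split (hwu : D.f1 w u = 1) {X Y : Mt}
    (hpq : ∀ p q, D.f1 p u = 0 → D.f1 q u = 0 → beta D i X p q = beta D i Y p q)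
    (hpw : ∀ p, D.f1 p u = 0 → beta D i X p w = beta D i Y p w)
    (hwq : ∀ q, D.f1 q u = 0 → beta D i X w q = beta D i Y w q)
    (hww : beta D i X w w = beta D i Y w w) : X = Y := by
  refine ext_beta (D := D) (i := i) fun a b => ?_
  obtain ⟨a', s, h1, rfl⟩ : ∃ a' : Fin k → F, ∃ s : F, D.f1 a' u = 0 ∧ a = a' + s • w :=
    ⟨_, _, f1_split hD h2 hwu a, split_eq hD h2 a⟩
  obtain ⟨b', r, h3, rfl⟩ : ∃ b' : Fin k → F, ∃ r : F, D.f1 b' u = 0 ∧ b = b' + r • w :=
    ⟨_, _, f1_split hD h2 hwu b, split_eq hD h2 b⟩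
  simp only [beta_add_left, beta_add_right, beta_smul_left, beta_smul_r hD h2, hpq _ _ h1 h3,
    hpw _ h1, hwq _ h3, hww]

lemma IsRad.add {X Y : Mt} (hX : IsRad D i u X) (hY : IsRad D i u Y) : IsRad D i u (X + Y) where
  left b := by rw [beta_add, hX.left, hY.left, add_zero]
  right a := by rw [beta_add, hX.right, hY.right, add_zero]
  mid p q hp hq := by rw [beta_add, hX.mid p q hp hq, hY.mid p q hp hq, add_zero]

lemma IsRad.adjoint {X : Mt} (hX : IsRad D i u X) : IsRad D i u (adj D X) where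
  left b := by rw [beta_adj hD h2, hX.right, adj_zero]
  right a := by rw [beta_adj hD h2, hX.left, adj_zero]
  mid p q hp hq := by rw [beta_adj hD h2, hX.mid q p hq hp, adj_zero]

lemma IsRad.mul_left_eq_zero (hwu : D.f1 w u = 1) {X Y : Mt} (hX : IsRad D i u X)
    (hY : IsRad D i u Y) {a : Fin k → F} (ha : D.f1 a u = 0) (b : Fin k → F) :
    beta D i (X * Y) a b = 0 := by
  by_cases hu : u = 0
  · rw [hu, f1_comm hD h2, D.f1_zero_left] at hwu
    exact absurd hwu zero_ne_one
  refine beta_eq_zero_of_mul hD h2 (s := u) hu ?_ b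
  have h1 : ∀ b, beta D i Y a b = D.f1 u b • beta D i Y a w := fun b => by
    conv_lhs => rw [split_eq hD h2 (u := u) (w := w) b]
    rw [beta_add_right, beta_smul_r hD h2, hY.mid _ _ ha (f1_split hD h2 hwu b), zero_add,
      f1_comm hD h2 b u]
  have h3 : X * slot i (rk D u u) = 0 :=
    ext_beta (D := D) (i := i) fun p q => by rw [beta_mul_slot, hX.left, smul_zero, beta_zero]
  rw [mul_assoc, mul_slot_rk_eq hD h2 (beta_free _ _ _) h1, ← mul_assoc, h3, zero_mul]

lemma IsRad.mul_right_eq_zero (hwu : D.f1 w u = 1) {X Y : Mt} (hX : IsRad D i u X)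
    (hY : IsRad D i u Y) (a : Fin k → F) {b : Fin k → F} (hb : D.f1 b u = 0) :
    beta D i (X * Y) a b = 0 := by
  refine eq_zero_of_adj (D := D) ?_
  rw [← beta_adj hD h2, adj_mul]
  exact (hY.adjoint hD h2).mul_left_eq_zero hD h2 hwu (hX.adjoint hD h2) hb a

lemma IsRad.mul (hwu : D.f1 w u = 1) {X Y : Mt} (hX : IsRad D i u X) (hY : IsRad D i u Y) :
    IsRad D i u (X * Y) where
  left b := hX.mul_left_eq_zero hD h2 hwu hY (hD.alt u) b
  right a := hX.mul_right_eq_zero hD h2 hwu hY a (hD.alt u)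
  mid p q hp _ := hX.mul_left_eq_zero hD h2 hwu hY hp q

lemma adj_val_sub_one {g : GL (Fin t → Fin k) F} (hg : g ∈ D.isom t) :
    adj D ((g : Mt) - 1) = ((g⁻¹ : GL (Fin t → Fin k) F) : Mt) - 1 := by
  rw [adj_sub, adj_one, adj_isom hD h2 hg]

/-- In the radical, inversion leaves the linear part unchanged. -/
lemma beta_inv_rad (hwu : D.f1 w u = 1) {g : GL (Fin t → Fin k) F} (hg : g ∈ D.isom t)
    (hX : IsRad D i u ((g : Mt) - 1)) {p : Fin k → F} (hp : D.f1 p u = 0) :
    beta D i (((g⁻¹ : GL (Fin t → Fin k) F) : Mt) - 1) p w = beta D i ((g : Mt) - 1) p w := by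
  have h := hX.mul_left_eq_zero hD h2 hwu (hX.adjoint hD h2) hp w
  have e : ((g : Mt) - 1) * (((g⁻¹ : GL (Fin t → Fin k) F) : Mt) - 1) =
      -((g : Mt) - 1) - (((g⁻¹ : GL (Fin t → Fin k) F) : Mt) - 1) := by
    rw [sub_mul, mul_sub, Units.mul_inv]
    simp only [one_mul, mul_one]
    abel
  rw [adj_val_sub_one hD h2 hg, e, beta_sub, TensorHerm.beta_neg, sub_eq_zero, neg_eq hD h2] at h
  exact h.symm

lemma beta_w_left_rad (hwu : D.f1 w u = 1) {g : GL (Fin t → Fin k) F} (hg : g ∈ D.isom t)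
    (hX : IsRad D i u ((g : Mt) - 1)) {q : Fin k → F} (hq : D.f1 q u = 0) :
    beta D i ((g : Mt) - 1) w q = adj D (beta D i ((g : Mt) - 1) q w) := by
  have h := beta_adj hD h2 i (((g⁻¹ : GL (Fin t → Fin k) F) : Mt) - 1) q w
  rw [beta_inv_rad hD h2 hwu hg hX hq, adj_val_sub_one hD h2 (inv_mem hg), inv_inv] at h
  exact h

/-! ## Shapes -/

lemma beta_shape {x : Fin k → F} {C Z : Mt} (hC : SlotFree i C) (hZ : SlotFree i Z)
    (a b : Fin k → F) : beta D i (shape D i u x C Z) a b =
      (D.f1 u b * D.f1 a x) • C + (D.f1 x b * D.f1 a u) • adj D C +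
        (D.f1 u b * D.f1 a u) • Z := by
  rw [shape, beta_add, beta_add, beta_rk_mul_free hC, beta_rk_mul_free (adj_free hC),
    beta_rk_mul_free hZ]

lemma shape_mul {x y : Fin k → F} (hx : D.f1 x u = 0) (hy : D.f1 y u = 0) {C C' Z Z' : Mt}
    (hC : SlotFree i C) (hZ : SlotFree i Z) :
    shape D i u x C Z * shape D i u y C' Z' =
      D.f1 y x • (slot i (rk D u u) * (C * adj D C')) := by
  have hux : D.f1 u x = 0 := by rw [f1_comm hD h2, hx]
  simp only [shape, add_mul, mul_add, corner_mul _ _ _ hC, corner_mul _ _ _ (adj_free hC),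
    corner_mul _ _ _ hZ, rk_mul, hx, hy, hux, hD.alt, zero_smul, map_zero, zero_mul, add_zero,
    zero_add, map_smul, Matrix.smul_mul]

lemma slot_uu_mul_shape {x : Fin k → F} (hx : D.f1 x u = 0) {C Z W : Mt} (hW : SlotFree i W) :
    slot i (rk D u u) * W * shape D i u x C Z = 0 := by
  simp only [shape, mul_add, corner_mul _ _ _ hW, rk_mul, hx, hD.alt, zero_smul, map_zero,
    zero_mul, add_zero]

lemma cj_shape {l : Fin t} (hl : i ≠ l) {a : GL (Fin k) F}
    (ha : slotGL l a ∈ D.isom t) (x : Fin k → F) (C Z : Mt) :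
    cj (slotGL l a) (shape D i u x C Z) =
      shape D i u x (cj (slotGL l a) C) (cj (slotGL l a) Z) := by
  simp only [shape, cj_add, cj_mul, cj_slot_ne hl, adj_cj hD h2 ha]

lemma cj_shape_self {a : GL (Fin k) F} (ha : a ∈ CfsgLib.Geometric.isom D.f1) (hau : ap a u = u)
    {x : Fin k → F} {C Z : Mt} (hC : SlotFree i C) (hZ : SlotFree i Z) :
    cj (slotGL i a) (shape D i u x C Z) = shape D i u (ap a x) C Z := by
  simp only [shape, cj_add, cj_mul, cj_slot, hD.conj_rk ha, hau, cj_free hC,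
    cj_free (adj_free hC), cj_free hZ]

lemma slotGL_mem_isom (l : Fin t) {a : GL (Fin k) F} (ha : a ∈ CfsgLib.Geometric.isom D.f1) :
    slotGL l a ∈ D.isom t := by
  have h1 : (a : Mk)ᵀ * D.J * (a : Mk) = D.J := by
    ext p q
    have h := CfsgLib.Geometric.mem_isom_iff.mp ha (Pi.single p 1) (Pi.single q 1)
    rw [hD.f1_eq, hD.f1_eq, ap_def, ap_def, Matrix.mulVec_single_one, Matrix.mulVec_single_one,
      Matrix.mulVec_single_one, single_dotProduct, one_mul] at h
    rw [Matrix.mul_assoc, Matrix.mul_apply]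
    simpa [dotProduct, Matrix.mul_apply, Matrix.mulVec] using h
  rw [D.mem_isom, Rad.map_id hD, slotGL_val]
  have h3 : (a : Mk)ᵀ * D.J = D.J * ((a⁻¹ : GL (Fin k) F) : Mk) := by
    calc (a : Mk)ᵀ * D.J = (a : Mk)ᵀ * D.J * ((a : Mk) * ((a⁻¹ : GL (Fin k) F) : Mk)) := by
          rw [Units.mul_inv, mul_one]
      _ = _ := by rw [← mul_assoc, h1]
  rw [Rad.slot_adj h3, mul_assoc, ← map_mul, Units.inv_mul, map_one, mul_one]

/-- The members of the corner group on the line through `x`. -/
def Mem (D : Datum k F) (act : Finset (Fin t)) (M : Subgroup (GL (Fin t → Fin k) F)) (i : Fin t)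
    (u x : Fin k → F) (C : Matrix (Fin t → Fin k) (Fin t → Fin k) F) : Prop :=
  SlotFree i C ∧ adj D C = C ∧ (∀ l ∉ act, SlotFree l C) ∧
    ∃ Z, SlotFree i Z ∧ Good M (shape D i u x C Z)

variable (hk : 6 ≤ k) (hM : OverOn D act M) (hN : NoCorner D M)
include hk hM hN

/-- Two lines which are not orthogonal give a scalar. -/
lemma comm_scalar {x y : Fin k → F} (hu : u ≠ 0) (hx : D.f1 x u = 0) (hy : D.f1 y u = 0)
    (hxy : D.f1 x y = 1) {C C' Z Z' : Mt} (hC : SlotFree i C) (hC' : SlotFree i C')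
    (hZ : SlotFree i Z) (hZ' : SlotFree i Z') (hg : Good M (shape D i u x C Z))
    (hg' : Good M (shape D i u y C' Z')) :
    ∃ c : F, C * adj D C' + C' * adj D C = c • 1 := by
  have hyx : D.f1 y x = 1 := by rw [f1_comm hD h2, hxy]
  have hW : ∀ {A B : Mt}, SlotFree i A → SlotFree i B → SlotFree i (A * adj D B) := fun hA hB =>
    hA.mul (adj_free hB)
  have hb := Good.bracket hg hg'
    (by rw [shape_mul hD h2 hx hy hC hZ, Matrix.smul_mul,
      slot_uu_mul_shape hD h2 hx (hW hC hC'), smul_zero])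
    (by rw [shape_mul hD h2 hy hx hC' hZ', Matrix.smul_mul,
      slot_uu_mul_shape hD h2 hy (hW hC' hC), smul_zero])
  rw [shape_mul hD h2 hx hy hC hZ, shape_mul hD h2 hy hx hC' hZ', hxy, hyx, one_smul, one_smul,
    sub_eq_add_neg, neg_eq hD h2, ← mul_add] at hb
  exact corner_scalar hN (Or.inl ⟨u, hu, rfl⟩) (hD.rk_ne_zero hu hu)
    (fun A => by rw [mul_add, add_mul, hW hC hC' A, hW hC' hC A]) hb

/-- The corner group holds scalars only. -/
lemma eq_scalar_of_mem (hi : i ∈ act) {x y : Fin k → F} (hu : u ≠ 0) (hx : D.f1 x u = 0)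
    (hy : D.f1 y u = 0) (hxy : D.f1 x y = 1) {C₀ : Mt} (hC₀ : Mem D act M i u x C₀) :
    ∃ c : F, C₀ = c • 1 := by
  classical
  have : NeZero k := ⟨by omega⟩
  have hxx : D.f1 x x = 0 := hD.alt x
  by_contra hns
  obtain ⟨l, hl⟩ : ∃ l, ¬ SlotFree l C₀ := by
    by_contra h
    push Not at h
    exact hns (eq_scalar_of_slotFree h)
  have hli : i ≠ l := fun e => hl (e ▸ hC₀.1)
  have hsub : ∀ A ∈ {C | Mem D act M i u x C}, ∀ B ∈ {C | Mem D act M i u x C},
      A - B ∈ {C | Mem D act M i u x C} := by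
    rintro A ⟨hA, hA', hA'', Z, hZ, hgA⟩ B ⟨hB, hB', hB'', Z', hZ', hgB⟩
    refine ⟨hA.sub hB, by rw [adj_sub, hA', hB'], fun m hm => (hA'' m hm).sub (hB'' m hm),
      Z - Z', hZ.sub hZ', ?_⟩
    have := hgA.add hgB.neg
      (by rw [mul_neg, shape_mul hD h2 hx hx hA hZ, hxx, zero_smul, neg_zero])
      (by rw [neg_mul, shape_mul hD h2 hx hx hB hZ', hxx, zero_smul, neg_zero])
    convert this using 1
    simp only [shape, adj_sub, mul_sub]
    abel
  have hconj : ∀ m, ∀ a ∈ CfsgLib.Geometric.isom D.f1, ∀ A ∈ {C | Mem D act M i u x C},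
      cj (slotGL m a) A ∈ {C | Mem D act M i u x C} := by
    rintro m a ha A hA
    by_cases hm : m ∈ act ∧ m ≠ i
    · obtain ⟨hA1, hA', hA'', Z, hZ, hgA⟩ := hA
      refine ⟨free_cj (Ne.symm hm.2) a hA1,
        by rw [adj_cj hD h2 (slotGL_mem_isom hD h2 m ha), hA'],
        fun s hs => free_cj (fun e : s = m => hs (e ▸ hm.1)) a (hA'' s hs),
        _, free_cj (Ne.symm hm.2) a hZ, ?_⟩
      rw [← cj_shape hD h2 (Ne.symm hm.2) (slotGL_mem_isom hD h2 m ha)]
      exact good_cj hM hm.1 ha hgA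
    · rw [cj_free ?_]
      · exact hA
      by_cases hmi : m = i
      · exact hmi ▸ hA.1
      · exact hA.2.2.1 m fun hm' => hm ⟨hm', hmi⟩
  obtain ⟨R, Z', hR, hZ'l, hZ'0, hmem, -⟩ := exists_extract hD (l := l) (show 2 ≤ k by omega)
    (Or.inl (by omega)) hsub (hconj l) hC₀ hl
  obtain ⟨ty, hty, hRty⟩ : ∃ ty, ty ≠ Ty.one ∧ OfTy D ty R := by
    rcases hR with h | h
    · exact ⟨.N, by decide, h⟩
    · exact ⟨.A, by decide, h⟩
  obtain ⟨f, f', p, q, c, c', hf, hf', hc, -, hpq, e1, e2⟩ :=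
    exists_free_pair hD (show 2 ≤ k by omega) hty hty (fun _ => by omega) fun _ _ => hk
  -- both operators of the pair may replace the extracted one
  have hmove : ∀ h : Mk, OfTy D ty h → Mem D act M i u x (slot l h * Z') := by
    intro h hh
    obtain ⟨a, ha, hah⟩ := hRty.exists_conj hD hh
    have := hconj l a ha _ hmem
    rwa [cj_mul, cj_slot, hah, cj_free hZ'l] at this
  let P : Set Mt := {Z | SlotFree l Z ∧ Mem D act M i u x (slot l f' * Z)}
  let S : Submonoid (GL (Fin t → Fin k) F) :=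
    { carrier := {g | ∀ Z ∈ P, cj g Z ∈ P}
      one_mem' := fun Z hZ => by simpa [cj] using hZ
      mul_mem' := fun {g g'} hg hg' Z hZ => by rw [← Rad.cj_cj]; exact hg _ (hg' Z hZ) }
  have hS : ∀ m, ∀ a ∈ CfsgLib.Geometric.isom D.f1, slotGL m a ∈ S := by
    intro m a ha Z hZ
    by_cases hml : m = l
    · subst hml; rwa [cj_free hZ.1]
    · refine ⟨free_cj (Ne.symm hml) a hZ.1, ?_⟩
      have := hconj m a ha _ hZ.2
      rwa [Set.mem_setOf_eq, cj_mul, cj_slot_ne (Ne.symm hml)] at this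
  refine hZ'0 (eq_zero_of_isolated hD fun a ha => ?_)
  obtain ⟨hgl, hgm⟩ := pureGL_mem_of S hS ha Z' ⟨hZ'l, hmove f' hf'⟩
  set Z'' := cj (pureGL a) Z' with hZ''
  suffices h0 : Z' * Z'' = 0 by
    have := congrArg (fun X : Mt => X * (pureGL a : Mt)) h0
    rw [hZ'', cj] at this
    simp only [mul_assoc, Units.inv_mul, mul_one, zero_mul] at this
    rw [mul_assoc]
    exact this
  -- move the second operator to the line through `y`
  obtain ⟨hA, hA', -, Z₁, hZ₁, hgA⟩ := hmove f hf
  obtain ⟨hB, hB', -, Z₂, hZ₂, hgB⟩ := hgm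
  have hnot : ∀ {v z : Fin k → F}, D.f1 z u = 0 → D.f1 v z = 1 → v ∉ Submodule.span F {u} := by
    intro v z hz hvz hm
    obtain ⟨s, rfl⟩ := Submodule.mem_span_singleton.1 hm
    rw [D.f1_smul_left, f1_comm hD h2, hz, mul_zero] at hvz
    exact zero_ne_one hvz
  obtain ⟨b, hb, hbu, hbx⟩ := Symp.exists_isom_map_fix hD.symp (w := u) (x := x) (y := y)
    (hnot hy hxy) (hnot hx (by rwa [f1_comm hD h2])) (hx.trans hy.symm)
  have hgB' : Good M (shape D i u y (slot l f' * Z'') Z₂) := by
    have := good_cj hM hi hb hgB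
    rwa [cj_shape_self hD h2 hb hbu hB hZ₂, hbx] at this
  obtain ⟨lam, hlam⟩ := comm_scalar hD h2 hk hM hN hu hx hy hxy hA hB hZ₁ hZ₂ hgA hgB'
  rw [hA', hB', corner_mul _ _ _ hZ'l, corner_mul _ _ _ hgl, e1, e2, map_smul, map_smul,
    Matrix.smul_mul, Matrix.smul_mul] at hlam
  have fZZ : SlotFree l (Z' * Z'') := hZ'l.mul hgl
  have fZZ' : SlotFree l (Z'' * Z') := hgl.mul hZ'l
  have heval : ∀ a b, (c * (D.f1 p b * D.f1 a q)) • (Z' * Z'') +
      (c' * (D.f1 q b * D.f1 a p)) • (Z'' * Z') = (lam * D.f1 a b) • (1 : Mt) := by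
    intro a b
    have := congrArg (fun X => beta D l X a b) hlam
    simp only [beta_add, beta_smul, beta_rk_mul_free fZZ, beta_rk_mul_free fZZ', beta_one,
      smul_smul] at this
    exact this
  have hlam0 : lam = 0 := by
    obtain ⟨a₀, hap, haq, ha₀⟩ := exists_outside hD hk p q
    obtain ⟨b₀, hb₀⟩ := exists_one hD (v := a₀) fun h => ha₀ (h ▸ zero_mem _)
    have := heval a₀ b₀
    rw [hap, haq, mul_zero, mul_zero, mul_zero, mul_zero, zero_smul, zero_smul, add_zero, hb₀,
      mul_one, eq_comm, smul_eq_zero] at this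
    exact this.resolve_right one_ne_zero
  obtain ⟨hp0, hqp⟩ := li_pair.1 hpq
  obtain ⟨a₁, ha₁, ha₁p⟩ := exists_dual hD hqp
  obtain ⟨b₁, hb₁⟩ := exists_one hD hp0
  have := heval a₁ b₁
  rw [hlam0, zero_mul, zero_smul, hb₁, f1_comm hD h2 a₁ q, ha₁, f1_comm hD h2 a₁ p,
    ha₁p p (Submodule.mem_span_singleton_self p), mul_zero, mul_zero, zero_smul, add_zero, mul_one,
    mul_one] at this
  exact (smul_eq_zero.1 this).resolve_left hc

/-- The values of an element of the radical on the perpendicular of `u` are scalars. -/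
theorem radical_scalar (hi : i ∈ act) (hwu : D.f1 w u = 1) {g : GL (Fin t → Fin k) F} (hg : g ∈ M)
    (hX : IsRad D i u ((g : Mt) - 1)) {x₀ : Fin k → F} (hx₀ : D.f1 x₀ u = 0) :
    ∃ c : F, beta D i ((g : Mt) - 1) x₀ w = c • 1 := by
  classical
  have hu : u ≠ 0 := fun h => zero_ne_one (α := F) (by
    rw [← hwu, h, f1_comm hD h2, D.f1_zero_left])
  suffices key : ∀ x, D.f1 x u = 0 → D.f1 x w = 0 → ∃ c : F, beta D i ((g : Mt) - 1) x w = c • 1 by
    have huw : D.f1 u w = 1 := by rw [f1_comm hD h2, hwu]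
    obtain ⟨c, hc⟩ := key (x₀ + D.f1 x₀ w • u)
      (by rw [D.f1_add_left, D.f1_smul_left, hx₀, hD.alt, mul_zero, add_zero])
      (by rw [D.f1_add_left, D.f1_smul_left, huw, mul_one, Rad.add_self_eq_zero h2])
    rw [beta_add_left, beta_smul_left, hX.left, smul_zero, add_zero] at hc
    exact ⟨c, hc⟩
  intro x hxu hxw
  by_cases hx0 : x = 0
  · exact ⟨0, by rw [hx0, zero_smul, ← zero_smul F (0 : Fin k → F), beta_smul_left, zero_smul]⟩
  set X := (g : Mt) - 1 with hXdef
  have hgi : g ∈ D.isom t := hM.le hg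
  set C := beta D i X x w with hCdef
  have hC : SlotFree i C := beta_free _ _ _
  have hCout : ∀ l ∉ act, SlotFree l C := fun l hl => by
    refine beta_free_of_free (fun e => hl (by rwa [e])) ?_ _ _
    exact (hM.free g hg l hl).sub fun A => by rw [mul_one, one_mul]
  -- the commutator with the transvection along `x`
  set T := Symp.T hD.symp x 1 with hT
  have hTm : T ∈ CfsgLib.Geometric.isom D.f1 := Symp.T_mem_isom hD.symp x 1
  have hTinv : ∀ z, ap T⁻¹ z = z + D.f1 z x • x := fun z => by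
    refine ap_injective T ?_
    rw [ap_ap_inv, hT, Symp.ap_T, D.f1_add_left, D.f1_smul_left, hD.alt, mul_zero, add_zero,
      one_mul, add_assoc, Rad.add_self_eq_zero h2, add_zero]
  have hfu : D.f1 u x = 0 := by rw [f1_comm hD h2, hxu]
  have hTu : ap T⁻¹ u = u := by rw [hTinv, hfu, zero_smul, add_zero]
  have hTp : ∀ p, D.f1 p u = 0 → D.f1 (ap T⁻¹ p) u = 0 := fun p hp => by
    rw [hTinv, D.f1_add_left, D.f1_smul_left, hxu, mul_zero, add_zero, hp]
  have hTw : ap T⁻¹ w = w := by rw [hTinv, f1_comm hD h2, hxw, zero_smul, add_zero]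
  set e := slotGL i T with he
  have heM : e ∈ M := hM.slot_mem i hi T hTm
  set g' := e * g * e⁻¹ with hg'
  have hX' : ((g' : GL (Fin t → Fin k) F) : Mt) - 1 = cj e X := by
    rw [hXdef, cj_sub, Rad.cj_one, hg', Units.val_mul, Units.val_mul]; rfl
  have hcj : ∀ p q, beta D i (cj e X) p q = beta D i X (ap T⁻¹ p) (ap T⁻¹ q) := fun p q =>
    beta_conj hTm X p q
  have hradX' : IsRad D i u (cj e X) :=
    ⟨fun b => by rw [hcj, hTu, hX.left], fun a => by rw [hcj, hTu, hX.right],
      fun p q hp hq => by rw [hcj, hX.mid _ _ (hTp p hp) (hTp q hq)]⟩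
  set h := g' * g⁻¹ with hh
  have hhM : h ∈ M := mul_mem (mul_mem (mul_mem heM hg) (inv_mem heM)) (inv_mem hg)
  set Xi := ((g⁻¹ : GL (Fin t → Fin k) F) : Mt) - 1 with hXi
  have hradXi : IsRad D i u Xi := by
    rw [hXi, ← adj_val_sub_one hD h2 hgi]; exact hX.adjoint hD h2
  have hY : (h : Mt) - 1 = cj e X + Xi + cj e X * Xi := by
    rw [← hX', hXi, hh, Units.val_mul, sub_mul, mul_sub, mul_sub]
    simp only [one_mul, mul_one]
    abel
  set Y := (h : Mt) - 1 with hYdef
  have hradY : IsRad D i u Y := hY ▸ (hradX'.add hD h2 hradXi).add hD h2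
    (hradX'.mul hD h2 hwu hradXi)
  have hcY : ∀ p, D.f1 p u = 0 → beta D i Y p w = D.f1 p x • C := by
    intro p hp
    rw [hY, beta_add, beta_add, hradX'.mul_left_eq_zero hD h2 hwu hradXi hp, add_zero, hcj, hTw,
      hTinv, beta_add_left, beta_smul_left, hXi, beta_inv_rad hD h2 hwu hgi hX hp, ← hXdef,
      ← hCdef, add_assoc, add_comm (D.f1 p x • C), ← add_assoc, Rad.add_self_eq_zero h2, zero_add]
  set Z := beta D i Y w w with hZdef
  have hZf : SlotFree i Z := beta_free _ _ _
  have hwx : D.f1 w x = 0 := by rw [f1_comm hD h2, hxw]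
  have hshape : Y = shape D i u x C Z := by
    refine ext_split (i := i) hD h2 hwu (fun p q hp hq => ?_) (fun p hp => ?_) (fun q hq => ?_) ?_ <;>
      rw [beta_shape hD h2 hC hZf]
    · rw [hradY.mid p q hp hq, hp, f1_comm hD h2 u q, hq]
      simp
    · rw [hcY p hp, hp, f1_comm hD h2 u w, hwu]
      simp
    · rw [hYdef, beta_w_left_rad hD h2 hwu (hM.le hhM) hradY hq, ← hYdef, hcY q hq, adj_smul,
        f1_comm hD h2 u q, hq, hwu, f1_comm hD h2 x q]
      simp
    · rw [f1_comm hD h2 u w, hwu, hwx, hxw]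
      simp [hZdef]
  have hgood : Good M (shape D i u x C Z) :=
    ⟨by rw [shape_mul hD h2 hxu hxu hC hZf, hD.alt, zero_smul],
      h, hhM, by rw [← hshape, hYdef, add_sub_cancel]⟩
  -- a vector not orthogonal to `x`
  obtain ⟨y, hxy, hy0⟩ := exists_dual hD
    (show x ∉ Submodule.span F {u} ⊔ Submodule.span F {w} from fun hm => hx0 (by
      obtain ⟨p, hp, q, hq, rfl⟩ := Submodule.mem_sup.1 hm
      obtain ⟨α, rfl⟩ := Submodule.mem_span_singleton.1 hp
      obtain ⟨β, rfl⟩ := Submodule.mem_span_singleton.1 hq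
      simp only [D.f1_add_left, D.f1_smul_left, hD.alt, hwu, f1_comm hD h2 u w, mul_zero,
        mul_one, add_zero, zero_add] at hxu hxw
      rw [hxu, hxw, zero_smul, zero_smul, add_zero]))
  have hyu : D.f1 y u = 0 := by
    rw [f1_comm hD h2]
    exact hy0 u (Submodule.mem_sup_left (Submodule.mem_span_singleton_self u))
  have hone : SlotFree i (1 : Mt) := fun A => by rw [mul_one, one_mul]
  have hzero : SlotFree i (0 : Mt) := fun A => by rw [mul_zero, zero_mul]
  have hE : Good M (shape D i u y (1 : Mt) 0) := by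
    obtain ⟨a, ha, hav, -⟩ := exists_al hD h2 (show D.f1 u y = 0 by rw [f1_comm hD h2, hyu])
    refine ⟨by rw [shape_mul hD h2 hyu hyu hone hzero, hD.alt, zero_smul], slotGL i a,
      hM.slot_mem i hi a ha, ?_⟩
    rw [slotGL_val, hav, map_add, map_one, shape, adj_one, mul_one, mul_one, mul_zero, add_zero,
      al_eq_add h2, map_add]
  obtain ⟨lam, hlam⟩ := comm_scalar hD h2 hk hM hN hu hxu hyu hxy hC hone hZf hzero hgood hE
  rw [adj_one, mul_one, one_mul] at hlam
  have hadj : adj D C = C + lam • 1 := by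
    rw [← hlam, ← add_assoc, Rad.add_self_eq_zero h2, zero_add]
  by_contra hns
  obtain ⟨l, hl⟩ : ∃ l, ¬ SlotFree l C := by
    by_contra h0
    push Not at h0
    have : NeZero k := ⟨by omega⟩
    exact hns (eq_scalar_of_slotFree h0)
  have hli : i ≠ l := fun e0 => hl (e0 ▸ hC)
  have hla : l ∈ act := by
    by_contra h0
    exact hl (hCout l h0)
  obtain ⟨v, hv⟩ : ∃ v, slot l (rk D v v) * C ≠ C * slot l (rk D v v) := by
    by_contra h0
    push Not at h0
    let S : Submodule F Mk :=
      { carrier := {A | slot l A * C = C * slot l A}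
        add_mem' := fun {A B} hA hB => by
          show slot l (A + B) * C = C * slot l (A + B)
          rw [map_add, add_mul, mul_add, hA, hB]
        zero_mem' := by
          show slot l (0 : Mk) * C = C * slot l (0 : Mk)
          rw [map_zero, zero_mul, mul_zero]
        smul_mem' := fun c A hA => by
          show slot l (c • A) * C = C * slot l (c • A)
          rw [map_smul, Matrix.smul_mul, Matrix.mul_smul, hA] }
    refine hl fun A => mem_of_diag hD S (fun A' hA B hB => ?_) h0 A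
    show slot l (A' * B) * C = C * slot l (A' * B)
    rw [map_mul, mul_assoc, hB, ← mul_assoc, hA, mul_assoc]
  set T' := Symp.T hD.symp v 1 with hT'
  have hT'm : T' ∈ CfsgLib.Geometric.isom D.f1 := Symp.T_mem_isom hD.symp v 1
  have hT'i := slotGL_mem_isom (t := t) hD h2 l hT'm
  set E := cj (slotGL l T') C - C with hEdef
  have hE0 : E ≠ 0 := by
    intro h0
    refine hv ?_
    have h1 := congrArg (fun X : Mt => X * (slotGL l T' : Mt)) (sub_eq_zero.1 h0)
    simp only [cj, mul_assoc, Units.inv_mul, mul_one] at h1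
    rw [slotGL_val, hD.T_val, one_smul, map_add, map_one, add_mul, mul_add, one_mul, mul_one]
      at h1
    exact add_left_cancel h1
  have hEmem : Mem D act M i u x E := by
    refine ⟨(free_cj hli _ hC).sub hC, ?_, fun s hs => ?_, cj (slotGL l T') Z - Z,
      (free_cj hli _ hZf).sub hZf, ?_⟩
    · rw [hEdef, adj_sub, adj_cj hD h2 hT'i, hadj, cj_add, cj_smul, Rad.cj_one, add_sub_add_right_eq_sub]
    · exact (free_cj (fun e0 : s = l => hs (e0 ▸ hla)) _ (hCout s hs)).sub (hCout s hs)
    · have hcs := cj_shape hD h2 (u := u) hli hT'i x C Z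
      have hfC := free_cj hli T' hC
      have := (good_cj hM hla hT'm hgood).add hgood.neg
        (by rw [mul_neg, hcs, shape_mul hD h2 hxu hxu hfC (free_cj hli T' hZf), hD.alt, zero_smul,
          neg_zero])
        (by rw [neg_mul, hcs, shape_mul hD h2 hxu hxu hC hZf, hD.alt, zero_smul, neg_zero])
      convert this using 1
      rw [hcs]
      simp only [hEdef, shape, adj_sub, mul_sub]
      abel
  obtain ⟨μ, hμ⟩ := eq_scalar_of_mem hD h2 hk hM hN hi hu hxu hyu hxy hEmem
  obtain ⟨a, hav, -, ha⟩ := exists_outside hD hk v v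
  obtain ⟨b, hab, hbv⟩ := exists_dual hD
    (show a ∉ Submodule.span F {v} from fun hm => ha (Submodule.mem_sup_left hm))
  have hbv' : D.f1 b v = 0 := by
    rw [f1_comm hD h2]; exact hbv v (Submodule.mem_span_singleton_self v)
  have h1 := congrArg (fun X => beta D l X a b) hμ
  have hfix : ∀ z, D.f1 z v = 0 → ap T'⁻¹ z = z := fun z hz => by
    refine ap_injective T' ?_
    rw [ap_ap_inv, hT', Symp.ap_T_fix hD.symp 1 hz]
  simp only [hEdef, beta_sub, cj, beta_conj hT'm, hfix a hav, hfix b hbv', sub_self, beta_smul,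
    beta_one, hab, smul_smul, mul_one] at h1
  have : NeZero k := ⟨by omega⟩
  exact hE0 (by rw [hμ, (smul_eq_zero.1 h1.symm).resolve_right one_ne_zero, zero_smul])

end Ctr

end CfsgLib.Geometric.TensorOrth
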